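import Cfsg.Agent.MinIndexOrth.Dual
import Cfsg.Agent.OrthGeo.RootLines

/-! An action of Omega seen through the root groups of singular vectors: fixed root elements, their
annihilators, and the resulting lower bounds for the number of points. -/

set_option autoImplicit false
set_option linter.unusedSectionVars false

namespace CfsgLib.MinIndexOrth

open Cfsg.Geo CfsgLib.OrthGeo Module
open scoped Matrix MatrixGroups

variable {ι : Type} [Fintype ι] [DecidableEq ι] {F : Type*} [Field F] [Finite F]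
variable {Q : (ι → F) → F}
variable {X : Type*} [MulAction (omegaGL Q) X]

/-- The stabiliser of a point inside the general linear group. -/
def stabGL (x : X) : Subgroup (GL ι F) :=
  (MulAction.stabilizer (omegaGL Q) x).map (omegaGL Q).subtype

lemma mem_stabGL {x : X} {g : GL ι F} :
    g ∈ stabGL (Q := Q) x ↔ ∃ h : g ∈ omegaGL Q, (⟨g, h⟩ : omegaGL Q) • x = x := by
  constructor
  · rintro ⟨k, hk, rfl⟩; exact ⟨k.2, hk⟩
  · rintro ⟨h, hk⟩; exact ⟨⟨g, h⟩, hk, rfl⟩

lemma stabGL_le (x : X) : stabGL (Q := Q) x ≤ omegaGL Q := Subgroup.map_subtype_le _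

lemma stabGL_le_isometry (x : X) : stabGL (Q := Q) x ≤ Cfsg.isometryGroup F Q :=
  (stabGL_le x).trans omegaGL_le

lemma conj_mem_stabGL {x : X} (g : omegaGL Q) {k : GL ι F} (hk : k ∈ stabGL (Q := Q) x) :
    (g : GL ι F) * k * (g : GL ι F)⁻¹ ∈ stabGL (Q := Q) (g • x) := by
  obtain ⟨k', hk', rfl⟩ := hk
  refine ⟨g * k' * g⁻¹, ?_, rfl⟩
  show (g * k' * g⁻¹) • g • x = g • x
  rw [mul_smul, mul_smul, inv_smul_smul, MulAction.mem_stabilizer_iff.1 hk']

variable (hQ : IsNondegenerateQuadraticForm Q)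
include hQ

lemma eichlerMat_zero_left (w : ι → F) : eichlerMat Q 0 w = 1 := by
  refine Matrix.ext_of_mulVec_single fun i => ?_
  generalize (Pi.single i 1 : ι → F) = y
  rw [eichlerMat_mulVec hQ]
  simp

lemma eichlerMat_smul_left {u : ι → F} (w : ι → F) (c : F) :
    eichlerMat Q (c • u) w = eichlerMat Q u (c • w) := by
  refine Matrix.ext_of_mulVec_single fun i => ?_
  generalize (Pi.single i 1 : ι → F) = y
  rw [eichlerMat_mulVec hQ, eichlerMat_mulVec hQ, q_smul hQ]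
  simp only [map_smul, LinearMap.smul_apply, smul_eq_mul]
  module

/-- The vectors perpendicular to `u` whose root element fixes the point. -/
noncomputable def fixW (u : ι → F) (x : X) : AddSubgroup (ι → F) where
  carrier := {w | bform hQ u w = 0 ∧ (Q u = 0 → EIn Q (stabGL (Q := Q) x) u w)}
  zero_mem' := ⟨map_zero _, fun _ => ⟨1, one_mem _, by rw [eichlerMat_zero hQ, Units.val_one]⟩⟩
  add_mem' := by
    rintro a b ⟨ha, ha'⟩ ⟨hb, hb'⟩
    exact ⟨by rw [map_add, ha, hb, add_zero], fun hu => (ha' hu).add hQ (hb' hu) hu ha hb⟩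
  neg_mem' := by
    rintro a ⟨ha, ha'⟩
    exact ⟨by rw [map_neg, ha, neg_zero], fun hu => (ha' hu).neg hQ hu ha⟩

lemma mem_fixW {u w : ι → F} (hu : Q u = 0) {x : X} :
    w ∈ fixW hQ u x ↔ bform hQ u w = 0 ∧ EIn Q (stabGL (Q := Q) x) u w :=
  ⟨fun h => ⟨h.1, h.2 hu⟩, fun h => ⟨h.1, fun _ => h.2⟩⟩

lemma fixW_le_perp (u : ι → F) (x : X) :
    fixW hQ u x ≤ (perp hQ (Submodule.span F {u})).toAddSubgroup :=
  fun _ hw => (mem_perp_span_singleton hQ).2 hw.1

lemma smul_self_mem_fixW {u : ι → F} (hu : Q u = 0) (c : F) (x : X) : c • u ∈ fixW hQ u x := by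
  refine (mem_fixW hQ hu).2 ⟨by rw [map_smul, b_self_eq_zero hQ hu, smul_zero], 1, one_mem _, ?_⟩
  rw [← zero_add (c • u), eichlerMat_add_smul hQ hu (map_zero _), eichlerMat_zero hQ, Units.val_one]

lemma span_self_le_fixW {u : ι → F} (hu : Q u = 0) (x : X) :
    (Submodule.span F {u}).toAddSubgroup ≤ fixW hQ u x := by
  intro w hw
  obtain ⟨c, rfl⟩ := Submodule.mem_span_singleton.1 hw
  exact smul_self_mem_fixW hQ hu c x

lemma mem_fixW_smul_left {u w : ι → F} (hu : Q u = 0) {c : F} (hc : c ≠ 0) {x : X} :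
    w ∈ fixW hQ (c • u) x ↔ c • w ∈ fixW hQ u x := by
  rw [mem_fixW hQ (by rw [q_smul hQ, hu, mul_zero]), mem_fixW hQ hu, map_smul, LinearMap.smul_apply,
    map_smul, EIn, EIn]
  simp only [eichlerMat_smul_left hQ, smul_eq_zero, hc, false_or]

/-- A root element of two orthogonal singular vectors belongs to both root groups. -/
lemma fixW_symm {u w : ι → F} (hu : Q u = 0) (hw : Q w = 0) {x : X} (h : w ∈ fixW hQ u x) :
    u ∈ fixW hQ w x := by
  obtain ⟨h1, h2⟩ := (mem_fixW hQ hu).1 h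
  exact (mem_fixW hQ hw).2 ⟨by rw [b_symm hQ, h1], h2.swap hQ hu hw h1⟩

lemma fixW_map_le {u w : ι → F} (g : omegaGL Q) {x : X} (h : w ∈ fixW hQ u x) :
    ((g : GL ι F) : Matrix ι ι F) *ᵥ w ∈
      fixW hQ (((g : GL ι F) : Matrix ι ι F) *ᵥ u) (g • x) := by
  have hgI := omegaGL_le g.2
  refine ⟨by rw [isometry_b hQ hgI]; exact h.1, fun hgu => ?_⟩
  have hu : Q u = 0 := by rwa [mem_isometryGroup.1 hgI] at hgu
  obtain ⟨k, hk, e⟩ := h.2 hu
  refine ⟨_, conj_mem_stabGL g hk, ?_⟩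
  have hgw : bform hQ (((g : GL ι F) : Matrix ι ι F) *ᵥ u) (((g : GL ι F) : Matrix ι ι F) *ᵥ w) = 0 := by
    rw [isometry_b hQ hgI]; exact h.1
  rw [show k = eichler hQ hu h.1 from Units.ext e, conj_eichler hQ hgI hu h.1 hgu hgw rfl rfl]
  rfl

lemma mem_fixW_map {u w : ι → F} (g : omegaGL Q) {x : X} :
    ((g : GL ι F) : Matrix ι ι F) *ᵥ w ∈ fixW hQ (((g : GL ι F) : Matrix ι ι F) *ᵥ u) (g • x) ↔
      w ∈ fixW hQ u x := by
  refine ⟨fun h => ?_, fixW_map_le hQ g⟩
  have := fixW_map_le hQ g⁻¹ h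
  rwa [inv_smul_smul, InvMemClass.coe_inv, inv_mulVec_cancel, inv_mulVec_cancel] at this

lemma mem_fixW_stab {u w : ι → F} {g : GL ι F} {x : X} (hg : g ∈ stabGL (Q := Q) x) :
    (g : Matrix ι ι F) *ᵥ w ∈ fixW hQ ((g : Matrix ι ι F) *ᵥ u) x ↔ w ∈ fixW hQ u x := by
  obtain ⟨h, hx⟩ := mem_stabGL.1 hg
  have := mem_fixW_map hQ (u := u) (w := w) ⟨g, h⟩ (x := x)
  rwa [hx] at this

/-- The annihilator of the fixed root elements. -/
noncomputable def annW (u : ι → F) (x : X) : AddSubgroup (ι → F) := annS hQ (fixW hQ u x)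

lemma self_mem_annW {u : ι → F} (c : F) (x : X) : c • u ∈ annW hQ u x := fun w hw => by
  rw [map_smul, b_symm hQ w u, hw.1, smul_zero, AddChar.map_zero_eq_one]

lemma b_eq_zero_of_mem_annW {u a : ι → F} (hu : Q u = 0) {x : X} (ha : a ∈ annW hQ u x) :
    bform hQ u a = 0 :=
  annS_le_perp hQ (span_self_le_fixW hQ hu x) ha u (Submodule.mem_span_singleton_self u)

lemma span_self_le_annW (u : ι → F) (x : X) : (Submodule.span F {u}).toAddSubgroup ≤ annW hQ u x := by
  intro w hw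
  obtain ⟨c, rfl⟩ := Submodule.mem_span_singleton.1 hw
  exact self_mem_annW hQ c x

lemma annS_annW (u : ι → F) (x : X) : annS hQ (annW hQ u x) = fixW hQ u x := annS_annS hQ _

/-- Scaling composed with an element of Omega. -/
noncomputable def scaleMove (c : F) (g : omegaGL Q) : (ι → F) →ₗ[F] (ι → F) :=
  c • Matrix.mulVecLin ((g : GL ι F) : Matrix ι ι F)

lemma scaleMove_apply (c : F) (g : omegaGL Q) (w : ι → F) :
    scaleMove (Q := Q) c g w = c • (((g : GL ι F) : Matrix ι ι F) *ᵥ w) := rfl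

lemma scaleMove_injective {c : F} (hc : c ≠ 0) (g : omegaGL Q) :
    Function.Injective (scaleMove (Q := Q) c g) := by
  intro a b h
  simp only [scaleMove_apply hQ] at h
  have h' := congrArg (fun y => (((g : GL ι F)⁻¹ : GL ι F) : Matrix ι ι F) *ᵥ (c⁻¹ • y)) h
  simpa [inv_smul_smul₀ hc, inv_mulVec_cancel] using h'

lemma fixW_smul {u : ι → F} (hu : Q u = 0) {c : F} (hc : c ≠ 0) (g : omegaGL Q)
    (hg : ((g : GL ι F) : Matrix ι ι F) *ᵥ u = c • u) (x : X) :
    fixW hQ u (g • x) = (fixW hQ u x).map (scaleMove (Q := Q) c g).toAddMonoidHom := by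
  have key : ∀ w, c • (((g : GL ι F) : Matrix ι ι F) *ᵥ w) ∈ fixW hQ u (g • x) ↔ w ∈ fixW hQ u x := by
    intro w
    rw [← mem_fixW_smul_left hQ hu hc, ← hg, mem_fixW_map hQ g]
  ext w
  constructor
  · intro hw
    refine ⟨(((g : GL ι F)⁻¹ : GL ι F) : Matrix ι ι F) *ᵥ (c⁻¹ • w), (key _).1 ?_, ?_⟩
    · rwa [mulVec_inv_cancel, smul_inv_smul₀ hc]
    · show c • _ = w
      rw [Matrix.mulVecLin_apply, mulVec_inv_cancel, smul_inv_smul₀ hc]
  · rintro ⟨y, hy, rfl⟩
    exact (key y).2 hy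

lemma annW_smul {u : ι → F} (hu : Q u = 0) {c : F} (hc : c ≠ 0) (g : omegaGL Q)
    (hg : ((g : GL ι F) : Matrix ι ι F) *ᵥ u = c • u) (x : X) :
    annW hQ u (g • x) = (annW hQ u x).map (scaleMove (Q := Q) c⁻¹ g).toAddMonoidHom := by
  have hgI := omegaGL_le g.2
  have key : ∀ a w : ι → F, bform hQ (c • (((g : GL ι F) : Matrix ι ι F) *ᵥ w))
      (c⁻¹ • (((g : GL ι F) : Matrix ι ι F) *ᵥ a)) = bform hQ w a := fun a w => by
    simp only [map_smul, LinearMap.smul_apply, isometry_b hQ hgI, smul_eq_mul]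
    field_simp
  rw [annW, fixW_smul hQ hu hc g hg]
  ext a
  constructor
  · intro ha
    refine ⟨(((g : GL ι F)⁻¹ : GL ι F) : Matrix ι ι F) *ᵥ (c • a), fun w hw => ?_, ?_⟩
    · have := ha _ ⟨w, hw, rfl⟩
      rw [← key, mulVec_inv_cancel, inv_smul_smul₀ hc]
      exact this
    · show c⁻¹ • _ = a
      rw [Matrix.mulVecLin_apply, mulVec_inv_cancel, inv_smul_smul₀ hc]
  · rintro ⟨a', ha', rfl⟩ _ ⟨w, hw, rfl⟩
    show chi F (bform hQ (c • _) (c⁻¹ • _)) = 1
    rw [Matrix.mulVecLin_apply, Matrix.mulVecLin_apply, key]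
    exact ha' w hw

/-- The root group of `u` as a homomorphism. -/
noncomputable def rootHom (hn : 5 ≤ Fintype.card ι) {u : ι → F} (hu : Q u = 0) :
    Multiplicative (perp hQ (Submodule.span F {u})) →* omegaGL Q where
  toFun w := ⟨eichler hQ hu ((mem_perp_span_singleton hQ).1 w.toAdd.2), eichler_mem_omega hQ hn hu _⟩
  map_one' := Subtype.ext (Units.ext (eichlerMat_zero hQ u))
  map_mul' a b := Subtype.ext
    (eichler_mul hQ hu ((mem_perp_span_singleton hQ).1 a.toAdd.2) ((mem_perp_span_singleton hQ).1 b.toAdd.2)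
      ((mem_perp_span_singleton hQ).1 (a * b).toAdd.2)).symm

lemma rootHom_val (hn : 5 ≤ Fintype.card ι) {u : ι → F} (hu : Q u = 0)
    (w : Multiplicative (perp hQ (Submodule.span F {u}))) :
    (((rootHom hQ hn hu w : omegaGL Q) : GL ι F) : Matrix ι ι F) = eichlerMat Q u (w.toAdd : ι → F) := rfl

lemma rootHom_smul_eq_iff (hn : 5 ≤ Fintype.card ι) {u : ι → F} (hu : Q u = 0)
    (w : Multiplicative (perp hQ (Submodule.span F {u}))) (x : X) :
    rootHom hQ hn hu w • x = x ↔ (w.toAdd : ι → F) ∈ fixW hQ u x := by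
  rw [mem_fixW hQ hu]
  constructor
  · exact fun h => ⟨(mem_perp_span_singleton hQ).1 w.toAdd.2, _, ⟨_, h, rfl⟩, rfl⟩
  · rintro ⟨-, g, ⟨k, hk, rfl⟩, e⟩
    rw [show rootHom hQ hn hu w = k from Subtype.ext (Units.ext e.symm)]
    exact hk

lemma card_perp_singleton {u : ι → F} (hu0 : u ≠ 0) :
    Nat.card (perp hQ (Submodule.span F {u})) = Nat.card F ^ (Fintype.card ι - 1) := by
  rw [Module.natCard_eq_pow_finrank (K := F), finrank_perp hQ, finrank_span_singleton hu0]

/-- The orbit of a root group. -/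
noncomputable def rootOrbit (hn : 5 ≤ Fintype.card ι) {u : ι → F} (hu : Q u = 0) (x : X) : Set X :=
  Set.range fun w => rootHom hQ hn hu w • x

lemma card_rootOrbit_mul_fixW (hn : 5 ≤ Fintype.card ι) {u : ι → F} (hu : Q u = 0) (hu0 : u ≠ 0) (x : X) :
    Nat.card (rootOrbit hQ hn hu x) * Nat.card (fixW hQ u x) = Nat.card F ^ (Fintype.card ι - 1) := by
  let _ : MulAction (Multiplicative (perp hQ (Submodule.span F {u}))) X :=
    MulAction.compHom X (rootHom hQ hn hu)
  have h := Nat.card_congr (MulAction.orbitProdStabilizerEquivGroup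
    (Multiplicative (perp hQ (Submodule.span F {u}))) x)
  rw [Nat.card_prod, Nat.card_congr Multiplicative.toAdd, card_perp_singleton hQ hu0] at h
  rw [← h]
  congr 1
  refine Nat.card_congr
    { toFun := fun w => ⟨Multiplicative.ofAdd ⟨w.1, fixW_le_perp hQ u x w.2⟩,
        (rootHom_smul_eq_iff hQ hn hu _ x).2 w.2⟩
      invFun := fun s => ⟨s.1.toAdd.1, (rootHom_smul_eq_iff hQ hn hu _ x).1 s.2⟩
      left_inv := fun w => rfl
      right_inv := fun s => rfl }

lemma card_rootOrbit (hn : 5 ≤ Fintype.card ι) {u : ι → F} (hu : Q u = 0) (hu0 : u ≠ 0) (x : X) :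
    Nat.card F * Nat.card (rootOrbit hQ hn hu x) = Nat.card (annW hQ u x) := by
  have h1 := card_rootOrbit_mul_fixW hQ hn hu hu0 x
  have h2 := card_annS_mul hQ (fixW hQ u x)
  have h3 : Nat.card F ^ Fintype.card ι = Nat.card F * Nat.card F ^ (Fintype.card ι - 1) := by
    rw [← pow_succ']; congr 1; omega
  rw [h3, ← h1, ← mul_assoc] at h2
  exact (Nat.eq_of_mul_eq_mul_right Nat.card_pos h2).symm

lemma fixW_rootOrbit (hn : 5 ≤ Fintype.card ι) {u : ι → F} (hu : Q u = 0) {x y : X}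
    (hy : y ∈ rootOrbit hQ hn hu x) : fixW hQ u y = fixW hQ u x := by
  obtain ⟨w, rfl⟩ := hy
  ext z
  constructor <;> intro hz <;>
    (have hz' : z ∈ perp hQ (Submodule.span F {u}) := fixW_le_perp hQ u _ hz
     have h := (rootHom_smul_eq_iff hQ hn hu (Multiplicative.ofAdd ⟨z, hz'⟩) _).2 hz
     refine (rootHom_smul_eq_iff hQ hn hu (Multiplicative.ofAdd ⟨z, hz'⟩) _).1 ?_)
  · have := congrArg (fun p => (rootHom hQ hn hu w)⁻¹ • p) h
    simpa [smul_smul, ← map_inv, ← map_mul, mul_comm, mul_left_comm] using this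
  · rw [smul_smul, ← map_mul, mul_comm, map_mul, mul_smul]
    exact congrArg (rootHom hQ hn hu w • ·) h

/-- The root orbits with different annihilators are disjoint. -/
lemma sum_card_annW_le [Finite X] (hn : 5 ≤ Fintype.card ι) {u : ι → F} (hu : Q u = 0) (hu0 : u ≠ 0)
    (s : Finset (AddSubgroup (ι → F))) (hs : ∀ B ∈ s, ∃ y : X, annW hQ u y = B) :
    ∑ B ∈ s, Nat.card B ≤ Nat.card F * Nat.card X := by
  classical
  have := Fintype.ofFinite X
  rcases s.eq_empty_or_nonempty with rfl | ⟨B₀, hB₀⟩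
  · simp
  have : Nonempty X := ⟨(hs B₀ hB₀).choose⟩
  choose! f hf using hs
  have hdis : (s : Set (AddSubgroup (ι → F))).PairwiseDisjoint
      fun B => (rootOrbit hQ hn hu (f B)).toFinset := by
    intro B hB C hC hne
    refine Finset.disjoint_left.2 fun y hy hy' => hne ?_
    rw [← hf B hB, ← hf C hC, annW, annW, ← fixW_rootOrbit hQ hn hu (Set.mem_toFinset.1 hy),
      ← fixW_rootOrbit hQ hn hu (Set.mem_toFinset.1 hy')]
  calc ∑ B ∈ s, Nat.card B = ∑ B ∈ s, Nat.card F * ((rootOrbit hQ hn hu (f B)).toFinset).card :=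
        Finset.sum_congr rfl fun B hB => by
          rw [Set.toFinset_card, ← Nat.card_eq_fintype_card, card_rootOrbit hQ hn hu hu0, hf B hB]
    _ = Nat.card F * (s.biUnion fun B => (rootOrbit hQ hn hu (f B)).toFinset).card := by
          rw [Finset.card_biUnion hdis, Finset.mul_sum]
    _ ≤ Nat.card F * Nat.card X := by
          rw [Nat.card_eq_fintype_card (α := X)]
          exact Nat.mul_le_mul_left _ (Finset.card_le_univ _)

open scoped Classical in
/-- The annihilators at the translates of the point under the stabiliser of the line of `u`. -/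
noncomputable def family [Finite X] (u : ι → F) (x : X) : Finset (AddSubgroup (ι → F)) :=
  haveI := Fintype.ofFinite X
  (Finset.univ.filter fun y : X => ∃ g : omegaGL Q, (∃ c : F, c ≠ 0 ∧
    ((g : GL ι F) : Matrix ι ι F) *ᵥ u = c • u) ∧ g • x = y).image (annW hQ u)

lemma mem_family [Finite X] {u : ι → F} {x : X} {B : AddSubgroup (ι → F)} :
    B ∈ family hQ u x ↔ ∃ g : omegaGL Q, (∃ c : F, c ≠ 0 ∧ ((g : GL ι F) : Matrix ι ι F) *ᵥ u = c • u) ∧
      annW hQ u (g • x) = B := by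
  simp only [family, Finset.mem_image, Finset.mem_filter, Finset.mem_univ, true_and]
  constructor
  · rintro ⟨y, ⟨g, hg, rfl⟩, rfl⟩; exact ⟨g, hg, rfl⟩
  · rintro ⟨g, hg, rfl⟩; exact ⟨_, ⟨g, hg, rfl⟩, rfl⟩

lemma annW_mem_family [Finite X] (u : ι → F) (x : X) : annW hQ u x ∈ family hQ u x :=
  (mem_family hQ).2 ⟨1, ⟨1, one_ne_zero, by simp⟩, by rw [one_smul]⟩

lemma card_of_mem_family [Finite X] {u : ι → F} (hu : Q u = 0) {x : X} {B : AddSubgroup (ι → F)}
    (hB : B ∈ family hQ u x) : Nat.card B = Nat.card (annW hQ u x) := by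
  obtain ⟨g, ⟨c, hc, hg⟩, rfl⟩ := (mem_family hQ).1 hB
  rw [annW_smul hQ hu hc g hg]
  exact (Nat.card_congr (AddSubgroup.equivMapOfInjective _ _
    (scaleMove_injective hQ (inv_ne_zero hc) g)).toEquiv).symm

lemma family_map [Finite X] {u : ι → F} (hu : Q u = 0) {x : X} {B : AddSubgroup (ι → F)}
    (hB : B ∈ family hQ u x) {c : F} (hc : c ≠ 0) (g : omegaGL Q)
    (hg : ((g : GL ι F) : Matrix ι ι F) *ᵥ u = c • u) :
    B.map (scaleMove (Q := Q) c⁻¹ g).toAddMonoidHom ∈ family hQ u x := by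
  obtain ⟨k, ⟨d, hd, hk⟩, rfl⟩ := (mem_family hQ).1 hB
  refine (mem_family hQ).2 ⟨g * k, ⟨d * c, mul_ne_zero hd hc, ?_⟩, ?_⟩
  · rw [Subgroup.coe_mul, Units.val_mul, ← Matrix.mulVec_mulVec, hk, Matrix.mulVec_smul, hg, smul_smul]
  · rw [mul_smul, annW_smul hQ hu hc g hg]

lemma card_family_mul_le [Finite X] (hn : 5 ≤ Fintype.card ι) {u : ι → F} (hu : Q u = 0) (hu0 : u ≠ 0)
    (x : X) : (family hQ u x).card * Nat.card (annW hQ u x) ≤ Nat.card F * Nat.card X := by
  have h := sum_card_annW_le hQ hn hu hu0 (family hQ u x) fun B hB => by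
    obtain ⟨g, -, hg⟩ := (mem_family hQ).1 hB; exact ⟨_, hg⟩
  rwa [Finset.sum_congr rfl fun B hB => card_of_mem_family hQ hu hB, Finset.sum_const, smul_eq_mul] at h

end CfsgLib.MinIndexOrth
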