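import Cfsg.Agent.MinIndexOrth.Cover

/-! A root group either acts freely at a point or fixes it up to a two-dimensional space: the case of an
annihilator with a non-singular vector. -/

set_option autoImplicit false
set_option linter.unusedSectionVars false
set_option linter.unusedSimpArgs false

namespace CfsgLib.MinIndexOrth

open Cfsg.Geo CfsgLib.OrthGeo Module
open scoped Matrix MatrixGroups

variable {ι : Type} [Fintype ι] [DecidableEq ι] {F : Type*} [Field F] [Finite F]
variable {Q : (ι → F) → F}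

lemma two_le_natCard : 2 ≤ Nat.card F := Finite.one_lt_card

lemma natCard_submodule (W : Submodule F (ι → F)) :
    Nat.card W.toAddSubgroup = Nat.card F ^ finrank F W :=
  show Nat.card W = _ from Module.natCard_eq_pow_finrank (K := F)

variable (hQ : IsNondegenerateQuadraticForm Q)
include hQ

/-- A hyperbolic pair in the perp of a small space that sees a given vector outside the space. -/
lemma exists_pair_seeing {S : Submodule F (ι → F)} (hS : finrank F S ≤ 2) (hn : 7 ≤ Fintype.card ι)
    {y : ι → F} (hy : y ∉ S) :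
    ∃ e ∈ perp hQ S, ∃ f ∈ perp hQ S, Q e = 0 ∧ Q f = 0 ∧ bform hQ e f = 1 ∧ bform hQ e y ≠ 0 := by
  obtain ⟨w, hw, hwQ, -, hwS⟩ := exists_singular_avoid hQ (T := perp hQ S) (P := S) (by
    have := finrank_perp_add hQ S
    omega)
  obtain ⟨p, hp, hpQ, hwp⟩ : ∃ p ∈ perp hQ S, Q p = 0 ∧ bform hQ w p = 1 := by
    obtain ⟨p, hp, -, hpw⟩ := exists_b_one_mem hQ (S := perp hQ S) (T := (⊥ : Submodule F (ι → F))) (v := w)
      (by rwa [bot_sup_eq, perp_perp hQ])
    refine ⟨p - Q p • w, Submodule.sub_mem _ hp (Submodule.smul_mem _ _ hw), ?_, ?_⟩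
    · rw [q_sub hQ, q_smul hQ, hwQ, map_smul, smul_eq_mul, b_symm hQ p w, hpw]; ring
    · rw [map_sub, map_smul, b_self_eq_zero hQ hwQ, hpw, smul_zero, sub_zero]
  by_cases h0 : bform hQ w y = 0
  swap
  · exact ⟨w, hw, p, hp, hwQ, hpQ, hwp, h0⟩
  by_cases h1 : bform hQ p y = 0
  swap
  · exact ⟨p, hp, w, hw, hpQ, hwQ, by rw [b_symm hQ]; exact hwp, h1⟩
  obtain ⟨z, hz, hzy⟩ := exists_mem_b_ne_zero hQ (S := perp hQ S) (v := y) (by rwa [perp_perp hQ])
  set z' := z - bform hQ p z • w - bform hQ w z • p with hz'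
  have e0 : bform hQ w z' = 0 := by
    simp only [hz', map_sub, map_smul, b_self_eq_zero hQ hwQ, hwp, smul_eq_mul]; ring
  have e1 : bform hQ p z' = 0 := by
    simp only [hz', map_sub, map_smul, b_self_eq_zero hQ hpQ, b_symm hQ p w, hwp, smul_eq_mul]; ring
  refine ⟨z' + w - Q z' • p, Submodule.sub_mem _ (Submodule.add_mem _ (Submodule.sub_mem _
    (Submodule.sub_mem _ hz (Submodule.smul_mem _ _ hw)) (Submodule.smul_mem _ _ hp)) hw)
      (Submodule.smul_mem _ _ hp), p, hp, ?_, hpQ, ?_, ?_⟩
  · simp only [q_sub hQ, q_add hQ, q_smul hQ, hwQ, hpQ, map_add, map_smul, LinearMap.add_apply,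
      b_symm hQ z' w, b_symm hQ z' p, e0, e1, hwp, smul_eq_mul]
    ring
  · simp only [map_sub, map_add, map_smul, LinearMap.sub_apply, LinearMap.add_apply, LinearMap.smul_apply,
      b_self_eq_zero hQ hpQ, b_symm hQ z' p, e1, hwp, smul_eq_mul]
    ring
  · have : bform hQ (z' + w - Q z' • p) y = bform hQ z y := by
      simp only [hz', map_sub, map_add, map_smul, LinearMap.sub_apply, LinearMap.add_apply,
        LinearMap.smul_apply, h0, h1, smul_eq_mul]
      ring
    rw [this]; exact hzy

/-- Many vectors lie in the orbit of a vector outside the span of `u` and `a`. -/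
lemma exists_orbit (hn : 7 ≤ Fintype.card ι) (hsmall : (2 : F) ≠ 0 ∨ 8 ≤ Fintype.card ι) {u a y : ι → F}
    (hu : Q u = 0) (hua : bform hQ u a = 0) (ha : Q a ≠ 0)
    (hy : y ∉ Submodule.span F {u} ⊔ Submodule.span F {a}) :
    ∃ O : Finset (ι → F), (Nat.card F - 1) * Nat.card F ^ (Fintype.card ι - 4) ≤ O.card ∧
      ∀ z ∈ O, z ∉ Submodule.span F {u} ⊔ Submodule.span F {a} ∧ bform hQ a z = bform hQ a y ∧ Q z = Q y ∧
        Shift Q (Submodule.span F {u} ⊔ Submodule.span F {a}) y z := by
  classical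
  have := Fintype.ofFinite F
  set S := Submodule.span F {u} ⊔ Submodule.span F {a} with hS
  have hS2 : finrank F S ≤ 2 := finrank_span_pair_le hQ u a
  obtain ⟨e, he, f, hf, heQ, hfQ, hef, hey⟩ := exists_pair_seeing hQ hS2 hn hy
  let z₀ : F → ι → F := fun β => y + (β - bform hQ e y) • f
  have hz₀ : ∀ β, bform hQ e (z₀ β) = β := fun β => by
    simp only [z₀, map_add, map_smul, hef, smul_eq_mul]; ring
  let Z : F → Finset (ι → F) := fun β => Finset.univ.filter fun z =>
    z - z₀ β ∈ perp hQ S ∧ bform hQ e z = bform hQ e (z₀ β) ∧ Q z = Q y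
  refine ⟨(Finset.univ.erase (0 : F)).biUnion Z, ?_, ?_⟩
  · rw [Finset.card_biUnion]
    · refine le_trans (le_of_eq ?_) (Finset.card_nsmul_le_sum _ _ (Nat.card F ^ (Fintype.card ι - 4)) fun β hβ => ?_)
      · rw [Finset.card_erase_of_mem (Finset.mem_univ _), Finset.card_univ, smul_eq_mul,
          ← Nat.card_eq_fintype_card (α := F)]
      · have h := card_slice hQ heQ he (z₀ β) (by rw [hz₀]; exact (Finset.mem_erase.1 hβ).1) (Q y)
        rw [Nat.card_eq_fintype_card, Fintype.card_subtype] at h
        refine Nat.le_of_mul_le_mul_right (c := Nat.card F) ?_ Nat.card_pos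
        refine le_trans ?_ (le_of_eq h.symm)
        rw [← pow_succ]
        refine Nat.pow_le_pow_right Nat.card_pos ?_
        have h1 := finrank_perp_add hQ (S ⊔ Submodule.span F {e})
        have h2 := Submodule.finrank_add_le_finrank_add_finrank S (Submodule.span F {e})
        have h3 := finrank_span_le_one hQ e
        omega
    · intro β _ β' _ hne
      refine Finset.disjoint_left.2 fun z hz hz' => hne ?_
      rw [← hz₀ β, ← hz₀ β', ← (Finset.mem_filter.1 hz).2.2.1, ← (Finset.mem_filter.1 hz').2.2.1]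
  · intro z hz
    obtain ⟨β, hβ, hz⟩ := Finset.mem_biUnion.1 hz
    obtain ⟨hzS, hze, hzQ⟩ := (Finset.mem_filter.1 hz).2
    rw [hz₀] at hze
    have hd : y - z ∈ perp hQ S := by
      rw [show y - z = -((z - z₀ β) + (β - bform hQ e y) • f) by simp only [z₀]; abel]
      exact neg_mem (Submodule.add_mem _ hzS (Submodule.smul_mem _ _ hf))
    have hez : bform hQ e z ≠ 0 := by rw [hze]; exact (Finset.mem_erase.1 hβ).1
    refine ⟨fun h => hez (by rw [b_symm hQ]; exact he z h), ?_, hzQ,
      move_pair hQ hn hsmall hu hua ha heQ hfQ he hf hef hey hd hzQ.symm (Or.inl hez)⟩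
    have := hd a (Submodule.mem_sup_right (Submodule.mem_span_singleton_self a))
    rw [map_sub, sub_eq_zero] at this
    exact this.symm

/-- Over the field with two elements the orbit fills three quarters of the perp. -/
lemma exists_orbit_two (hn : 8 ≤ Fintype.card ι) (hF : Nat.card F = 2) {u a y : ι → F}
    (hu : Q u = 0) (hu0 : u ≠ 0) (hua : bform hQ u a = 0) (ha : Q a ≠ 0)
    (hy : y ∉ Submodule.span F {u} ⊔ Submodule.span F {a})
    (hyP : y ∈ perp hQ (Submodule.span F {u} ⊔ Submodule.span F {a})) :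
    ∃ O : Finset (ι → F), 3 * 2 ^ (Fintype.card ι - 4) ≤ O.card ∧
      ∀ z ∈ O, z ∉ Submodule.span F {u} ⊔ Submodule.span F {a} ∧
        (Shift Q (Submodule.span F {u} ⊔ Submodule.span F {a}) y z ∨
          Shift Q (Submodule.span F {u} ⊔ Submodule.span F {a}) (y + a) z) := by
  classical
  have := Fintype.ofFinite F
  have h01 : ∀ c : F, c = 0 ∨ c = 1 := fun c => by
    by_contra h
    push Not at h
    have hc : ({0, 1, c} : Finset F).card = 3 := by
      rw [Finset.card_insert_of_notMem (by simp [h.1.symm]), Finset.card_insert_of_notMem (by simp [h.2.symm]),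
        Finset.card_singleton]
    have := Finset.card_le_univ ({0, 1, c} : Finset F)
    rw [hc, ← Nat.card_eq_fintype_card, hF] at this
    omega
  have h2 : (2 : F) = 0 := by
    rcases h01 2 with h | h
    · exact h
    · exact absurd (show (1 : F) = 0 by linear_combination h) one_ne_zero
  set S := Submodule.span F {u} ⊔ Submodule.span F {a} with hS
  have huS : u ∈ S := Submodule.mem_sup_left (Submodule.mem_span_singleton_self u)
  have haS : a ∈ S := Submodule.mem_sup_right (Submodule.mem_span_singleton_self a)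
  have hS2 : finrank F S ≤ 2 := finrank_span_pair_le hQ u a
  have hSr : finrank F S = 2 := by
    refine le_antisymm hS2 ?_
    have hlt : Submodule.span F {u} < S := lt_of_le_not_ge le_sup_left fun h => by
      obtain ⟨c, hc⟩ := Submodule.mem_span_singleton.1 (h haS)
      exact ha (by rw [← hc, q_smul hQ, hu, mul_zero])
    have := Submodule.finrank_lt_finrank_of_lt hlt
    rw [finrank_span_singleton hu0] at this
    omega
  obtain ⟨e, he, f, hf, heQ, hfQ, hef, hey⟩ := exists_pair_seeing hQ hS2 (by omega) hy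
  set P := S ⊔ (Submodule.span F {e} ⊔ Submodule.span F {f}) with hP
  refine ⟨Finset.univ.filter fun z => z ∈ perp hQ S ∧ z ∉ perp hQ P, ?_, ?_⟩
  · have hle : perp hQ P ≤ perp hQ S := perp_anti hQ le_sup_left
    rw [show (Finset.univ.filter fun z => z ∈ perp hQ S ∧ z ∉ perp hQ P) =
        (Finset.univ.filter fun z => z ∈ perp hQ S) \ (Finset.univ.filter fun z => z ∈ perp hQ P) by
        ext z; simp,
      Finset.card_sdiff_of_subset (fun z hz => Finset.mem_filter.2 ⟨Finset.mem_univ _, hle (Finset.mem_filter.1 hz).2⟩),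
      ← Fintype.card_subtype, ← Fintype.card_subtype, ← Nat.card_eq_fintype_card (α := perp hQ S),
      ← Nat.card_eq_fintype_card (α := perp hQ P),
      Module.natCard_eq_pow_finrank (K := F) (V := perp hQ S), Module.natCard_eq_pow_finrank (K := F) (V := perp hQ P), hF]
    have h1 := finrank_perp_add hQ S
    have h3 := finrank_perp_add hQ P
    have hlt1 : S < S ⊔ Submodule.span F {e} := lt_of_le_not_ge le_sup_left fun h => by
      have := hf e (h (Submodule.mem_sup_right (Submodule.mem_span_singleton_self e)))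
      rw [hef] at this
      exact one_ne_zero this
    have hlt2 : S ⊔ Submodule.span F {e} < P := by
      refine lt_of_le_not_ge (sup_le le_sup_left (le_trans le_sup_left le_sup_right)) fun h => ?_
      obtain ⟨s, hs, _, hb, hse⟩ := Submodule.mem_sup.1
        (h (Submodule.mem_sup_right (Submodule.mem_sup_right (Submodule.mem_span_singleton_self f))))
      obtain ⟨r, rfl⟩ := Submodule.mem_span_singleton.1 hb
      have := congrArg (bform hQ e) hse
      rw [map_add, map_smul, b_symm hQ e s, he s hs, b_self_eq_zero hQ heQ, smul_zero, add_zero, hef] at this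
      exact zero_ne_one this
    have h4 := Submodule.finrank_lt_finrank_of_lt hlt1
    have h5 := Submodule.finrank_lt_finrank_of_lt hlt2
    have h6 : finrank F (perp hQ P) ≤ Fintype.card ι - 4 := by omega
    have h7 : finrank F (perp hQ S) = Fintype.card ι - 4 + 2 := by omega
    rw [h7, pow_succ, pow_succ]
    have := Nat.pow_le_pow_right (show 0 < 2 by norm_num) h6
    omega
  · intro z hz
    obtain ⟨hzS, hzP⟩ := (Finset.mem_filter.1 hz).2
    have hne : bform hQ e z ≠ 0 ∨ bform hQ f z ≠ 0 := by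
      by_contra h
      push Not at h
      refine hzP ?_
      rw [hP, perp_sup hQ, Submodule.mem_inf, mem_perp_pair hQ (u := e) (v := f)]
      exact ⟨hzS, h⟩
    refine ⟨fun h => ?_, ?_⟩
    · rcases hne with h' | h' <;> refine h' ?_ <;> rw [b_symm hQ]
      · exact he z h
      · exact hf z h
    have haP : a ∈ perp hQ S := by
      rw [hS, mem_perp_pair hQ]
      exact ⟨hua, by rw [b_self hQ, h2, zero_mul]⟩
    have hea : bform hQ e a = 0 := by rw [b_symm hQ]; exact he a haS
    have hQya : Q (y + a) = Q y + Q a := by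
      rw [q_add hQ, b_symm hQ y a, hyP a haS, add_zero]
    by_cases hQz : Q y = Q z
    · exact Or.inl (move_pair hQ (by omega) (Or.inr hn) hu hua ha heQ hfQ he hf hef hey
        (Submodule.sub_mem _ hyP hzS) hQz hne)
    · refine Or.inr (move_pair hQ (by omega) (Or.inr hn) hu hua ha heQ hfQ he hf hef
        (by rw [map_add, hea, add_zero]; exact hey) (Submodule.sub_mem _ (Submodule.add_mem _ hyP haP) hzS) ?_ hne)
      rw [hQya, (h01 (Q a)).resolve_left ha]
      rcases h01 (Q y) with h | h <;> rcases h01 (Q z) with h' | h' <;> rw [h, h'] at hQz ⊢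
      · exact absurd rfl hQz
      · rw [zero_add]
      · rw [← two_mul, h2, zero_mul]
      · exact absurd rfl hQz

variable {X : Type*} [MulAction (omegaGL Q) X] [Finite X]

lemma fixW_inf_perp_eq {u a : ι → F} {x : X} :
    annS hQ (annW hQ u x ⊔ (Submodule.span F {u} ⊔ Submodule.span F {a}).toAddSubgroup) =
      fixW hQ u x ⊓ (perp hQ (Submodule.span F {a})).toAddSubgroup := by
  have hsup : ∀ S T : AddSubgroup (ι → F), annS hQ (S ⊔ T) = annS hQ S ⊓ annS hQ T := by
    intro S T
    refine le_antisymm (le_inf (annS_anti hQ le_sup_left) (annS_anti hQ le_sup_right)) fun z hz s hs => ?_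
    obtain ⟨b, hb, c, hc, rfl⟩ := AddSubgroup.mem_sup.1 hs
    rw [map_add, LinearMap.add_apply, AddChar.map_add_eq_mul, hz.1 b hb, hz.2 c hc, mul_one]
  rw [hsup, annS_annW, annS_submodule]
  ext z
  simp only [AddSubgroup.mem_inf, Submodule.mem_toAddSubgroup, perp_sup hQ, Submodule.mem_inf,
    mem_perp_span_singleton hQ]
  exact ⟨fun h => ⟨h.1, h.2.2⟩, fun h => ⟨h.1, h.1.1, h.2⟩⟩

/-- The orbit bound for the size of the fixed root group at a point. -/
lemma free_of_small (hn : 7 ≤ Fintype.card ι) (hX : Nat.card X < 2 * Nat.card F ^ (Fintype.card ι - 2))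
    {u : ι → F} (hu : Q u = 0) (hu0 : u ≠ 0) {x : X}
    (hsmall : 2 * Nat.card (fixW hQ u x) ^ 2 ≤ (Nat.card F - 1) * Nat.card F ^ (Fintype.card ι - 2)) :
    fixW hQ u x ≤ (Submodule.span F {u}).toAddSubgroup := by
  classical
  have := Fintype.ofFinite F
  intro y hy
  by_contra hyu
  obtain ⟨e, he, f, hf, heQ, hfQ, hef, hey⟩ := exists_pair_seeing hQ
    (S := Submodule.span F {u}) ((finrank_span_le_one hQ u).trans (by norm_num)) hn hyu
  rw [mem_perp_span_singleton hQ] at he hf
  -- the orbit of `y`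
  let z₀ : F → ι → F := fun β => y + (β - bform hQ e y) • f
  have hz₀ : ∀ β, bform hQ e (z₀ β) = β := fun β => by
    simp only [z₀, map_add, map_smul, hef, smul_eq_mul]; ring
  let Z : F → Finset (ι → F) := fun β => Finset.univ.filter fun z =>
    z - z₀ β ∈ perp hQ (Submodule.span F {u}) ∧ bform hQ e z = bform hQ e (z₀ β) ∧ Q z = Q y
  set O := (Finset.univ.erase (0 : F)).biUnion Z with hO
  have hcard : (Nat.card F - 1) * Nat.card F ^ (Fintype.card ι - 3) ≤ O.card := by
    rw [hO, Finset.card_biUnion]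
    · refine le_trans (le_of_eq ?_) (Finset.card_nsmul_le_sum _ _ (Nat.card F ^ (Fintype.card ι - 3)) fun β hβ => ?_)
      · rw [Finset.card_erase_of_mem (Finset.mem_univ _), Finset.card_univ, smul_eq_mul,
          ← Nat.card_eq_fintype_card (α := F)]
      · have h := card_slice hQ heQ ((mem_perp_span_singleton hQ).2 he) (z₀ β)
          (by rw [hz₀]; exact (Finset.mem_erase.1 hβ).1) (Q y)
        rw [Nat.card_eq_fintype_card, Fintype.card_subtype] at h
        refine Nat.le_of_mul_le_mul_right (c := Nat.card F) ?_ Nat.card_pos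
        refine le_trans ?_ (le_of_eq h.symm)
        rw [← pow_succ]
        refine Nat.pow_le_pow_right Nat.card_pos ?_
        have h1 := finrank_perp_add hQ (Submodule.span F {u} ⊔ Submodule.span F {e})
        have h2 := finrank_span_pair_le hQ u e
        omega
    · intro β _ β' _ hne
      refine Finset.disjoint_left.2 fun z hz hz' => hne ?_
      rw [← hz₀ β, ← hz₀ β', ← (Finset.mem_filter.1 hz).2.2.1, ← (Finset.mem_filter.1 hz').2.2.1]
  have huy : bform hQ u y = 0 := hy.1
  -- each of them is fixed by the root group at a translate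
  have hcov : ∀ z ∈ O, ∃ B ∈ family hQ u x, z ∈ annS hQ B := by
    intro z hz
    obtain ⟨β, hβ, hz⟩ := Finset.mem_biUnion.1 hz
    obtain ⟨hzP, hze, hzQ⟩ := (Finset.mem_filter.1 hz).2
    rw [hz₀] at hze
    have huz : bform hQ u z = 0 := by
      have := (mem_perp_span_singleton hQ).1 hzP
      rw [map_sub, map_add, map_smul, huy, hf, smul_zero, add_zero, sub_zero] at this
      exact this
    have hzu : z ∉ Submodule.span F {u} := fun h => by
      obtain ⟨c, rfl⟩ := Submodule.mem_span_singleton.1 h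
      rw [map_smul, b_symm hQ e u, he, smul_zero] at hze
      exact (Finset.mem_erase.1 hβ).1 hze.symm
    obtain ⟨g, hgu, hgy⟩ := move_perp hQ hn hu hu0 huy huz hyu hzu hzQ.symm
    have hgu' := hgu u (Submodule.mem_span_singleton_self u)
    refine ⟨_, (mem_family hQ).2 ⟨g, ⟨1, one_ne_zero, by rw [hgu', one_smul]⟩, rfl⟩, ?_⟩
    rw [annS_annW, fixW_omMap hQ g hgu']
    exact ⟨y, hy, hgy⟩
  have hbound : O.card ≤ (family hQ u x).card * Nat.card (fixW hQ u x) := by
    refine (Finset.card_le_card (t := (family hQ u x).biUnion fun B => ((annS hQ B : Set (ι → F))).toFinset)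
      fun z hz => ?_).trans (Finset.card_biUnion_le.trans ?_)
    · obtain ⟨B, hB, hzB⟩ := hcov z hz
      exact Finset.mem_biUnion.2 ⟨B, hB, Set.mem_toFinset.2 hzB⟩
    · refine (Finset.sum_le_card_nsmul _ _ _ fun B hB => le_of_eq ?_).trans (le_of_eq (smul_eq_mul _ _))
      rw [Set.toFinset_card, ← Nat.card_eq_fintype_card]
      refine Nat.eq_of_mul_eq_mul_right (Nat.card_pos : 0 < Nat.card (annW hQ u x)) ?_
      have h1 := card_annS_mul hQ B
      rw [card_of_mem_family hQ hu hB] at h1
      exact h1.trans (by rw [mul_comm]; exact (card_annS_mul hQ (fixW hQ u x)).symm)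
  have hL := card_family_mul_le hQ (by omega) hu hu0 x
  have hAK : Nat.card (annW hQ u x) * Nat.card (fixW hQ u x) = Nat.card F ^ Fintype.card ι :=
    card_annS_mul hQ (fixW hQ u x)
  set k := Nat.card (fixW hQ u x) with hk
  set q := Nat.card F with hq
  have hq2 : 2 ≤ q := two_le_natCard
  have e1 : q ^ Fintype.card ι = q * (q * q ^ (Fintype.card ι - 2)) := by
    rw [← pow_succ', ← pow_succ']; congr 1; omega
  have e2 : q ^ (Fintype.card ι - 2) = q * q ^ (Fintype.card ι - 3) := by rw [← pow_succ']; congr 1; omega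
  have h1 : ((q - 1) * q ^ (Fintype.card ι - 3)) * q ^ Fintype.card ι ≤ k * k * (q * Nat.card X) :=
    calc _ ≤ ((family hQ u x).card * k) * q ^ Fintype.card ι :=
          Nat.mul_le_mul_right _ (hcard.trans hbound)
      _ = k * k * ((family hQ u x).card * Nat.card (annW hQ u x)) := by rw [← hAK]; ring
      _ ≤ _ := Nat.mul_le_mul_left _ hL
  have hk0 : 0 < k * k * q := by
    have : 0 < k := Nat.card_pos
    positivity
  have h2 : k * k * (q * Nat.card X) < k * k * (q * (2 * q ^ (Fintype.card ι - 2))) := by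
    rw [← mul_assoc, ← mul_assoc]
    exact (Nat.mul_lt_mul_left hk0).2 hX
  have h3 : k * k * (q * (2 * q ^ (Fintype.card ι - 2))) ≤
      ((q - 1) * q ^ (Fintype.card ι - 3)) * q ^ Fintype.card ι :=
    calc _ = (2 * k ^ 2) * (q * q ^ (Fintype.card ι - 2)) := by ring
      _ ≤ ((q - 1) * q ^ (Fintype.card ι - 2)) * (q * q ^ (Fintype.card ι - 2)) :=
          Nat.mul_le_mul_right _ hsmall
      _ = _ := by rw [e1, e2]; ring
  omega

lemma card_le_pow_two_of_le_pair {u a : ι → F} {T : AddSubgroup (ι → F)}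
    (h : T ≤ (Submodule.span F {u} ⊔ Submodule.span F {a}).toAddSubgroup) : Nat.card T ≤ Nat.card F ^ 2 := by
  refine (AddSubgroup.card_le_of_le h).trans ?_
  rw [natCard_submodule]
  exact Nat.pow_le_pow_right Nat.card_pos (finrank_span_pair_le hQ u a)

/-- In the nonsingular case the root group is free or fixes the point up to two dimensions. -/
theorem classify_nonsingular (hn : 7 ≤ Fintype.card ι) (hsmall : (2 : F) ≠ 0 ∨ 8 ≤ Fintype.card ι)
    (hX : Nat.card X < 2 * Nat.card F ^ (Fintype.card ι - 2)) {u a : ι → F} {x : X} (hu : Q u = 0) (hu0 : u ≠ 0)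
    (haA : a ∈ annW hQ u x) (ha : Q a ≠ 0)
    (hM : (shifts hQ u a x).card ≤ 4) (hM2 : Nat.card F = 2 → (shifts hQ u a x).card ≤ 3)
    (h37 : Nat.card F = 3 → Fintype.card ι = 7 →
      Nat.card (annW hQ u x ⊔ (Submodule.span F {u} ⊔ Submodule.span F {a}).toAddSubgroup : AddSubgroup (ι → F))
        = 81 → False) :
    fixW hQ u x ≤ (Submodule.span F {u}).toAddSubgroup ∨ finrank F (spanA hQ u x) ≤ 2 := by
  classical
  have := Fintype.ofFinite F
  have hua : bform hQ u a = 0 := b_eq_zero_of_mem_annW hQ hu haA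
  set S := Submodule.span F {u} ⊔ Submodule.span F {a} with hS
  have huS : u ∈ S := Submodule.mem_sup_left (Submodule.mem_span_singleton_self u)
  have haS : a ∈ S := Submodule.mem_sup_right (Submodule.mem_span_singleton_self a)
  set U := annW hQ u x ⊔ S.toAddSubgroup with hU
  set K := fixW hQ u x ⊓ (perp hQ (Submodule.span F {a})).toAddSubgroup with hK
  set q := Nat.card F with hq
  set n := Fintype.card ι with hnι
  have hq2 : 2 ≤ q := two_le_natCard
  by_cases hUS : U ≤ S.toAddSubgroup
  · right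
    refine (Submodule.finrank_mono (show spanA hQ u x ≤ S from
      Submodule.span_le.2 fun z hz => hUS ((le_sup_left : annW hQ u x ≤ U) hz))).trans ?_
    exact finrank_span_pair_le hQ u a
  have hcardS : Nat.card S.toAddSubgroup = q ^ 2 := by
    rw [natCard_submodule]
    congr 1
    refine le_antisymm (finrank_span_pair_le hQ u a) ?_
    have hlt : Submodule.span F {u} < S := lt_of_le_not_ge le_sup_left fun h => by
      obtain ⟨c, hc⟩ := Submodule.mem_span_singleton.1 (h haS)
      exact ha (by rw [← hc, q_smul hQ, hu, mul_zero])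
    have := Submodule.finrank_lt_finrank_of_lt hlt
    rw [finrank_span_singleton hu0] at this
    omega
  -- over two elements everything is perpendicular to `a`
  have hFa : q = 2 → fixW hQ u x ≤ (perp hQ (Submodule.span F {a})).toAddSubgroup := by
    intro hq' z hz
    refine (mem_perp_span_singleton hQ).2 (eq_zero_of_chi fun c => ?_)
    have h01 : c = 0 ∨ c = 1 := by
      by_contra h
      push Not at h
      have hc : ({0, 1, c} : Finset F).card = 3 := by
        rw [Finset.card_insert_of_notMem (by simp [h.1.symm]), Finset.card_insert_of_notMem (by simp [h.2.symm]),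
          Finset.card_singleton]
      have := Finset.card_le_univ ({0, 1, c} : Finset F)
      rw [hc, ← Nat.card_eq_fintype_card, ← hq, hq'] at this
      omega
    rcases h01 with rfl | rfl
    · rw [mul_zero, AddChar.map_zero_eq_one]
    · rw [mul_one, b_symm hQ]; exact haA z hz
  by_cases hKS : K ≤ S.toAddSubgroup
  · refine Or.inl (free_of_small hQ hn hX hu hu0 ?_)
    by_cases hq2' : q = 2
    · have hKe : fixW hQ u x ≤ S.toAddSubgroup := (le_inf le_rfl (hFa hq2')).trans hKS
      have h4 := card_le_pow_two_of_le_pair hQ hKe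
      rw [← hq, hq2'] at h4 ⊢
      have : 2 ^ 6 ≤ 2 ^ (n - 2) := by
        rcases hsmall with h | h
        · exfalso
          refine h ?_
          have hc : (Nat.card F : F) = 0 := by rw [Nat.card_eq_fintype_card]; exact Nat.cast_card_eq_zero F
          rw [← hq, hq2'] at hc
          exact_mod_cast hc
        · exact Nat.pow_le_pow_right (by norm_num) (by omega)
      nlinarith
    -- the kernel of pairing with `a`
    let φ : fixW hQ u x →+ F :=
      { toFun := fun z => bform hQ a (z : ι → F)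
        map_zero' := by rw [AddSubgroup.coe_zero, map_zero]
        map_add' := fun z w => by simp [map_add] }
    have h1 := AddSubgroup.card_eq_card_quotient_mul_card_addSubgroup φ.ker
    have h2 : Nat.card (fixW hQ u x ⧸ φ.ker) ≤ q := by
      rw [Nat.card_congr (QuotientAddGroup.quotientKerEquivRange φ).toEquiv]
      exact Nat.card_le_card_of_injective Subtype.val Subtype.val_injective
    have h3 : Nat.card φ.ker ≤ Nat.card K := by
      refine Nat.card_le_card_of_injective (fun z => ⟨z.1.1, z.1.2, (mem_perp_span_singleton hQ).2 z.2⟩)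
        fun z w h => Subtype.ext (Subtype.ext (congrArg (fun p : K => (p : ι → F)) h))
    by_cases h2F : (2 : F) = 0
    · have hK2 : Nat.card K ≤ q ^ 2 := card_le_pow_two_of_le_pair hQ hKS
      have hF3 : Nat.card (fixW hQ u x) ≤ q ^ 3 := by
        rw [h1, pow_succ']; exact Nat.mul_le_mul h2 (h3.trans hK2)
      have h8 := hsmall.resolve_left (fun h => h h2F)
      have h6 : q ^ 6 ≤ q ^ (n - 2) := Nat.pow_le_pow_right (by omega) (by omega)
      calc 2 * Nat.card (fixW hQ u x) ^ 2 ≤ 2 * (q ^ 3) ^ 2 := by gcongr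
        _ = 2 * q ^ 6 := by ring
        _ ≤ (q - 1) * q ^ (n - 2) := Nat.mul_le_mul (by omega) h6
    · have hKu : K ≤ (Submodule.span F {u}).toAddSubgroup := by
        intro z hz
        obtain ⟨_, hb₁, _, hb₂, hzeq⟩ := Submodule.mem_sup.1 (hKS hz)
        obtain ⟨r, rfl⟩ := Submodule.mem_span_singleton.1 hb₁
        obtain ⟨t, rfl⟩ := Submodule.mem_span_singleton.1 hb₂
        have hza : bform hQ a z = 0 := (mem_perp_span_singleton hQ).1 hz.2
        rw [← hzeq, map_add, map_smul, map_smul, b_symm hQ a u, hua, b_self hQ] at hza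
        simp [ha, h2F, -bform_apply] at hza
        rw [← hzeq, hza, zero_smul, add_zero]
        exact Submodule.smul_mem _ _ (Submodule.mem_span_singleton_self u)
      have hK1 : Nat.card K ≤ q := by
        refine (AddSubgroup.card_le_of_le hKu).trans (le_of_eq ?_)
        rw [natCard_submodule, finrank_span_singleton hu0, pow_one]
      have hF2 : Nat.card (fixW hQ u x) ≤ q ^ 2 := by
        rw [h1, sq]; exact Nat.mul_le_mul h2 (h3.trans hK1)
      have h5 : q ^ 4 ≤ q ^ (n - 2) := Nat.pow_le_pow_right (by omega) (by omega)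
      calc 2 * Nat.card (fixW hQ u x) ^ 2 ≤ 2 * (q ^ 2) ^ 2 := by gcongr
        _ = 2 * q ^ 4 := by ring
        _ ≤ (q - 1) * q ^ (n - 2) := Nat.mul_le_mul (by omega) h5
  exfalso
  obtain ⟨y₁, hy₁, hy₁S⟩ := SetLike.not_le_iff_exists.1 hUS
  obtain ⟨y₂, hy₂, hy₂S⟩ := SetLike.not_le_iff_exists.1 hKS
  set M := (shifts hQ u a x).card with hMdef
  have hgS : ∀ g : omegaGL Q, (∀ z ∈ S, ((g : GL ι F) : Matrix ι ι F) *ᵥ z = z) →
      ((g : GL ι F) : Matrix ι ι F) *ᵥ u = u ∧ ∀ z ∈ Submodule.span F {a}, ((g : GL ι F) : Matrix ι ι F) *ᵥ z = z :=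
    fun g hg => ⟨hg u huS, fun z hz => hg z (Submodule.mem_sup_right hz)⟩
  by_cases hq2' : q = 2
  · -- two elements: work inside the perp of both
    have h8 : 8 ≤ n := by
      rcases hsmall with h | h
      · exfalso
        refine h ?_
        have hc : (Nat.card F : F) = 0 := by rw [Nat.card_eq_fintype_card]; exact Nat.cast_card_eq_zero F
        rw [← hq, hq2'] at hc
        exact_mod_cast hc
      · exact h
    have hM3 := hM2 hq2'
    set U₂ := annW hQ u x ⊓ (perp hQ S).toAddSubgroup with hU₂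
    set K₂ := fixW hQ u x ⊔ S.toAddSubgroup with hK₂
    have hfixle : fixW hQ u x ≤ (perp hQ S).toAddSubgroup := fun z hz =>
      (mem_perp_pair hQ).2 ⟨hz.1, (mem_perp_span_singleton hQ).1 (hFa hq2' hz)⟩
    have h2F : (2 : F) = 0 := by
      have hc : (Nat.card F : F) = 0 := by rw [Nat.card_eq_fintype_card]; exact Nat.cast_card_eq_zero F
      rw [← hq, hq2'] at hc
      exact_mod_cast hc
    have hSperp : S.toAddSubgroup ≤ (perp hQ S).toAddSubgroup := fun z hz => by
      obtain ⟨_, hb₁, _, hb₂, rfl⟩ := Submodule.mem_sup.1 hz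
      obtain ⟨r, rfl⟩ := Submodule.mem_span_singleton.1 hb₁
      obtain ⟨t, rfl⟩ := Submodule.mem_span_singleton.1 hb₂
      refine (mem_perp_pair hQ).2 ⟨?_, ?_⟩
      · rw [map_add, map_smul, map_smul, b_self_eq_zero hQ hu, hua, smul_zero, smul_zero, add_zero]
      · rw [map_add, map_smul, map_smul, b_symm hQ a u, hua, b_self hQ, h2F, zero_mul, smul_zero, smul_zero,
          add_zero]
    have hann : annS hQ K₂ = U₂ := by
      ext z
      constructor
      · intro hz
        exact ⟨annS_anti hQ (le_sup_left : fixW hQ u x ≤ K₂) hz,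
          annS_le_perp hQ (le_sup_right : S.toAddSubgroup ≤ K₂) hz⟩
      · rintro ⟨hz1, hz2⟩ s hs
        obtain ⟨b, hb, c, hc, rfl⟩ := AddSubgroup.mem_sup.1 hs
        rw [map_add, LinearMap.add_apply, AddChar.map_add_eq_mul, hz1 b hb, one_mul,
          (show bform hQ c z = 0 from hz2 c hc), AddChar.map_zero_eq_one]
    have hprod : Nat.card U₂ * Nat.card K₂ = 2 ^ n := by rw [← hann, card_annS_mul, ← hq, hq2', ← hnι]
    have hSU₂ : S.toAddSubgroup ≤ U₂ := by
      refine le_inf (fun z hz => ?_) hSperp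
      obtain ⟨_, hb₁, _, hb₂, rfl⟩ := Submodule.mem_sup.1 hz
      refine add_mem (span_self_le_annW hQ u x hb₁) ?_
      obtain ⟨t, rfl⟩ := Submodule.mem_span_singleton.1 hb₂
      intro w hw
      rw [map_smul, b_symm hQ w a, (mem_perp_span_singleton hQ).1 (hFa hq2' hw), smul_zero,
        AddChar.map_zero_eq_one]
    have horbit : ∀ (Φ : AddSubgroup (ι → F) → AddSubgroup (ι → F)) (y : ι → F),
        (∀ g : omegaGL Q, (∀ z ∈ S, ((g : GL ι F) : Matrix ι ι F) *ᵥ z = z) →
          Φ (annW hQ u (g • x)) = (Φ (annW hQ u x)).map (omMap g)) →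
        S.toAddSubgroup ≤ Φ (annW hQ u x) → y ∈ Φ (annW hQ u x) → y ∉ S → y ∈ perp hQ S →
        3 * 2 ^ (n - 4) ≤ M * (Nat.card (Φ (annW hQ u x)) - 4) := by
      intro Φ y hΦ hSΦ hy hyS hyP
      obtain ⟨O, hO, hOz⟩ := exists_orbit_two hQ h8 hq2' hu hu0 hua ha hyS hyP
      refine hO.trans (le_trans (card_cover_le hQ Φ hΦ S.toAddSubgroup hSΦ le_rfl O fun z hz => ?_) (le_of_eq ?_))
      · obtain ⟨hzS, h | h⟩ := hOz z hz
        · exact ⟨hzS, y, hy, h⟩
        · exact ⟨hzS, y + a, add_mem hy (hSΦ haS), h⟩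
      · rw [hcardS, hq2', hMdef]
        norm_num
    by_cases hU₂S : U₂ ≤ S.toAddSubgroup
    · -- the annihilator has index two over the pair
      have hU4 : Nat.card U₂ = 4 := by rw [le_antisymm hU₂S hSU₂, hcardS, hq2']; norm_num
      have hyP : y₁ ∉ perp hQ S := fun h => by
        obtain ⟨b, hb, c, hc, hbc⟩ := AddSubgroup.mem_sup.1 hy₁
        have hbP : b ∈ perp hQ S := by
          rw [eq_sub_of_add_eq hbc]; exact Submodule.sub_mem _ h (hSperp hc)
        exact hy₁S (hbc ▸ add_mem (hU₂S ⟨hb, hbP⟩) hc)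
      have hUcard : Nat.card U ≤ 8 := by
        let φ : U →+ F :=
          { toFun := fun z => bform hQ a (z : ι → F)
            map_zero' := by rw [AddSubgroup.coe_zero, map_zero]
            map_add' := fun z w => by simp [map_add] }
        rw [AddSubgroup.card_eq_card_quotient_mul_card_addSubgroup φ.ker, show 8 = 2 * 4 from rfl]
        refine Nat.mul_le_mul ?_ ?_
        · rw [Nat.card_congr (QuotientAddGroup.quotientKerEquivRange φ).toEquiv]
          exact (Nat.card_le_card_of_injective Subtype.val Subtype.val_injective).trans (le_of_eq hq2')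
        · refine le_trans ?_ (le_of_eq hU4)
          have hmem : ∀ z : φ.ker, (z.1.1 : ι → F) ∈ U₂ := by
            rintro ⟨⟨z, hz⟩, hz0⟩
            obtain ⟨b, hb, c, hc, hbc⟩ := AddSubgroup.mem_sup.1 hz
            show z ∈ U₂
            have hzP : z ∈ perp hQ S := by
              refine (mem_perp_pair hQ).2 ⟨?_, hz0⟩
              rw [← hbc, map_add, b_eq_zero_of_mem_annW hQ hu hb, ((mem_perp_pair hQ).1 (hSperp hc)).1, add_zero]
            rw [← hbc] at hzP ⊢
            refine add_mem ⟨hb, ?_⟩ (hSU₂ hc)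
            have := Submodule.sub_mem _ hzP (hSperp hc)
            rwa [add_sub_cancel_right] at this
          exact Nat.card_le_card_of_injective (fun z => ⟨z.1.1, hmem z⟩)
            fun z w h => Subtype.ext (Subtype.ext (congrArg (fun p : U₂ => (p : ι → F)) h))
      obtain ⟨O, hO, hOz⟩ := exists_orbit hQ hn hsmall hu hua ha hy₁S
      have hc := card_cover_le hQ (fun B => B ⊔ S.toAddSubgroup) (x := x) (u := u) (a := a) (fun g hg => by
        show annW hQ u (g • x) ⊔ _ = (annW hQ u x ⊔ _).map _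
        rw [annW_omMap hQ g (hgS g hg).1, AddSubgroup.map_sup, map_omMap_of_fixed hQ g hg])
        S.toAddSubgroup le_sup_right le_rfl O fun z hz => ⟨(hOz z hz).1, y₁, hy₁, (hOz z hz).2.2.2⟩
      have hO' := hO.trans hc
      change (q - 1) * q ^ (n - 4) ≤ M * (Nat.card U - Nat.card S.toAddSubgroup) at hO'
      rw [hcardS, hq2'] at hO'
      have h16 : 2 ^ 4 ≤ 2 ^ (n - 4) := Nat.pow_le_pow_right (by norm_num) (by omega)
      have : M * (Nat.card U - 2 ^ 2) ≤ 3 * 4 := Nat.mul_le_mul hM3 (by omega)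
      omega
    by_cases hK₂S : K₂ ≤ S.toAddSubgroup
    · exact hKS ((inf_le_left : K ≤ fixW hQ u x).trans ((le_sup_left : fixW hQ u x ≤ K₂).trans hK₂S))
    obtain ⟨z₁, hz₁, hz₁S⟩ := SetLike.not_le_iff_exists.1 hU₂S
    obtain ⟨z₂, hz₂, hz₂S⟩ := SetLike.not_le_iff_exists.1 hK₂S
    have hK₂P : K₂ ≤ (perp hQ S).toAddSubgroup := sup_le hfixle hSperp
    have b1 : 3 * 2 ^ (n - 4) ≤ M * (Nat.card U₂ - 4) := horbit (fun B => B ⊓ (perp hQ S).toAddSubgroup) z₁
      (fun g hg => by
        show annW hQ u (g • x) ⊓ _ = (annW hQ u x ⊓ _).map _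
        rw [AddSubgroup.map_inf _ _ _ (omMap_injective g), annW_omMap hQ g (hgS g hg).1,
          ← perp_map_omMap hQ g hg])
      hSU₂ hz₁ hz₁S hz₁.2
    have b2 : 3 * 2 ^ (n - 4) ≤ M * (Nat.card K₂ - 4) := by
      have h := horbit (fun B => annS hQ B ⊔ S.toAddSubgroup) z₂ (fun g hg => by
        show annS hQ (annW hQ u (g • x)) ⊔ _ = (annS hQ (annW hQ u x) ⊔ _).map _
        rw [annS_annW, annS_annW, fixW_omMap hQ g (hgS g hg).1, AddSubgroup.map_sup, map_omMap_of_fixed hQ g hg])
        le_sup_right (by show z₂ ∈ annS hQ (annW hQ u x) ⊔ _; rw [annS_annW]; exact hz₂) hz₂S (hK₂P hz₂)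
      simpa [annS_annW, hK₂] using h
    have hA : 4 < Nat.card U₂ := by
      by_contra h
      rw [Nat.sub_eq_zero_of_le (not_lt.1 h), mul_zero] at b1
      have : 0 < 2 ^ (n - 4) := by positivity
      omega
    have hB : 4 < Nat.card K₂ := by
      by_contra h
      rw [Nat.sub_eq_zero_of_le (not_lt.1 h), mul_zero] at b2
      have : 0 < 2 ^ (n - 4) := by positivity
      omega
    have hlt : (Nat.card U₂ - 4) * (Nat.card K₂ - 4) < 2 ^ n := by
      rw [← hprod]
      exact Nat.mul_lt_mul_of_lt_of_le (by omega) (by omega) (by omega)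
    have hpow : 2 ^ n ≤ 2 ^ (n - 4) * 2 ^ (n - 4) := by
      rw [← pow_add]; exact Nat.pow_le_pow_right (by norm_num) (by omega)
    have hMM : M * M ≤ 9 := Nat.mul_le_mul hM3 hM3
    have hbb := Nat.mul_le_mul b1 b2
    have : M * (Nat.card U₂ - 4) * (M * (Nat.card K₂ - 4)) ≤ 9 * ((Nat.card U₂ - 4) * (Nat.card K₂ - 4)) := by
      rw [mul_mul_mul_comm]; exact Nat.mul_le_mul_right _ hMM
    nlinarith
  -- at least three elements
  have hq3 : 3 ≤ q := by omega
  have hprod : Nat.card U * Nat.card K = q ^ n := by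
    rw [mul_comm, hK, ← fixW_inf_perp_eq hQ, card_annS_mul]
  have hKmin : q ≤ Nat.card (S.toAddSubgroup ⊓ (perp hQ (Submodule.span F {a})).toAddSubgroup : AddSubgroup (ι → F)) := by
    calc q = Nat.card (Submodule.span F ({u} : Set (ι → F))).toAddSubgroup := by
          rw [natCard_submodule, finrank_span_singleton hu0, pow_one]
      _ ≤ _ := AddSubgroup.card_le_of_le (le_inf (fun z hz => Submodule.mem_sup_left hz) fun z hz => by
          obtain ⟨r, rfl⟩ := Submodule.mem_span_singleton.1 hz
          refine (mem_perp_span_singleton hQ).2 ?_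
          rw [map_smul, b_symm hQ a u, hua, smul_zero])
  -- the bound on the side of the fixed space
  obtain ⟨O₂, hO₂, hO₂z⟩ := exists_orbit hQ hn hsmall hu hua ha hy₂S
  set Su := (Submodule.span F ({u} : Set (ι → F))).toAddSubgroup with hSu
  have hSuK : Su ≤ K := fun z hz => by
    refine ⟨span_self_le_fixW hQ hu x hz, ?_⟩
    obtain ⟨r, rfl⟩ := Submodule.mem_span_singleton.1 hz
    refine (mem_perp_span_singleton hQ).2 ?_
    rw [map_smul, b_symm hQ a u, hua, smul_zero]
  have hSucard : Nat.card Su = q := by rw [natCard_submodule, finrank_span_singleton hu0, pow_one]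
  have b2 : (q - 1) * q ^ (n - 4) ≤ M * (Nat.card K - q) := by
    have := card_cover_le hQ (fun B => annS hQ B ⊓ (perp hQ (Submodule.span F {a})).toAddSubgroup)
      (x := x) (u := u) (a := a) (fun g hg => by
        show annS hQ (annW hQ u (g • x)) ⊓ _ = (annS hQ (annW hQ u x) ⊓ _).map _
        rw [annS_annW, annS_annW, AddSubgroup.map_inf _ _ _ (omMap_injective g), fixW_omMap hQ g (hgS g hg).1,
          ← perp_map_omMap hQ g (hgS g hg).2])
      Su (by show Su ≤ annS hQ (annW hQ u x) ⊓ _; rw [annS_annW]; exact hSuK)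
      (fun z hz => Submodule.mem_sup_left hz) O₂
      (fun z hz => ⟨fun h => (hO₂z z hz).1 (Submodule.mem_sup_left h), y₂,
        by show y₂ ∈ annS hQ (annW hQ u x) ⊓ _; rw [annS_annW]; exact hy₂, (hO₂z z hz).2.2.2⟩)
    rw [hSucard] at this
    simp only [annS_annW] at this
    exact hO₂.trans this
  -- the bound on the side of the annihilator: all translates by multiples of `a`
  let lab : F → F × F := fun t => (bform hQ a (y₁ + t • a), Q (y₁ + t • a))
  set δ : ℕ := if (2 : F) = 0 then 2 else 1 with hδ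
  have hlab : q ≤ δ * (Finset.univ.image lab).card := by
    have hsol : ∀ t t', lab t = lab t' → t = t' ∨ (2 : F) = 0 ∧ t + t' = -(bform hQ a y₁) / Q a := by
      intro t t' h
      simp only [lab, Prod.mk.injEq, map_add, map_smul, q_add hQ, q_smul hQ, b_self hQ, b_symm hQ y₁ a,
        smul_eq_mul] at h
      by_cases htt : t = t'
      · exact Or.inl htt
      · have h1 : (t - t') * (2 * Q a) = 0 := by linear_combination h.1
        have h2 : (2 : F) = 0 := by
          rcases mul_eq_zero.1 h1 with h' | h'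
          · exact absurd (sub_eq_zero.1 h') htt
          · exact (mul_eq_zero.1 h').resolve_right ha
        have h3 : (t - t') * ((t + t') * Q a + bform hQ a y₁) = 0 := by linear_combination h.2
        refine Or.inr ⟨h2, ?_⟩
        rw [eq_div_iff ha]
        linear_combination (mul_eq_zero.1 h3).resolve_left (sub_ne_zero.2 htt)
    calc q = (Finset.univ : Finset F).card := by rw [Finset.card_univ, ← Nat.card_eq_fintype_card]
      _ ≤ δ * (Finset.univ.image lab).card := by
        refine Finset.card_le_mul_card_image _ δ fun p hp => ?_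
        obtain ⟨t, -, rfl⟩ := Finset.mem_image.1 hp
        by_cases h2F : (2 : F) = 0
        · rw [hδ, if_pos h2F]
          refine (Finset.card_le_card (t := {t, -(bform hQ a y₁) / Q a - t}) fun t' ht' => ?_).trans Finset.card_le_two
          rw [Finset.mem_insert, Finset.mem_singleton]
          rcases hsol t' t (Finset.mem_filter.1 ht').2 with h | ⟨-, h⟩
          · exact Or.inl h
          · exact Or.inr (eq_sub_of_add_eq h)
        · rw [hδ, if_neg h2F]
          refine (Finset.card_le_card (t := {t}) fun t' ht' => ?_).trans (le_of_eq (Finset.card_singleton t))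
          rw [Finset.mem_singleton]
          exact (hsol t' t (Finset.mem_filter.1 ht').2).resolve_right fun h => h2F h.1
  have hytS : ∀ t : F, y₁ + t • a ∉ S := fun t h => hy₁S (by simpa using S.sub_mem h (S.smul_mem t haS))
  have hex : ∀ p ∈ Finset.univ.image lab, ∃ O : Finset (ι → F), (q - 1) * q ^ (n - 4) ≤ O.card ∧
      ∀ z ∈ O, z ∉ S ∧ (bform hQ a z, Q z) = p ∧ ∃ y ∈ U, Shift Q S y z := by
    intro p hp
    obtain ⟨t, -, rfl⟩ := Finset.mem_image.1 hp
    obtain ⟨O, hO, hOz⟩ := exists_orbit hQ hn hsmall hu hua ha (hytS t)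
    exact ⟨O, hO, fun z hz => ⟨(hOz z hz).1, by simp only [lab]; rw [(hOz z hz).2.1, (hOz z hz).2.2.1],
      y₁ + t • a, add_mem hy₁ ((le_sup_right : S.toAddSubgroup ≤ U) (S.smul_mem t haS)), (hOz z hz).2.2.2⟩⟩
  choose! Op hOp hOpz using hex
  have b1 : (Finset.univ.image lab).card * ((q - 1) * q ^ (n - 4)) ≤ M * (Nat.card U - q ^ 2) := by
    calc (Finset.univ.image lab).card * ((q - 1) * q ^ (n - 4))
        ≤ ∑ p ∈ Finset.univ.image lab, (Op p).card := by
          rw [← smul_eq_mul]; exact Finset.card_nsmul_le_sum _ _ _ hOp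
      _ = ((Finset.univ.image lab).biUnion Op).card := (Finset.card_biUnion fun p hp p' hp' hne =>
          Finset.disjoint_left.2 fun z hz hz' => hne ((hOpz p hp z hz).2.1.symm.trans (hOpz p' hp' z hz').2.1)).symm
      _ ≤ M * (Nat.card U - q ^ 2) := by
          have := card_cover_le hQ (fun B => B ⊔ S.toAddSubgroup) (x := x) (u := u) (a := a) (fun g hg => by
            show annW hQ u (g • x) ⊔ _ = (annW hQ u x ⊔ _).map _
            rw [annW_omMap hQ g (hgS g hg).1, AddSubgroup.map_sup, map_omMap_of_fixed hQ g hg])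
            S.toAddSubgroup le_sup_right le_rfl ((Finset.univ.image lab).biUnion Op) fun z hz => by
              obtain ⟨p, hp, hz⟩ := Finset.mem_biUnion.1 hz
              exact ⟨(hOpz p hp z hz).1, (hOpz p hp z hz).2.2⟩
          rwa [hcardS] at this
  have hb1 : q * ((q - 1) * q ^ (n - 4)) ≤ δ * (M * (Nat.card U - q ^ 2)) :=
    calc q * ((q - 1) * q ^ (n - 4)) ≤ δ * (Finset.univ.image lab).card * ((q - 1) * q ^ (n - 4)) :=
          Nat.mul_le_mul_right _ hlab
      _ ≤ _ := by rw [mul_assoc]; exact Nat.mul_le_mul_left _ b1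
  have hUge : q ^ 2 < Nat.card U := by
    by_contra h
    rw [Nat.sub_eq_zero_of_le (not_lt.1 h), mul_zero, mul_zero] at hb1
    have : 0 < q * ((q - 1) * q ^ (n - 4)) := Nat.mul_pos (by omega) (Nat.mul_pos (by omega) (Nat.pow_pos (by omega)))
    omega
  have hKge : q < Nat.card K := by
    by_contra h
    rw [Nat.sub_eq_zero_of_le (not_lt.1 h), mul_zero] at b2
    have : 0 < (q - 1) * q ^ (n - 4) := Nat.mul_pos (by omega) (Nat.pow_pos (by omega))
    omega
  have hlt : (Nat.card U - q ^ 2) * (Nat.card K - q) < q ^ n := by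
    rw [← hprod]
    exact Nat.mul_lt_mul_of_lt_of_le (Nat.sub_lt (by omega) (Nat.pow_pos (by omega))) (Nat.sub_le _ _) (by omega)
  have hkey : (q - 1) ^ 2 * q ^ (n - 7) < 16 * δ := by
    have h1 := Nat.mul_le_mul hb1 b2
    have hMM : M * M ≤ 16 := Nat.mul_le_mul hM hM
    have h2 : δ * (M * (Nat.card U - q ^ 2)) * (M * (Nat.card K - q)) < 16 * δ * q ^ n := by
      have h3 : δ * (M * (Nat.card U - q ^ 2)) * (M * (Nat.card K - q)) ≤
          16 * δ * ((Nat.card U - q ^ 2) * (Nat.card K - q)) :=
        calc _ = M * M * δ * ((Nat.card U - q ^ 2) * (Nat.card K - q)) := by ring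
          _ ≤ _ := Nat.mul_le_mul_right _ (Nat.mul_le_mul_right _ hMM)
      refine lt_of_le_of_lt h3 ((Nat.mul_lt_mul_left ?_).2 hlt)
      rw [hδ]; split_ifs <;> norm_num
    have e : q * ((q - 1) * q ^ (n - 4)) * ((q - 1) * q ^ (n - 4)) = (q - 1) ^ 2 * q ^ (n - 7) * q ^ n := by
      rw [mul_assoc ((q - 1) ^ 2), ← pow_add, show n - 7 + n = 1 + (n - 4) + (n - 4) by omega, pow_add, pow_add,
        pow_one]
      ring
    have h4 := lt_of_le_of_lt h1 h2
    rw [e] at h4
    exact Nat.lt_of_mul_lt_mul_right h4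
  by_cases h2F : (2 : F) = 0
  · rw [hδ, if_pos h2F] at hkey
    have h8 := hsmall.resolve_left (fun h => h h2F)
    have hq4 : 4 ≤ q := by
      by_contra h
      have hq' : q = 3 := by omega
      have hc : (Nat.card F : F) = 0 := by rw [Nat.card_eq_fintype_card]; exact Nat.cast_card_eq_zero F
      rw [← hq, hq'] at hc
      have h3 : (3 : F) = 0 := by simpa using hc
      exact one_ne_zero (show (1 : F) = 0 by linear_combination h3 - h2F)
    have h1 : 4 ≤ q ^ (n - 7) := hq4.trans (Nat.le_self_pow (by omega) q)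
    have h2' : 9 ≤ (q - 1) ^ 2 := by
      calc 9 = 3 ^ 2 := by norm_num
        _ ≤ _ := Nat.pow_le_pow_left (by omega) 2
    have := Nat.mul_le_mul h2' h1
    omega
  rw [hδ, if_neg h2F, mul_one] at hkey
  rw [hδ, if_neg h2F, one_mul] at hb1
  have h1q : 1 ≤ q ^ (n - 7) := Nat.one_le_pow _ _ (by omega)
  have hq5 : q = 3 := by
    have hne4 : q ≠ 4 := fun hq4 => by
      have hc : (Nat.card F : F) = 0 := by rw [Nat.card_eq_fintype_card]; exact Nat.cast_card_eq_zero F
      rw [← hq, hq4] at hc
      have h4 : (2 : F) * 2 = 0 := by norm_num; exact_mod_cast hc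
      exact h2F (mul_self_eq_zero.1 h4)
    by_contra hne
    have h5 : 5 ≤ q := by omega
    have : 4 ^ 2 ≤ (q - 1) ^ 2 := Nat.pow_le_pow_left (by omega) 2
    have := Nat.mul_le_mul this h1q
    omega
  rw [hq5] at hb1 b2 hkey hprod hUge hKge
  have hn8 : n = 7 ∨ n = 8 := by
    by_contra h
    have : 3 ^ 2 ≤ 3 ^ (n - 7) := Nat.pow_le_pow_right (by norm_num) (by omega)
    norm_num at hkey this
    omega
  obtain ⟨i, -, hi⟩ : ∃ i ≤ n, Nat.card U = 3 ^ i :=
    (Nat.dvd_prime_pow Nat.prime_three).1 ⟨Nat.card K, hprod.symm⟩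
  obtain ⟨j, -, hj⟩ : ∃ j ≤ n, Nat.card K = 3 ^ j :=
    (Nat.dvd_prime_pow Nat.prime_three).1 (Dvd.intro_left _ hprod)
  rw [hi, hj, ← pow_add] at hprod
  have hij : i + j = n := Nat.pow_right_injective (le_refl 2 |>.trans (by norm_num)) hprod
  rw [hi] at hb1
  rw [hj] at b2
  rcases hn8 with hn7 | hn8
  · by_cases hi4 : i = 4
    · exact h37 hq5 hn7 (by rw [hi, hi4]; norm_num)
    rw [hn7] at hb1 b2 hij
    rcases lt_or_gt_of_ne hi4 with h | h
    · have h1 : M * (3 ^ i - 3 ^ 2) ≤ 4 * 18 := Nat.mul_le_mul hM (by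
        have := Nat.pow_le_pow_right (show 0 < 3 by norm_num) (show i ≤ 3 by omega)
        norm_num at this ⊢
        omega)
      norm_num at hb1 h1
      omega
    · have h1 : M * (3 ^ j - 3) ≤ 4 * 6 := Nat.mul_le_mul hM (by
        have := Nat.pow_le_pow_right (show 0 < 3 by norm_num) (show j ≤ 2 by omega)
        norm_num at this ⊢
        omega)
      norm_num at b2 h1
      omega
  · rw [hn8] at hb1 b2 hij
    by_cases h : i ≤ 4
    · have h1 : M * (3 ^ i - 3 ^ 2) ≤ 4 * 72 := Nat.mul_le_mul hM (by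
        have := Nat.pow_le_pow_right (show 0 < 3 by norm_num) h
        norm_num at this ⊢
        omega)
      norm_num at hb1 h1
      omega
    · have h1 : M * (3 ^ j - 3) ≤ 4 * 24 := Nat.mul_le_mul hM (by
        have := Nat.pow_le_pow_right (show 0 < 3 by norm_num) (show j ≤ 3 by omega)
        norm_num at this ⊢
        omega)
      norm_num at b2 h1
      omega

end CfsgLib.MinIndexOrth
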