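import Cfsg.Agent.MinIndexOrth.Singular

/-! Counting vectors of given value, inside the perp of a singular vector and in classes up to scalars. -/

set_option autoImplicit false
set_option linter.unusedSectionVars false

namespace CfsgLib.MinIndexOrth

open Cfsg.Geo CfsgLib.OrthGeo Module
open scoped Matrix MatrixGroups

variable {ι : Type} [Fintype ι] [DecidableEq ι] {F : Type*} [Field F] [Finite F]
variable {Q : (ι → F) → F}
variable (hQ : IsNondegenerateQuadraticForm Q)
include hQ

/-- The vectors of a given value perpendicular to a singular vector. -/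
lemma card_level_perp {u : ι → F} (hu : Q u = 0) (hu0 : u ≠ 0) (s : F) :
    Nat.card {z // bform hQ u z = 0 ∧ Q z = s} + (Nat.card F - 1) * Nat.card F ^ (Fintype.card ι - 2) =
      Nat.card {z // Q z = s} := by
  classical
  have := Fintype.ofFinite F
  obtain ⟨v, -, huv⟩ := exists_partner hQ hu hu0
  obtain ⟨w, huw⟩ : ∃ w, bform hQ u w = 1 := ⟨v, huv⟩
  have hn2 : 2 ≤ Fintype.card ι := by
    have h1 := finrank_perp_add hQ (Submodule.span F {u})
    rw [finrank_span_singleton hu0] at h1
    have h2 : Submodule.span F {u} < ⊤ := lt_top_iff_ne_top.2 fun h => by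
      obtain ⟨c, hc⟩ := Submodule.mem_span_singleton.1 (h.symm ▸ Submodule.mem_top : w ∈ Submodule.span F {u})
      rw [← hc, map_smul, b_self_eq_zero hQ hu, smul_zero] at huw
      exact zero_ne_one huw
    have h3 := Submodule.finrank_lt h2.ne
    rw [finrank_span_singleton hu0, finrank_fintype_fun_eq_card] at h3
    omega
  have hslice : ∀ c : F, c ≠ 0 →
      Nat.card {z // bform hQ u z = c ∧ Q z = s} = Nat.card F ^ (Fintype.card ι - 2) := by
    intro c hc
    have hcw : bform hQ u (c • w) = c := by rw [map_smul, huw, smul_eq_mul, mul_one]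
    have h := card_slice hQ (P := (⊥ : Submodule F (ι → F))) hu
      (fun p hp => by rw [(Submodule.mem_bot F).1 hp]; simp) (c • w) (by rwa [hcw]) s
    rw [bot_sup_eq] at h
    have hr : finrank F (perp hQ (Submodule.span F {u})) = Fintype.card ι - 1 := by
      rw [finrank_perp hQ, finrank_span_singleton hu0]
    have hbot : ∀ z : ι → F, z ∈ perp hQ (⊥ : Submodule F (ι → F)) := fun z p hp => by
      rw [(Submodule.mem_bot F).1 hp]; simp
    rw [hr, Nat.card_congr (Equiv.subtypeEquivRight fun z => (show _ ↔ bform hQ u z = c ∧ Q z = s by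
        rw [hcw]; exact ⟨fun h => h.2, fun h => ⟨hbot _, h⟩⟩)),
      show Fintype.card ι - 1 = Fintype.card ι - 2 + 1 by omega, pow_succ] at h
    exact Nat.eq_of_mul_eq_mul_right Nat.card_pos h
  have hsum := Finset.card_eq_sum_card_fiberwise
    (s := Finset.univ.filter fun z : ι → F => Q z = s) (t := (Finset.univ : Finset F))
    (f := fun z => bform hQ u z) (fun z _ => Finset.mem_univ _)
  rw [← Finset.add_sum_erase _ _ (Finset.mem_univ (0 : F))] at hsum
  have hf : ∀ c : F, ((Finset.univ.filter fun z : ι → F => Q z = s).filter fun z => bform hQ u z = c).card =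
      Nat.card {z // bform hQ u z = c ∧ Q z = s} := fun c => by
    rw [Nat.card_eq_fintype_card, Fintype.card_subtype, Finset.filter_filter]
    simp only [and_comm]
  rw [Finset.sum_congr rfl (fun c hc => (hf c).trans (hslice c (Finset.mem_erase.1 hc).1)), Finset.sum_const,
    Finset.card_erase_of_mem (Finset.mem_univ _), Finset.card_univ, ← Nat.card_eq_fintype_card, hf,
    smul_eq_mul, ← Fintype.card_subtype, ← Nat.card_eq_fintype_card] at hsum
  exact hsum.symm

/-- The singular vectors perpendicular to a singular vector outside its line. -/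
lemma card_singPerp {u : ι → F} (hu : Q u = 0) (hu0 : u ≠ 0) :
    Nat.card {z // singPerp hQ u z} + Nat.card F + (Nat.card F - 1) * Nat.card F ^ (Fintype.card ι - 2) =
      Nat.card {z // Q z = 0} := by
  classical
  have := Fintype.ofFinite F
  rw [← card_level_perp hQ hu hu0 0]
  congr 1
  have hF : Nat.card F = Nat.card (Submodule.span F ({u} : Set (ι → F))) := by
    rw [Module.natCard_eq_pow_finrank (K := F) (V := Submodule.span F ({u} : Set (ι → F))),
      finrank_span_singleton hu0, pow_one]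
  rw [hF, ← Nat.card_sum]
  refine Nat.card_congr (Equiv.ofBijective
    (Sum.elim (fun z => ⟨z.1, z.2.2.1, z.2.1⟩) (fun z => ⟨z.1, ?_, ?_⟩)) ⟨?_, ?_⟩)
  · obtain ⟨c, hc⟩ := Submodule.mem_span_singleton.1 z.2
    rw [← hc, map_smul, b_self_eq_zero hQ hu, smul_zero]
  · obtain ⟨c, hc⟩ := Submodule.mem_span_singleton.1 z.2
    rw [← hc, q_smul hQ, hu, mul_zero]
  · rintro (z | z) (z' | z') h <;> simp only [Sum.elim_inl, Sum.elim_inr, Subtype.mk.injEq] at h
    · exact congrArg Sum.inl (Subtype.ext h)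
    · exact absurd (h ▸ z'.2) z.2.2.2
    · exact absurd (h.symm ▸ z.2) z'.2.2.2
    · exact congrArg Sum.inr (Subtype.ext h)
  · rintro ⟨z, hz1, hz2⟩
    by_cases hm : z ∈ Submodule.span F {u}
    · exact ⟨Sum.inr ⟨z, hm⟩, rfl⟩
    · exact ⟨Sum.inl ⟨z, hz2, hz1, hm⟩, rfl⟩

/-- Vectors whose value is a non-zero square multiple of a given one. -/
def SameClass (Q : (ι → F) → F) (s : F) (z : ι → F) : Prop := ∃ c : F, c ≠ 0 ∧ Q z = c ^ 2 * s

/-- A lower bound for a class from a lower bound for every value. -/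
lemma card_class_ge (P : (ι → F) → Prop) {s : F} (hs : s ≠ 0) {L : ℕ}
    (hL : ∀ t : F, t ≠ 0 → L ≤ Nat.card {z // P z ∧ Q z = t}) :
    L ≤ Nat.card {z // P z ∧ SameClass Q s z} ∧
      (Nat.card F - 1) * L ≤ 2 * Nat.card {z // P z ∧ SameClass Q s z} := by
  classical
  have := Fintype.ofFinite F
  set T := (Finset.univ.erase (0 : F)).image (fun c => c ^ 2 * s) with hT
  have h2T : Nat.card F - 1 ≤ 2 * T.card := by
    have h := Finset.card_le_mul_card_image (Finset.univ.erase (0 : F)) 2 (f := fun c : F => c ^ 2 * s)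
      fun t ht => by
        obtain ⟨c, -, rfl⟩ := Finset.mem_image.1 ht
        refine (Finset.card_le_card (t := ({c, -c} : Finset F)) fun d hd => ?_).trans Finset.card_le_two
        obtain ⟨-, hd⟩ := Finset.mem_filter.1 hd
        rw [Finset.mem_insert, Finset.mem_singleton]
        exact sq_eq_sq_iff_eq_or_eq_neg.1 (mul_right_cancel₀ hs hd)
    rwa [Finset.card_erase_of_mem (Finset.mem_univ _), Finset.card_univ, ← Nat.card_eq_fintype_card,
      mul_comm 2] at *
  have h1T : 1 ≤ T.card := Finset.card_pos.2 ⟨_, Finset.mem_image_of_mem _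
    (Finset.mem_erase.2 ⟨one_ne_zero, Finset.mem_univ _⟩)⟩
  have hle : T.card * L ≤ Nat.card {z // P z ∧ SameClass Q s z} := by
    rw [Nat.card_eq_fintype_card, Fintype.card_subtype, ← smul_eq_mul T.card]
    have hsum := Finset.card_eq_sum_card_fiberwise
      (s := Finset.univ.filter fun z : ι → F => P z ∧ SameClass Q s z) (t := T) (f := Q) fun z hz => by
        obtain ⟨-, -, c, hc, hz⟩ := Finset.mem_filter.1 (Finset.mem_coe.1 hz)
        exact Finset.mem_coe.2 (Finset.mem_image.2 ⟨c, Finset.mem_erase.2 ⟨hc, Finset.mem_univ _⟩, hz.symm⟩)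
    rw [hsum]
    refine Finset.card_nsmul_le_sum _ _ _ fun t ht => ?_
    obtain ⟨c, hc, rfl⟩ := Finset.mem_image.1 ht
    have hc0 := (Finset.mem_erase.1 hc).1
    refine (hL _ (mul_ne_zero (pow_ne_zero 2 hc0) hs)).trans (le_of_eq ?_)
    rw [Nat.card_eq_fintype_card, Fintype.card_subtype, Finset.filter_filter]
    congr 1
    ext z
    simp only [Finset.mem_filter, Finset.mem_univ, true_and]
    exact ⟨fun h => ⟨⟨h.1, c, hc0, h.2⟩, h.2⟩, fun h => ⟨h.1.1, h.2⟩⟩
  refine ⟨(Nat.le_mul_of_pos_left L h1T).trans hle, ?_⟩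
  calc (Nat.card F - 1) * L ≤ 2 * T.card * L := Nat.mul_le_mul_right _ h2T
    _ ≤ _ := by rw [mul_assoc]; exact Nat.mul_le_mul_left _ hle

/-- Values of a class inside the perp of a singular vector. -/
lemma card_class_perp_ge {u : ι → F} (hu : Q u = 0) (hu0 : u ≠ 0) {s : F} (hs : s ≠ 0) {L : ℕ}
    (hL : ∀ t : F, t ≠ 0 → L + (Nat.card F - 1) * Nat.card F ^ (Fintype.card ι - 2) ≤ Nat.card {z // Q z = t}) :
    L ≤ Nat.card {z // bform hQ u z = 0 ∧ SameClass Q s z} ∧
      (Nat.card F - 1) * L ≤ 2 * Nat.card {z // bform hQ u z = 0 ∧ SameClass Q s z} :=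
  card_class_ge hQ (fun z => bform hQ u z = 0) hs fun t ht => by
    have h := card_level_perp hQ hu hu0 t
    have := hL t ht
    omega

/-- Values of a class in the whole space. -/
lemma card_class_univ_ge {s : F} (hs : s ≠ 0) {L : ℕ} (hL : ∀ t : F, t ≠ 0 → L ≤ Nat.card {z // Q z = t}) :
    L ≤ Nat.card {z // SameClass Q s z} ∧ (Nat.card F - 1) * L ≤ 2 * Nat.card {z // SameClass Q s z} := by
  have h := card_class_ge hQ (fun _ => True) hs (L := L) fun t ht => by simpa using hL t ht
  simpa using h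

/-- Vectors of one class perpendicular to a singular vector are moved into each other up to scalars. -/
lemma move_of_sameClass (hn : 7 ≤ Fintype.card ι) {u a z : ι → F} (hu : Q u = 0) (hu0 : u ≠ 0)
    (hua : bform hQ u a = 0) (ha : Q a ≠ 0) (huz : bform hQ u z = 0) (hz : SameClass Q (Q a) z) :
    Move Q (Submodule.span F {u}) a z := by
  obtain ⟨l, hl, hQz⟩ := hz
  set c := l⁻¹ with hc
  have hc0 : c ≠ 0 := inv_ne_zero hl
  have hcu0 : c • u ≠ 0 := smul_ne_zero hc0 hu0
  obtain ⟨h, hh, hhu⟩ := exists_map_singular hQ (by omega) (v := u) (v' := c • u) hu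
    (by rw [q_smul hQ, hu, mul_zero]) hu0 hcu0
  have hhI := eichlerGroup_le_isometry hQ hh
  set a' := (h : Matrix ι ι F) *ᵥ a with ha'
  have hQa' : Q a' = Q a := mem_isometryGroup.1 hhI a
  have hua' : bform hQ u a' = 0 := by
    have h1 : bform hQ (c • u) a' = 0 := by rw [← hhu, ha', isometry_b hQ hhI, hua]
    rw [map_smul, LinearMap.smul_apply, smul_eq_mul] at h1
    exact (mul_eq_zero.1 h1).resolve_left hc0
  have hQcz : Q (c • z) = Q a := by rw [q_smul hQ, hQz, hc, ← mul_assoc, ← mul_pow, inv_mul_cancel₀ hl,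
    one_pow, one_mul]
  have hnot : ∀ y : ι → F, Q y = Q a → y ∉ Submodule.span F {u} := fun y hy h' => by
    obtain ⟨r, rfl⟩ := Submodule.mem_span_singleton.1 h'
    exact ha (by rw [← hy, q_smul hQ, hu, mul_zero])
  obtain ⟨k, hk, hky⟩ := move_perp hQ hn hu hu0 hua' (by rw [map_smul, huz, smul_zero]) (hnot _ hQa')
    (hnot _ hQcz) (hQa'.trans hQcz.symm)
  refine ⟨c, k * ⟨h, eichlerGroup_le_omega hQ (by omega) hh⟩, hc0, fun y hy => ?_, ?_⟩
  · obtain ⟨r, rfl⟩ := Submodule.mem_span_singleton.1 hy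
    rw [Subgroup.coe_mul, Units.val_mul, ← Matrix.mulVec_mulVec, Matrix.mulVec_smul, hhu, Matrix.mulVec_smul,
      Matrix.mulVec_smul, hk u (Submodule.mem_span_singleton_self u), smul_comm r c, inv_smul_smul₀ hc0]
  · rw [Subgroup.coe_mul, Units.val_mul, ← Matrix.mulVec_mulVec, ← ha', hky, inv_smul_smul₀ hc0]

end CfsgLib.MinIndexOrth
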