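import Cfsg.Agent.MinIndexOrth.Transport

/-! Counting translates of an annihilator under the stabiliser of a singular vector and a second vector. -/

set_option autoImplicit false
set_option linter.unusedSectionVars false

namespace CfsgLib.MinIndexOrth

open Cfsg.Geo CfsgLib.OrthGeo Module
open scoped Matrix MatrixGroups

variable {ι : Type} [Fintype ι] [DecidableEq ι] {F : Type*} [Field F] [Finite F]
variable {Q : (ι → F) → F}
variable {X : Type*} [MulAction (omegaGL Q) X]

/-- The additive map of an element of Omega. -/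
noncomputable def omMap (g : omegaGL Q) : (ι → F) →+ (ι → F) :=
  (Matrix.mulVecLin ((g : GL ι F) : Matrix ι ι F)).toAddMonoidHom

lemma omMap_apply (g : omegaGL Q) (z : ι → F) : omMap g z = ((g : GL ι F) : Matrix ι ι F) *ᵥ z := rfl

lemma omMap_injective (g : omegaGL Q) : Function.Injective (omMap g) := fun a b h => by
  have := congrArg ((((g : GL ι F)⁻¹ : GL ι F) : Matrix ι ι F) *ᵥ ·) h
  simpa [omMap_apply, inv_mulVec_cancel] using this

lemma eq_map_omMap {T T' : AddSubgroup (ι → F)} (g : omegaGL Q)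
    (h : ∀ z, ((g : GL ι F) : Matrix ι ι F) *ᵥ z ∈ T' ↔ z ∈ T) : T' = T.map (omMap g) := by
  ext w
  refine ⟨fun hw => ⟨_, (h _).1 (by rwa [mulVec_inv_cancel (g : GL ι F) w]), mulVec_inv_cancel _ w⟩, ?_⟩
  rintro ⟨z, hz, rfl⟩
  exact (h z).2 hz

lemma card_map_omMap (T : AddSubgroup (ι → F)) (g : omegaGL Q) :
    Nat.card (T.map (omMap g)) = Nat.card T :=
  (Nat.card_congr (AddSubgroup.equivMapOfInjective _ _ (omMap_injective g)).toEquiv).symm

variable (hQ : IsNondegenerateQuadraticForm Q)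
include hQ

lemma mem_annW_map {u a : ι → F} (g : omegaGL Q) (x : X) :
    ((g : GL ι F) : Matrix ι ι F) *ᵥ a ∈ annW hQ (((g : GL ι F) : Matrix ι ι F) *ᵥ u) (g • x) ↔
      a ∈ annW hQ u x := by
  have hgI := omegaGL_le g.2
  constructor
  · intro h w hw
    rw [← isometry_b hQ hgI]
    exact h _ ((mem_fixW_map hQ g).2 hw)
  · intro h w hw
    rw [← mulVec_inv_cancel (g : GL ι F) w] at hw ⊢
    rw [isometry_b hQ hgI]
    exact h _ ((mem_fixW_map hQ g).1 hw)

lemma annW_omMap {u : ι → F} (g : omegaGL Q) (hg : ((g : GL ι F) : Matrix ι ι F) *ᵥ u = u) (x : X) :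
    annW hQ u (g • x) = (annW hQ u x).map (omMap g) :=
  eq_map_omMap g fun z => by
    conv_lhs => rw [← hg]
    exact mem_annW_map hQ g x

lemma fixW_omMap {u : ι → F} (g : omegaGL Q) (hg : ((g : GL ι F) : Matrix ι ι F) *ᵥ u = u) (x : X) :
    fixW hQ u (g • x) = (fixW hQ u x).map (omMap g) :=
  eq_map_omMap g fun z => by
    conv_lhs => rw [← hg]
    exact mem_fixW_map hQ g

lemma map_omMap_of_fixed {S : Submodule F (ι → F)} (g : omegaGL Q)
    (h : ∀ z ∈ S, ((g : GL ι F) : Matrix ι ι F) *ᵥ z = z) : S.toAddSubgroup.map (omMap g) = S.toAddSubgroup := by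
  ext w
  constructor
  · rintro ⟨z, hz, rfl⟩; rw [omMap_apply, h z hz]; exact hz
  · exact fun hw => ⟨w, hw, h w hw⟩

lemma perp_map_omMap {S : Submodule F (ι → F)} (g : omegaGL Q)
    (h : ∀ z ∈ S, ((g : GL ι F) : Matrix ι ι F) *ᵥ z = z) :
    (perp hQ S).toAddSubgroup = (perp hQ S).toAddSubgroup.map (omMap g) :=
  eq_map_omMap g fun z => by
    constructor
    · intro hz w hw; rw [← isometry_b hQ (omegaGL_le g.2), h w hw]; exact hz w hw
    · intro hz w hw; rw [← h w hw, isometry_b hQ (omegaGL_le g.2)]; exact hz w hw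

variable [Finite X]

/-- The annihilators at the translates of the point under the stabiliser of `u` and `a`. -/
noncomputable def shifts (u a : ι → F) (x : X) : Finset (AddSubgroup (ι → F)) :=
  (Set.Finite.image (annW hQ u) (Set.toFinite {y : X | ∃ g : omegaGL Q,
    (∀ z ∈ Submodule.span F {u} ⊔ Submodule.span F {a}, ((g : GL ι F) : Matrix ι ι F) *ᵥ z = z) ∧
      g • x = y})).toFinset

lemma mem_shifts {u a : ι → F} {x : X} {B : AddSubgroup (ι → F)} :
    B ∈ shifts hQ u a x ↔ ∃ g : omegaGL Q,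
      (∀ z ∈ Submodule.span F {u} ⊔ Submodule.span F {a}, ((g : GL ι F) : Matrix ι ι F) *ᵥ z = z) ∧
        annW hQ u (g • x) = B := by
  simp only [shifts, Set.Finite.mem_toFinset, Set.mem_image, Set.mem_setOf_eq]
  constructor
  · rintro ⟨y, ⟨g, hg, rfl⟩, rfl⟩; exact ⟨g, hg, rfl⟩
  · rintro ⟨g, hg, rfl⟩; exact ⟨_, ⟨g, hg, rfl⟩, rfl⟩

/-- Vectors reached from a set attached to the annihilator lie in the few translates of that set. -/
lemma card_cover_le {u a : ι → F} {x : X} (Φ : AddSubgroup (ι → F) → AddSubgroup (ι → F))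
    (hΦ : ∀ g : omegaGL Q,
      (∀ z ∈ Submodule.span F {u} ⊔ Submodule.span F {a}, ((g : GL ι F) : Matrix ι ι F) *ᵥ z = z) →
        Φ (annW hQ u (g • x)) = (Φ (annW hQ u x)).map (omMap g))
    (S₀ : AddSubgroup (ι → F)) (hS₀ : S₀ ≤ Φ (annW hQ u x))
    (hS₀S : S₀ ≤ (Submodule.span F {u} ⊔ Submodule.span F {a}).toAddSubgroup) (O : Finset (ι → F))
    (hO : ∀ z ∈ O, z ∉ S₀ ∧ ∃ y ∈ Φ (annW hQ u x),
      Shift Q (Submodule.span F {u} ⊔ Submodule.span F {a}) y z) :
    O.card ≤ (shifts hQ u a x).card * (Nat.card (Φ (annW hQ u x)) - Nat.card S₀) := by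
  classical
  have := Fintype.ofFinite F
  refine (Finset.card_le_card (t := (shifts hQ u a x).biUnion fun B =>
    ((Φ B : Set (ι → F)).toFinset \ (S₀ : Set (ι → F)).toFinset)) fun z hz => ?_).trans
      (Finset.card_biUnion_le.trans ?_)
  · obtain ⟨hzS, y, hy, g, hg, rfl⟩ := hO z hz
    refine Finset.mem_biUnion.2 ⟨_, (mem_shifts hQ).2 ⟨g, hg, rfl⟩, ?_⟩
    rw [Finset.mem_sdiff, Set.mem_toFinset, Set.mem_toFinset]
    exact ⟨by rw [hΦ g hg]; exact ⟨y, hy, rfl⟩, hzS⟩
  · refine (Finset.sum_le_card_nsmul _ _ _ fun B hB => le_of_eq ?_).trans (le_of_eq (smul_eq_mul _ _))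
    obtain ⟨g, hg, rfl⟩ := (mem_shifts hQ).1 hB
    rw [Finset.card_sdiff_of_subset, Set.toFinset_card, Set.toFinset_card, ← Nat.card_eq_fintype_card,
      ← Nat.card_eq_fintype_card]
    · congr 1
      show Nat.card (Φ (annW hQ u (g • x))) = _
      rw [hΦ g hg, card_map_omMap]
    · intro z hz
      rw [Set.mem_toFinset] at hz ⊢
      show z ∈ Φ (annW hQ u (g • x))
      rw [hΦ g hg]
      exact ⟨z, hS₀ hz, hg z (hS₀S hz)⟩

lemma shifts_subset {u a : ι → F} {x : X} (ha : a ∈ annW hQ u x) :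
    ∀ B ∈ shifts hQ u a x, B ∈ family hQ u x ∧ a ∈ B := by
  intro B hB
  obtain ⟨g, hg, rfl⟩ := (mem_shifts hQ).1 hB
  have hgu := hg u (Submodule.mem_sup_left (Submodule.mem_span_singleton_self u))
  refine ⟨(mem_family hQ).2 ⟨g, ⟨1, one_ne_zero, by rw [hgu, one_smul]⟩, rfl⟩, ?_⟩
  rw [annW_omMap hQ g hgu]
  exact ⟨a, ha, hg a (Submodule.mem_sup_right (Submodule.mem_span_singleton_self a))⟩

lemma card_annW_smul_stab {u : ι → F} (hu : Q u = 0) {x : X} {B : AddSubgroup (ι → F)}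
    (hB : B ∈ family hQ u x) (P : (ι → F) → Prop)
    (hP : ∀ (c : F) (g : omegaGL Q), c ≠ 0 → ((g : GL ι F) : Matrix ι ι F) *ᵥ u = c • u →
      ∀ z, P (c⁻¹ • (((g : GL ι F) : Matrix ι ι F) *ᵥ z)) ↔ P z) :
    Nat.card {z // z ∈ B ∧ P z} = Nat.card {z // z ∈ annW hQ u x ∧ P z} := by
  obtain ⟨g, ⟨c, hc, hg⟩, rfl⟩ := (mem_family hQ).1 hB
  rw [annW_smul hQ hu hc g hg]
  refine (Nat.card_eq_of_bijective (fun z : {z // z ∈ annW hQ u x ∧ P z} =>
    (⟨c⁻¹ • (((g : GL ι F) : Matrix ι ι F) *ᵥ z.1), ⟨z.1, z.2.1, rfl⟩, (hP c g hc hg z.1).2 z.2.2⟩ :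
      {z // z ∈ (annW hQ u x).map (scaleMove (Q := Q) c⁻¹ g).toAddMonoidHom ∧ P z})) ⟨?_, ?_⟩).symm
  · intro z z' h
    exact Subtype.ext (scaleMove_injective hQ (inv_ne_zero hc) g (congrArg Subtype.val h))
  · rintro ⟨_, ⟨z, hz, rfl⟩, hPz⟩
    exact ⟨⟨z, hz, (hP c g hc hg z).1 hPz⟩, rfl⟩

/-- Many vectors equivalent to `a` mean few translates contain it. -/
lemma card_shifts_mul_le {u a : ι → F} (hn : 5 ≤ Fintype.card ι) (hu : Q u = 0) (hu0 : u ≠ 0) {x : X}
    (ha : a ∈ annW hQ u x) (O : Finset (ι → F)) (hO : ∀ z ∈ O, Move Q (Submodule.span F {u}) a z) :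
    (shifts hQ u a x).card * O.card ≤ Nat.card F * Nat.card X := by
  classical
  have := Fintype.ofFinite F
  refine le_trans ?_ (card_family_mul_le hQ hn hu hu0 x)
  have h1 : ∀ z ∈ O, (shifts hQ u a x).card ≤ ((family hQ u x).filter fun B => z ∈ B).card := by
    intro z hz
    obtain ⟨c, g, hc, hgu, hga⟩ := hO z hz
    have hgu' : ((g : GL ι F) : Matrix ι ι F) *ᵥ u = c • u := by
      have := hgu u (Submodule.mem_span_singleton_self u)
      conv_rhs => rw [← this, smul_inv_smul₀ hc]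
    refine Finset.card_le_card_of_injOn
      (fun B => B.map (scaleMove (Q := Q) c⁻¹ g).toAddMonoidHom) (fun B hB => ?_) (fun B _ C _ h => ?_)
    · obtain ⟨hBf, haB⟩ := shifts_subset hQ ha B hB
      exact Finset.mem_filter.2 ⟨family_map hQ hu hBf hc g hgu', a, haB, hga⟩
    · exact AddSubgroup.map_injective (scaleMove_injective hQ (inv_ne_zero hc) g) h
  calc (shifts hQ u a x).card * O.card
      ≤ ∑ z ∈ O, ((family hQ u x).filter fun B => z ∈ B).card := by
        rw [mul_comm, ← smul_eq_mul]; exact Finset.card_nsmul_le_sum _ _ _ h1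
    _ = ∑ B ∈ family hQ u x, (O.filter fun z => z ∈ B).card :=
        (Finset.sum_card_bipartiteAbove_eq_sum_card_bipartiteBelow (fun z (B : AddSubgroup (ι → F)) => z ∈ B))
    _ ≤ (family hQ u x).card * Nat.card (annW hQ u x) := by
        refine (Finset.sum_le_card_nsmul _ _ _ fun B hB => ?_).trans (le_of_eq (smul_eq_mul _ _))
        rw [← card_of_mem_family hQ hu hB, Nat.card_eq_fintype_card, ← Fintype.card_coe]
        exact Fintype.card_le_of_injective (fun z => ⟨z.1, (Finset.mem_filter.1 z.2).2⟩)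
          (fun z w h => Subtype.ext (congrArg (fun p : B => (p : ι → F)) h))

/-- When every vector of a class is alike, a class meets each translate in the same number of points. -/
lemma dvd_family_mul {u : ι → F} (hu : Q u = 0) {x : X} (P : (ι → F) → Prop)
    (hP : ∀ (c : F) (g : omegaGL Q), c ≠ 0 → ((g : GL ι F) : Matrix ι ι F) *ᵥ u = c • u →
      ∀ z, P (c⁻¹ • (((g : GL ι F) : Matrix ι ι F) *ᵥ z)) ↔ P z)
    (htrans : ∀ z z', P z → P z' → Move Q (Submodule.span F {u}) z z') :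
    Nat.card {z // P z} ∣ (family hQ u x).card * Nat.card {z // z ∈ annW hQ u x ∧ P z} := by
  classical
  have := Fintype.ofFinite F
  let O : Finset (ι → F) := Finset.univ.filter P
  let d := fun z => ((family hQ u x).filter fun B => z ∈ B).card
  have hle : ∀ z ∈ O, ∀ z' ∈ O, d z ≤ d z' := by
    intro z hz z' hz'
    obtain ⟨c, g, hc, hgu, hgz⟩ := htrans z z' (Finset.mem_filter.1 hz).2 (Finset.mem_filter.1 hz').2
    have hgu' : ((g : GL ι F) : Matrix ι ι F) *ᵥ u = c • u := by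
      have := hgu u (Submodule.mem_span_singleton_self u)
      conv_rhs => rw [← this, smul_inv_smul₀ hc]
    refine Finset.card_le_card_of_injOn
      (fun B => B.map (scaleMove (Q := Q) c⁻¹ g).toAddMonoidHom) (fun B hB => ?_) (fun B _ C _ h => ?_)
    · obtain ⟨hBf, hzB⟩ := Finset.mem_filter.1 hB
      exact Finset.mem_filter.2 ⟨family_map hQ hu hBf hc g hgu', z, hzB, hgz⟩
    · exact AddSubgroup.map_injective (scaleMove_injective hQ (inv_ne_zero hc) g) h
  have hsum : ∑ z ∈ O, d z = (family hQ u x).card * Nat.card {z // z ∈ annW hQ u x ∧ P z} := by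
    rw [show ∑ z ∈ O, d z = ∑ B ∈ family hQ u x, (O.filter fun z => z ∈ B).card from
      Finset.sum_card_bipartiteAbove_eq_sum_card_bipartiteBelow (fun z (B : AddSubgroup (ι → F)) => z ∈ B),
      Finset.sum_congr rfl fun B hB => (?_ : (O.filter fun z => z ∈ B).card =
        Nat.card {z // z ∈ annW hQ u x ∧ P z}), Finset.sum_const, smul_eq_mul]
    rw [← card_annW_smul_stab hQ hu hB P hP, Nat.card_eq_fintype_card, Fintype.card_subtype]
    congr 1
    ext z
    simp [O, and_comm]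
  rcases O.eq_empty_or_nonempty with hO | ⟨z₀, hz₀⟩
  · rw [← hsum, hO, Finset.sum_empty]; exact dvd_zero _
  · rw [← hsum, Finset.sum_congr rfl fun z hz => le_antisymm (hle z hz z₀ hz₀) (hle z₀ hz₀ z hz),
      Finset.sum_const, smul_eq_mul, Nat.card_eq_fintype_card, Fintype.card_subtype]
    exact dvd_mul_right _ _

end CfsgLib.MinIndexOrth
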