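import Cfsg.Agent.OrthGeo.Basic
import Mathlib.NumberTheory.LegendreSymbol.Complex
import Mathlib.Analysis.Fourier.FiniteAbelian.PontryaginDuality

/-! The annihilator of a set of vectors under a primitive character composed with the polar form. -/

set_option autoImplicit false
set_option linter.unusedSectionVars false

namespace CfsgLib.MinIndexOrth

open Cfsg.Geo CfsgLib.OrthGeo Module

variable {ι : Type} [Fintype ι] [DecidableEq ι] {F : Type*} [Field F] [Finite F]
variable {Q : (ι → F) → F}

/-- A primitive additive character of a finite field. -/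
noncomputable def chi (F : Type*) [Field F] [Finite F] : AddChar F ℂ :=
  AddChar.FiniteField.primitiveChar_to_Complex F

lemma eq_zero_of_chi {a : F} (h : ∀ c : F, chi F (a * c) = 1) : a = 0 := by
  by_contra ha
  exact AddChar.FiniteField.primitiveChar_to_Complex_isPrimitive F ha (DFunLike.ext _ _ fun c => h c)

attribute [local irreducible] chi

variable (hQ : IsNondegenerateQuadraticForm Q)
include hQ

/-- The vectors whose pairings with the members of `S` are killed by the character. -/
noncomputable def annS (S : AddSubgroup (ι → F)) : AddSubgroup (ι → F) where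
  carrier := {y | ∀ s ∈ S, chi F (bform hQ s y) = 1}
  zero_mem' s _ := by rw [map_zero, AddChar.map_zero_eq_one]
  add_mem' := by
    intro a b ha hb s hs
    rw [map_add, AddChar.map_add_eq_mul, ha s hs, hb s hs, mul_one]
  neg_mem' := by
    intro a ha s hs
    have h := ha (-s) (S.neg_mem hs)
    rwa [map_neg, LinearMap.neg_apply, ← map_neg] at h

lemma mem_annS {S : AddSubgroup (ι → F)} {y : ι → F} :
    y ∈ annS hQ S ↔ ∀ s ∈ S, chi F (bform hQ s y) = 1 := Iff.rfl

lemma eq_zero_of_mem_annS_top {s : ι → F} (h : ∀ y, chi F (bform hQ s y) = 1) : s = 0 := by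
  refine (b_nondeg hQ).1 s fun y => eq_zero_of_chi fun c => ?_
  have := h (c • y)
  rwa [map_smul, smul_eq_mul, mul_comm] at this

/-- The character of `S` given by pairing with a vector. -/
noncomputable def pairChar (S : AddSubgroup (ι → F)) (y : ι → F) : AddChar S ℂ where
  toFun s := chi F (bform hQ (s : ι → F) y)
  map_zero_eq_one' := by rw [AddSubgroup.coe_zero, map_zero, LinearMap.zero_apply, AddChar.map_zero_eq_one]
  map_add_eq_mul' a b := by rw [AddSubgroup.coe_add, map_add, LinearMap.add_apply, AddChar.map_add_eq_mul]

lemma card_annS_mul (S : AddSubgroup (ι → F)) :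
    Nat.card (annS hQ S) * Nat.card S = Nat.card F ^ Fintype.card ι := by
  classical
  have := Fintype.ofFinite F
  have h1 : (annS hQ S).index ≤ Nat.card S := by
    let f : (ι → F) ⧸ annS hQ S → AddChar S ℂ := fun y => Quotient.liftOn' y (pairChar hQ S) (fun a b hab => by
      rw [QuotientAddGroup.leftRel_apply] at hab
      refine DFunLike.ext _ _ fun s => ?_
      show chi F (bform hQ (s : ι → F) a) = chi F (bform hQ (s : ι → F) b)
      rw [← add_neg_cancel_left a b, map_add (bform hQ (s : ι → F)), AddChar.map_add_eq_mul, hab s s.2, mul_one])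
    have hf : Function.Injective f := by
      rintro ⟨a⟩ ⟨b⟩ h
      refine QuotientAddGroup.eq.2 fun s hs => ?_
      have h' : chi F (bform hQ s a) = chi F (bform hQ s b) := DFunLike.congr_fun h ⟨s, hs⟩
      rw [map_add, map_neg, AddChar.map_add_eq_mul, ← h', ← AddChar.map_add_eq_mul, neg_add_cancel,
        AddChar.map_zero_eq_one]
    refine (Nat.card_le_card_of_injective f hf).trans (le_of_eq ?_)
    rw [Nat.card_eq_fintype_card, AddChar.card_eq, Nat.card_eq_fintype_card]
  let g : S → AddChar ((ι → F) ⧸ annS hQ S) ℂ := fun s =>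
    { toFun := fun y => Quotient.liftOn' y (fun y => chi F (bform hQ (s : ι → F) y)) (fun a b hab => by
        rw [QuotientAddGroup.leftRel_apply] at hab
        have h := hab s s.2
        rw [map_add, map_neg] at h
        calc chi F (bform hQ (s : ι → F) a)
            = chi F (bform hQ (s : ι → F) a) * chi F (-(bform hQ (s : ι → F) a) + bform hQ (s : ι → F) b) := by
              rw [h, mul_one]
          _ = chi F (bform hQ (s : ι → F) b) := by rw [← AddChar.map_add_eq_mul, add_neg_cancel_left])
      map_zero_eq_one' := by
        show chi F (bform hQ (s : ι → F) 0) = 1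
        rw [map_zero, AddChar.map_zero_eq_one]
      map_add_eq_mul' := by
        rintro ⟨a⟩ ⟨b⟩
        show chi F (bform hQ (s : ι → F) (a + b)) = chi F (bform hQ (s : ι → F) a) * chi F (bform hQ (s : ι → F) b)
        rw [map_add, AddChar.map_add_eq_mul] }
  have hg : Function.Injective g := by
    intro s t h
    refine Subtype.ext (sub_eq_zero.1 (eq_zero_of_mem_annS_top hQ fun y => ?_))
    have h' : chi F (bform hQ (s : ι → F) y) = chi F (bform hQ (t : ι → F) y) :=
      DFunLike.congr_fun h (QuotientAddGroup.mk y)
    rw [map_sub, LinearMap.sub_apply, sub_eq_add_neg, AddChar.map_add_eq_mul, h', ← AddChar.map_add_eq_mul,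
      add_neg_cancel, AddChar.map_zero_eq_one]
  have h2 : Nat.card S ≤ (annS hQ S).index := by
    refine (Nat.card_le_card_of_injective g hg).trans (le_of_eq ?_)
    rw [Nat.card_eq_fintype_card, AddChar.card_eq, AddSubgroup.index, Nat.card_eq_fintype_card]
  rw [← le_antisymm h1 h2, AddSubgroup.card_mul_index, Nat.card_fun, Nat.card_eq_fintype_card (α := ι)]

lemma annS_annS (S : AddSubgroup (ι → F)) : annS hQ (annS hQ S) = S := by
  classical
  symm
  refine AddSubgroup.eq_of_le_of_card_ge (fun s hs y hy => ?_) (le_of_eq ?_)
  · rw [b_symm hQ]; exact hy s hs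
  · have h1 := card_annS_mul hQ S
    have h2 := card_annS_mul hQ (annS hQ S)
    rw [← h1, mul_comm (Nat.card (annS hQ S))] at h2
    exact Nat.eq_of_mul_eq_mul_right Nat.card_pos h2

lemma annS_anti {S T : AddSubgroup (ι → F)} (h : S ≤ T) : annS hQ T ≤ annS hQ S :=
  fun _ hy s hs => hy s (h hs)

lemma annS_submodule (W : Submodule F (ι → F)) : annS hQ W.toAddSubgroup = (perp hQ W).toAddSubgroup := by
  ext y
  constructor
  · intro h w hw
    refine eq_zero_of_chi fun c => ?_
    have := h (c • w) (W.smul_mem c hw)
    rwa [map_smul, LinearMap.smul_apply, smul_eq_mul, mul_comm] at this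
  · intro h w hw
    rw [(show bform hQ w y = 0 from h w hw), AddChar.map_zero_eq_one]

/-- A set containing a subspace has annihilator inside the perpendicular space. -/
lemma annS_le_perp {S : AddSubgroup (ι → F)} {W : Submodule F (ι → F)} (h : W.toAddSubgroup ≤ S) :
    annS hQ S ≤ (perp hQ W).toAddSubgroup := by
  rw [← annS_submodule hQ]; exact annS_anti hQ h

/-- The perpendicular space of the span of the annihilator lies in the set. -/
lemma perp_span_annS_le (S : AddSubgroup (ι → F)) :
    (perp hQ (Submodule.span F (annS hQ S : Set (ι → F)))).toAddSubgroup ≤ S := by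
  rw [← annS_submodule hQ]
  refine (annS_anti hQ ?_).trans (le_of_eq (annS_annS hQ S))
  exact fun x hx => Submodule.subset_span hx

/-- A subspace inside the set is perpendicular to the span of the annihilator. -/
lemma span_annS_le_perp {S : AddSubgroup (ι → F)} {W : Submodule F (ι → F)} (h : W.toAddSubgroup ≤ S) :
    Submodule.span F (annS hQ S : Set (ι → F)) ≤ perp hQ W :=
  Submodule.span_le.2 (annS_le_perp hQ h)

end CfsgLib.MinIndexOrth
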