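import Cfsg.Agent.MinIndexOrth.Counts
import Cfsg.Agent.Classical.Orth.CentreOmega

/-! The least index of a proper subgroup: the general argument and its transfer to the projective group. -/

set_option autoImplicit false
set_option linter.unusedSectionVars false

namespace CfsgLib.MinIndexOrth

open Cfsg.Geo CfsgLib.OrthGeo Module
open scoped Matrix MatrixGroups

variable {ι : Type} [Fintype ι] [DecidableEq ι] {F : Type*} [Field F] [Finite F]
variable {Q : (ι → F) → F}
variable (hQ : IsNondegenerateQuadraticForm Q)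

/-- The stabiliser in Omega of the line of a vector. -/
def lineStab (Q : (ι → F) → F) (p : ι → F) : Subgroup (omegaGL Q) :=
  (subspaceStabilizer (Submodule.span F {p})).comap (omegaGL Q).subtype

lemma mem_lineStab {p : ι → F} {g : omegaGL Q} :
    g ∈ lineStab Q p ↔ ((g : GL ι F) : Matrix ι ι F) *ᵥ p ∈ Submodule.span F {p} := by
  refine ⟨fun h => (mem_subspaceStabilizer.1 h p).1 (Submodule.mem_span_singleton_self p), fun h => ?_⟩
  refine mem_subspaceStabilizer_of_le fun v hv => ?_
  obtain ⟨c, rfl⟩ := Submodule.mem_span_singleton.1 hv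
  show ((g : GL ι F) : Matrix ι ι F) *ᵥ (c • p) ∈ _
  rw [Matrix.mulVec_smul]
  exact Submodule.smul_mem _ _ h

/-- The non-zero vectors of the class of `p`. -/
def ClassOf (Q : (ι → F) → F) (p z : ι → F) : Prop := z ≠ 0 ∧ SameClass Q (Q p) z

include hQ

lemma exists_to_class (hn : 5 ≤ Fintype.card ι) {p z : ι → F} (hp : p ≠ 0) (hz : ClassOf Q p z) :
    ∃ (c : F) (g : omegaGL Q), c ≠ 0 ∧ ((g : GL ι F) : Matrix ι ι F) *ᵥ p = c • z := by
  obtain ⟨hz0, l, hl, hQz⟩ := hz
  obtain ⟨g, hg, hgp⟩ := exists_map_value hQ hn (a := p) (a' := l⁻¹ • z) hp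
    (smul_ne_zero (inv_ne_zero hl) hz0)
    (by rw [q_smul hQ, hQz, ← mul_assoc, ← mul_pow, inv_mul_cancel₀ hl, one_pow, one_mul])
  exact ⟨l⁻¹, ⟨g, eichlerGroup_le_omega hQ hn hg⟩, inv_ne_zero hl, hgp⟩

/-- A point whose stabiliser fixes a line has at least as many translates as the line. -/
lemma card_class_le_of_fixed {X : Type*} [MulAction (omegaGL Q) X] [Finite X] (hn : 5 ≤ Fintype.card ι)
    {p : ι → F} (hp : p ≠ 0) {x : X}
    (h : ∀ g ∈ stabGL (Q := Q) x, (g : Matrix ι ι F) *ᵥ p ∈ Submodule.span F {p}) :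
    Nat.card {z // ClassOf Q p z} ≤ (Nat.card F - 1) * Nat.card X := by
  classical
  have := Fintype.ofFinite F
  have := Fintype.ofFinite X
  choose c g hc hg using fun z : {z // ClassOf Q p z} => exists_to_class hQ hn hp z.2
  rw [Nat.card_eq_fintype_card, Nat.card_eq_fintype_card (α := X), ← Finset.card_univ, ← Finset.card_univ]
  refine (Finset.card_le_mul_card_image Finset.univ (Nat.card F - 1) (f := fun z => g z • x)
    fun y hy => ?_).trans (Nat.mul_le_mul_left _ (Finset.card_le_univ _))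
  obtain ⟨w, -, rfl⟩ := Finset.mem_image.1 hy
  refine le_trans (Finset.card_le_card_of_injOn (fun z : {z // ClassOf Q p z} => (z : ι → F))
    (t := (Finset.univ.erase (0 : F)).image (fun r => r • (w : ι → F))) (fun z hz => ?_)
    (fun z _ z' _ e => Subtype.ext e)) ?_
  · have hzw : g z • x = g w • x := (Finset.mem_filter.1 hz).2
    have hs : ((g w)⁻¹ * g z : omegaGL Q) • x = x := by rw [mul_smul, hzw, inv_smul_smul]
    obtain ⟨r, hr⟩ := Submodule.mem_span_singleton.1 (h _ (mem_stabGL.2 ⟨((g w)⁻¹ * g z : omegaGL Q).2, hs⟩))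
    have h1 := congrArg ((((g w : omegaGL Q) : GL ι F) : Matrix ι ι F) *ᵥ ·) hr
    simp only [Subgroup.coe_mul, Units.val_mul, ← Matrix.mulVec_mulVec, Subgroup.coe_inv, mulVec_inv_cancel,
      Matrix.mulVec_smul, hg, smul_smul] at h1
    have hzv : (z : ι → F) = ((c z)⁻¹ * (r * c w)) • (w : ι → F) := by
      rw [← smul_smul, h1, smul_smul, inv_mul_cancel₀ (hc z), one_smul]
    refine Finset.mem_image.2 ⟨_, Finset.mem_erase.2 ⟨fun h0 => z.2.1 ?_, Finset.mem_univ _⟩, hzv.symm⟩
    rw [hzv, h0, zero_smul]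
  · refine Finset.card_image_le.trans (le_of_eq ?_)
    rw [Finset.card_erase_of_mem (Finset.mem_univ _), Finset.card_univ, Nat.card_eq_fintype_card]

/-- The index of the stabiliser of a line. -/
lemma index_lineStab (hn : 5 ≤ Fintype.card ι) {p : ι → F} (hp : p ≠ 0) :
    (Nat.card F - 1) * (lineStab Q p).index = Nat.card {z // ClassOf Q p z} := by
  classical
  refine le_antisymm ?_ ?_
  · rw [← Nat.card_units, Subgroup.index, ← Nat.card_prod]
    refine Nat.card_le_card_of_injective
      (fun r : Fˣ × (omegaGL Q ⧸ lineStab Q p) =>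
        (⟨(r.1 : F) • (((r.2.out : omegaGL Q) : GL ι F) : Matrix ι ι F) *ᵥ p, ?_, ?_⟩ :
          {z // ClassOf Q p z})) ?_
    · refine smul_ne_zero r.1.ne_zero fun h => hp ?_
      rw [← inv_mulVec_cancel ((r.2.out : omegaGL Q) : GL ι F) p, h, Matrix.mulVec_zero]
    · exact ⟨r.1, r.1.ne_zero, by rw [q_smul hQ, mem_isometryGroup.1 (omegaGL_le r.2.out.2)]⟩
    · rintro ⟨a, A⟩ ⟨b, B⟩ h
      have h' := congrArg ((((A.out : omegaGL Q) : GL ι F)⁻¹ : GL ι F) : Matrix ι ι F).mulVec
        (congrArg Subtype.val h)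
      simp only [Matrix.mulVec_smul, inv_mulVec_cancel] at h'
      have hmem : A.out⁻¹ * B.out ∈ lineStab Q p := mem_lineStab.2
        (Submodule.mem_span_singleton.2 ⟨(b : F)⁻¹ * a, by
          rw [← smul_smul, h', inv_smul_smul₀ b.ne_zero, Subgroup.coe_mul, Units.val_mul,
            ← Matrix.mulVec_mulVec, Subgroup.coe_inv]⟩)
      have hAB : A = B := by
        rw [← QuotientGroup.out_eq' A, ← QuotientGroup.out_eq' B]
        exact QuotientGroup.eq.2 hmem
      subst hAB
      refine Prod.ext (Units.ext ?_) rfl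
      rw [inv_mulVec_cancel] at h'
      exact smul_left_injective F hp h'
  · rw [Subgroup.index]
    refine card_class_le_of_fixed hQ hn hp (x := ((1 : omegaGL Q) : omegaGL Q ⧸ lineStab Q p)) fun g hg => ?_
    obtain ⟨k, hk, rfl⟩ := hg
    refine mem_lineStab.1 ?_
    have h1 : ((k : omegaGL Q) : omegaGL Q ⧸ lineStab Q p) = ((1 : omegaGL Q) : omegaGL Q ⧸ lineStab Q p) := by
      have := MulAction.mem_stabilizer_iff.1 hk
      rwa [MulAction.Quotient.smul_coe, smul_eq_mul, mul_one] at this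
    simpa using (QuotientGroup.eq.1 h1.symm)

/-- The class of a singular vector is all non-zero singular vectors. -/
lemma card_classOf_singular {p : ι → F} (hQp : Q p = 0) :
    Nat.card {z // ClassOf Q p z} + 1 = Nat.card {z // Q z = 0} := by
  classical
  have := Fintype.ofFinite F
  rw [Nat.card_eq_fintype_card, Nat.card_eq_fintype_card, Fintype.card_subtype, Fintype.card_subtype,
    ← Finset.card_insert_of_notMem (a := (0 : ι → F)) (fun h => (Finset.mem_filter.1 h).2.1 rfl)]
  congr 1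
  ext z
  simp only [Finset.mem_insert, Finset.mem_filter, Finset.mem_univ, true_and]
  constructor
  · rintro (rfl | ⟨-, c, -, hc⟩)
    · exact q_zero hQ
    · rw [hc, hQp, mul_zero]
  · intro hz
    by_cases h0 : z = 0
    · exact Or.inl h0
    · exact Or.inr ⟨h0, 1, one_ne_zero, by rw [hz, hQp, mul_zero]⟩

/-- The class of a non-singular vector. -/
lemma card_classOf_nonsingular {p : ι → F} (hQp : Q p ≠ 0) :
    Nat.card {z // ClassOf Q p z} = Nat.card {z // SameClass Q (Q p) z} := by
  refine Nat.card_congr (Equiv.subtypeEquivRight fun z => ⟨fun h => h.2, fun h => ⟨fun h0 => hQp ?_, h⟩⟩)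
  obtain ⟨c, hc, hz⟩ := h
  rw [h0, q_zero hQ] at hz
  exact (mul_eq_zero.1 hz.symm).resolve_left (pow_ne_zero _ hc)

variable {X : Type*} [MulAction (omegaGL Q) X] [Finite X]

/-- The dichotomy, when few translates share a vector and totally singular annihilators are small. -/
theorem dichot_of (hn : 7 ≤ Fintype.card ι) (hsmall : (2 : F) ≠ 0 ∨ 8 ≤ Fintype.card ι) {v : ℕ}
    (hXv : Nat.card X < v) (hv2 : v ≤ 2 * Nat.card F ^ (Fintype.card ι - 2))
    (hμ : ∀ u : ι → F, Q u = 0 → u ≠ 0 → ∀ s : F, s ≠ 0 →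
      Nat.card F * v ≤ 5 * Nat.card {z // bform hQ u z = 0 ∧ SameClass Q s z} ∧
        (Nat.card F = 2 → Nat.card F * v ≤ 4 * Nat.card {z // bform hQ u z = 0 ∧ SameClass Q s z}))
    (h37 : ∀ (x : X) (u a : ι → F), Q u = 0 → u ≠ 0 → a ∈ annW hQ u x → Q a ≠ 0 →
      Nat.card F = 3 → Fintype.card ι = 7 →
      Nat.card (annW hQ u x ⊔ (Submodule.span F {u} ⊔ Submodule.span F {a}).toAddSubgroup :
        AddSubgroup (ι → F)) = 81 → False)
    (hsing : ∀ (x : X) (u : ι → F), Q u = 0 → u ≠ 0 → (∀ a ∈ annW hQ u x, Q a = 0) →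
      fixW hQ u x ≤ (Submodule.span F {u}).toAddSubgroup ∨ finrank F (spanA hQ u x) ≤ 2) :
    Dichot hQ X := by
  classical
  have := Fintype.ofFinite F
  intro x u hu hu0
  by_cases h : ∀ a ∈ annW hQ u x, Q a = 0
  · exact hsing x u hu hu0 h
  push Not at h
  obtain ⟨a, haA, ha⟩ := h
  obtain ⟨h5, h4⟩ := hμ u hu hu0 _ ha
  set O := Finset.univ.filter fun z => bform hQ u z = 0 ∧ SameClass Q (Q a) z with hO
  have hOc : O.card = Nat.card {z // bform hQ u z = 0 ∧ SameClass Q (Q a) z} := by
    rw [Nat.card_eq_fintype_card, Fintype.card_subtype]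
  rw [← hOc] at h5 h4
  have hb := card_shifts_mul_le hQ (by omega) hu hu0 haA O fun z hz =>
    move_of_sameClass hQ hn hu hu0 (b_eq_zero_of_mem_annW hQ hu haA) ha (Finset.mem_filter.1 hz).2.1
      (Finset.mem_filter.1 hz).2.2
  have hlt : Nat.card F * Nat.card X < Nat.card F * v := (Nat.mul_lt_mul_left Nat.card_pos).2 hXv
  refine classify_nonsingular hQ hn hsmall (hXv.trans_le hv2) hu hu0 haA ha ?_ (fun h2 => ?_)
    (h37 x u a hu hu0 haA ha)
  · by_contra hM
    have := Nat.mul_le_mul_right O.card (not_le.1 hM)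
    omega
  · by_contra hM
    have := Nat.mul_le_mul_right O.card (not_le.1 hM)
    have := h4 h2
    omega

/-- A non-trivial transitive set has at least as many points as the smallest class of lines. -/
theorem card_ge [MulAction.IsPretransitive (omegaGL Q) X] [Nontrivial X] (hn : 7 ≤ Fintype.card ι)
    (hwitt : 9 ≤ Fintype.card ι ∨ (∀ W : Submodule F (ι → F), IsTotallySingularQuad Q W → finrank F W ≤ 3) ∨
      Nat.card F = 2 ∨ ∃ r : F, r ≠ 0 ∧ r ^ 2 ≠ 1)
    {v : ℕ} (hv2 : v ≤ 2 * Nat.card F ^ (Fintype.card ι - 2))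
    (hclass : ∀ p : ι → F, p ≠ 0 → (Nat.card F - 1) * v ≤ Nat.card {z // ClassOf Q p z})
    (hD : Nat.card X < v → Dichot hQ X) : v ≤ Nat.card X := by
  by_contra h
  push Not at h
  have hnot := not_allFree hQ hn hwitt (h.trans_le hv2)
  simp only [AllFree, not_forall] at hnot
  obtain ⟨x, u, hu, hu0, hfree⟩ := hnot
  have hflat : IsFlat hQ u x := ⟨hu, hu0, (hD h x u hu hu0).resolve_left hfree⟩
  obtain ⟨p, hp, hfix⟩ := exists_fixed_line hQ (hD h) hn hflat fun hall => by
    obtain ⟨y, hy⟩ := exists_ne x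
    obtain ⟨g, rfl⟩ := MulAction.exists_smul_eq (omegaGL Q) x y
    obtain ⟨_, hgx⟩ := mem_stabGL.1 (hall g.2)
    exact hy hgx
  have h1 := (hclass p hp).trans (card_class_le_of_fixed hQ (by omega) hp hfix)
  have h2 := Nat.le_of_mul_le_mul_left h1 (by have := two_le_natCard (F := F); omega)
  omega

omit [Finite X] in
/-- From transitive sets of Omega to the index statement of the projective group. -/
theorem pomega_min_index (hn : 5 ≤ Fintype.card ι) {v : ℕ}
    (hlow : ∀ K : Subgroup (omegaGL Q), K ≠ ⊤ → v ≤ K.index)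
    {p : ι → F} (hp : p ≠ 0) (hp' : Nat.card {z // ClassOf Q p z} = (Nat.card F - 1) * v) :
    (∀ H : Subgroup (Cfsg.POmega F Q), H ≠ ⊤ → v ≤ H.index) ∧
      ∃ H : Subgroup (Cfsg.POmega F Q), H.index = v := by
  have hsurj := QuotientGroup.mk'_surjective (Subgroup.center (Cfsg.Omega F Q))
  let e : Cfsg.Omega F Q ≃* omegaGL Q :=
    Subgroup.equivMapOfInjective _ _ (Cfsg.isometryGroup F Q).subtype_injective
  refine ⟨fun H hH => ?_, ?_⟩
  · rw [← Subgroup.index_comap_of_surjective H hsurj,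
      ← Subgroup.index_comap_of_surjective (H.comap (QuotientGroup.mk' _))
        (f := (e.symm : omegaGL Q →* Cfsg.Omega F Q)) e.symm.surjective]
    refine hlow _ fun h => hH (Subgroup.comap_injective hsurj ?_)
    refine Subgroup.comap_injective (f := (e.symm : omegaGL Q →* Cfsg.Omega F Q)) e.symm.surjective ?_
    rw [h, Subgroup.comap_top, Subgroup.comap_top]
  · refine ⟨((lineStab Q p).comap e.toMonoidHom).map (QuotientGroup.mk' _), ?_⟩
    rw [Subgroup.index_map_eq _ hsurj, Subgroup.index_comap_of_surjective _ e.surjective]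
    · refine Nat.eq_of_mul_eq_mul_left ?_ ((index_lineStab hQ hn hp).trans hp')
      have := two_le_natCard (F := F); omega
    · rw [QuotientGroup.ker_mk']
      intro z hz
      obtain ⟨c, hc⟩ := Classical.Orth.scalar_of_mem_center hQ hn hz
      exact mem_lineStab.2 (Submodule.mem_span_singleton.2 ⟨c, (hc p).symm⟩)

end CfsgLib.MinIndexOrth
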