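import Cfsg.Agent.MinIndexOrth.PairAll
import Cfsg.Agent.MinIndexOrth.Main

/-! Plus type in eight dimensions: when one annihilator is totally singular of dimension four and the set
is small, every annihilator is, and determines the points that have it. -/

set_option autoImplicit false
set_option linter.unusedSectionVars false

namespace CfsgLib.MinIndexOrth

open Cfsg.Geo CfsgLib.OrthGeo Module
open scoped Matrix MatrixGroups

variable {ι : Type} [Fintype ι] [DecidableEq ι] {F : Type*} [Field F] [Finite F]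
variable {Q : (ι → F) → F}
variable (hQ : IsNondegenerateQuadraticForm Q)
variable {X : Type*} [MulAction (omegaGL Q) X] [Finite X]
include hQ

/-- A totally singular annihilator of the largest size. -/
def IsBig (u : ι → F) (x : X) : Prop :=
  Nat.card (annW hQ u x) = Nat.card F ^ 4 ∧ ∀ z ∈ annW hQ u x, Q z = 0

/-- The counts for the plus type in eight dimensions. -/
structure EightData (X : Type*) (q v : ℕ) : Prop where
  dim : Fintype.card ι = 8
  size : Nat.card F = q
  q_four : 4 ≤ q
  small : Nat.card X < v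
  points : v = (q ^ 3 + q ^ 2 + q + 1) * (q ^ 3 + 1)
  singles : ∀ u : ι → F, Q u = 0 → u ≠ 0 →
    Nat.card {z // singPerp hQ u z} + q + q ^ 3 = q ^ 6 + q ^ 4
  pairs : ∀ u z : ι → F, Q u = 0 → u ≠ 0 → singPerp hQ u z → Nat.card {w // Q w = 0 ∧
    w ∈ perp hQ (Submodule.span F {u} ⊔ Submodule.span F {z}) ∧ w ∉ Submodule.span F {u} ⊔ Submodule.span F {z}}
      + q ^ 2 + q ^ 3 = q ^ 5 + q ^ 4
  class_ge : ∀ u : ι → F, Q u = 0 → u ≠ 0 → ∀ s : F, s ≠ 0 →
    q ^ 6 ≤ Nat.card {z // bform hQ u z = 0 ∧ SameClass Q s z} + q ^ 3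
  zeros : Nat.card {z : ι → F // Q z = 0 ∧ z ≠ 0} = (q - 1) * v
  witt : ∀ W : Submodule F (ι → F), IsTotallySingularQuad Q W → finrank F W ≤ 4

variable {hQ} {q v : ℕ} (D : EightData hQ X q v)
include D

lemma IsBig.facts {u : ι → F} {x : X} (h : IsBig hQ u x) :
    IsTotallySingularQuad Q (spanA hQ u x) ∧ annW hQ u x = (spanA hQ u x).toAddSubgroup ∧
      finrank F (spanA hQ u x) = 4 ∧ fixW hQ u x = annW hQ u x := by
  have hts := spanA_totallySingular hQ h.2
  have hle : annW hQ u x ≤ (spanA hQ u x).toAddSubgroup := fun z hz => Submodule.subset_span hz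
  have h4 := D.witt _ hts
  have hclosed : annW hQ u x = (spanA hQ u x).toAddSubgroup := by
    refine AddSubgroup.eq_of_le_of_card_ge hle ?_
    rw [natCard_submodule, h.1]
    exact Nat.pow_le_pow_right Nat.card_pos h4
  have hd : finrank F (spanA hQ u x) = 4 := by
    refine le_antisymm h4 ((Nat.pow_le_pow_iff_right (a := Nat.card F) (by rw [D.size]; have := D.q_four; omega)).1 ?_)
    rw [← natCard_submodule, ← hclosed, h.1]
  refine ⟨hts, hclosed, hd, ?_⟩
  rw [← annS_annW, hclosed, annS_submodule]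
  have hp : perp hQ (spanA hQ u x) = spanA hQ u x := by
    refine (Submodule.eq_of_le_of_finrank_le (le_perp_self hQ hts) ?_).symm
    have := finrank_perp_add hQ (spanA hQ u x)
    have := D.dim
    omega
  rw [hp]

/-- At least one family's worth of annihilators, each belonging to many points. -/
lemma family_large {u : ι → F} (hu : Q u = 0) (hu0 : u ≠ 0) {x : X} (hb : IsBig hQ u x) :
    q ^ 3 + q ^ 2 + q + 1 ≤ (family hQ u x).card := by
  obtain ⟨hts, hclosed, hd, -⟩ := hb.facts D
  set N := Nat.card {z // singPerp hQ u z} with hN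
  have h := pair_count_all hQ (by rw [D.dim]; norm_num) hu hu0 hb.2 (by omega) _
    (sq_le_card_inf hQ hu hu0 hclosed) (q ^ 5 + q ^ 4 - q ^ 2 - q ^ 3)
    (fun z hz => by have := D.pairs u z hu hu0 hz; omega)
  rw [hb.1, D.size, ← hN] at h
  have hN' := D.singles u hu hu0
  rw [← hN] at hN'
  have hq := D.q_four
  have h1 : q ≤ q ^ 4 := Nat.le_self_pow (by norm_num) q
  have h2 : q ^ 2 ≤ q ^ 4 := Nat.pow_le_pow_right (by omega) (by norm_num)
  have h3 : q ^ 2 ≤ q ^ 5 + q ^ 4 := le_add_left h2
  have h4 : q ^ 3 ≤ q ^ 5 + q ^ 4 - q ^ 2 := by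
    have : q ^ 3 ≤ q ^ 5 := Nat.pow_le_pow_right (by omega) (by norm_num)
    omega
  zify [h1, h2, h3, h4] at h hN' ⊢
  have hq' : (4 : ℤ) ≤ q := by exact_mod_cast hq
  have hpos : 0 < (q : ℤ) ^ 3 * (q ^ 3 - 1) * (q ^ 2 - 1) :=
    mul_pos (mul_pos (by positivity) (by nlinarith)) (by nlinarith)
  refine le_of_mul_le_mul_right (le_trans (le_of_eq ?_) (h.trans (le_of_eq ?_))) hpos
  · rw [show (N : ℤ) = q ^ 6 + q ^ 4 - q ^ 3 - q by linarith]; ring
  · ring

/-- The points with a given annihilator are at least the points of one root orbit. -/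
lemma fibre_ge {u : ι → F} (hu : Q u = 0) (hu0 : u ≠ 0) {y : X} (hb : IsBig hQ u y) :
    q ^ 3 ≤ Nat.card {y' : X // annW hQ u y' = annW hQ u y} := by
  have hn : 5 ≤ Fintype.card ι := by rw [D.dim]; norm_num
  have h := card_rootOrbit hQ hn hu hu0 y
  rw [hb.1, D.size] at h
  have hc : Nat.card (rootOrbit hQ hn hu y) = q ^ 3 :=
    Nat.eq_of_mul_eq_mul_left (show 0 < q by have := D.q_four; omega) (by rw [h]; ring)
  rw [← hc]
  refine Nat.card_le_card_of_injective (fun z => ⟨z.1, ?_⟩) fun z w h => Subtype.ext (congrArg (fun p : {y' : X // annW hQ u y' = annW hQ u y} => (p : X)) h)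
  rw [annW, annW, fixW_rootOrbit hQ hn hu z.2]

/-- Every annihilator is a line or as big as possible. -/
lemma line_or_big {u : ι → F} (hu : Q u = 0) (hu0 : u ≠ 0) {x : X} (hb : IsBig hQ u x) (y : X) :
    annW hQ u y ≤ (Submodule.span F {u}).toAddSubgroup ∨ IsBig hQ u y := by
  classical
  have := Fintype.ofFinite F
  by_cases hy : annW hQ u y ∈ family hQ u x
  · refine Or.inr ⟨(card_of_mem_family hQ hu hy).trans hb.1, ?_⟩
    obtain ⟨g, ⟨c, hc, hg⟩, e⟩ := (mem_family hQ).1 hy
    intro z hz
    rw [← e, annW_smul hQ hu hc g hg] at hz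
    obtain ⟨z', hz', rfl⟩ := hz
    show Q (c⁻¹ • (((g : GL ι F) : Matrix ι ι F) *ᵥ z')) = 0
    rw [q_smul hQ, mem_isometryGroup.1 (omegaGL_le g.2), hb.2 z' hz', mul_zero]
  left
  intro a ha
  by_contra hau
  have hdisj : Disjoint (family hQ u x) (family hQ u y) := Finset.disjoint_left.2 fun B hBx hBy => hy (by
    obtain ⟨g, ⟨c, hc, hg⟩, e⟩ := (mem_family hQ).1 hBy
    have hginv : (((g⁻¹ : omegaGL Q) : GL ι F) : Matrix ι ι F) *ᵥ u = c⁻¹ • u := by
      have h1 := congrArg ((((g : GL ι F)⁻¹ : GL ι F) : Matrix ι ι F) *ᵥ ·) hg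
      simp only [inv_mulVec_cancel, Matrix.mulVec_smul] at h1
      rw [Subgroup.coe_inv]
      conv_rhs => rw [h1, inv_smul_smul₀ hc]
    have h := family_map hQ hu hBx (inv_ne_zero hc) g⁻¹ hginv
    rw [← e, ← annW_smul hQ hu (inv_ne_zero hc) g⁻¹ hginv, inv_smul_smul] at h
    exact h)
  have hn5 : 5 ≤ Fintype.card ι := by rw [D.dim]; norm_num
  have hn7 : 7 ≤ Fintype.card ι := by rw [D.dim]; norm_num
  have hsum := sum_card_annW_le hQ hn5 hu hu0 (family hQ u x ∪ family hQ u y) fun B hB => by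
    rcases Finset.mem_union.1 hB with h | h <;> obtain ⟨g, -, hg⟩ := (mem_family hQ).1 h <;> exact ⟨_, hg⟩
  rw [Finset.sum_union hdisj, Finset.sum_congr rfl (fun B hB => (card_of_mem_family hQ hu hB).trans hb.1),
    Finset.sum_const, smul_eq_mul, D.size] at hsum
  set s := ∑ B ∈ family hQ u y, Nat.card B with hs
  have hq := D.q_four
  -- the class of `a` is covered by the second family
  have hbig : q ^ 5 ≤ s := by
    have hcls : ∀ P : (ι → F) → Prop, (∀ z, P z → Move Q (Submodule.span F {u}) a z) →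
        Nat.card {z // P z} ≤ s := by
      intro P hP
      rw [Nat.card_eq_fintype_card, Fintype.card_subtype]
      refine (Finset.card_le_card (t := (family hQ u y).biUnion fun B => (B : Set (ι → F)).toFinset)
        fun z hz => ?_).trans (Finset.card_biUnion_le.trans (le_of_eq (Finset.sum_congr rfl fun B _ => ?_)))
      · obtain ⟨c, g, hc, hgu, hga⟩ := hP z (Finset.mem_filter.1 hz).2
        have hgu' : ((g : GL ι F) : Matrix ι ι F) *ᵥ u = c • u := by
          have := hgu u (Submodule.mem_span_singleton_self u)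
          conv_rhs => rw [← this, smul_inv_smul₀ hc]
        exact Finset.mem_biUnion.2 ⟨_, family_map hQ hu (annW_mem_family hQ u y) hc g hgu',
          Set.mem_toFinset.2 ⟨a, ha, hga⟩⟩
      · rw [Set.toFinset_card, ← Nat.card_eq_fintype_card]; rfl
    have h2q : q ^ 5 + q ^ 5 ≤ q ^ 6 := by
      rw [← two_mul, show q ^ 6 = q * q ^ 5 by ring]
      exact Nat.mul_le_mul_right _ (by omega)
    have hqq : q ≤ q ^ 5 := Nat.le_self_pow (by norm_num) q
    have hq35 : q ^ 3 ≤ q ^ 4 := Nat.pow_le_pow_right (by omega) (by norm_num)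
    have hq45 : q ^ 4 ≤ q ^ 5 := Nat.pow_le_pow_right (by omega) (by norm_num)
    have hua : bform hQ u a = 0 := b_eq_zero_of_mem_annW hQ hu ha
    by_cases hQa : Q a = 0
    · have h := hcls (singPerp hQ u) fun z hz =>
        (move_perp hQ hn7 hu hu0 hua hz.2.1 hau hz.2.2 (hQa.trans hz.1.symm)).toMove
      have := D.singles u hu hu0
      omega
    · have h := hcls (fun z => bform hQ u z = 0 ∧ SameClass Q (Q a) z) fun z hz =>
        move_of_sameClass hQ hn7 hu hu0 hua hQa hz.1 hz.2
      have h' := D.class_ge u hu hu0 _ hQa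
      omega
  have hL := family_large D hu hu0 hb
  have hlt : q * Nat.card X + q ≤ q * v := by
    rw [← Nat.mul_succ]; exact Nat.mul_le_mul_left q D.small
  rw [D.points] at hlt
  have h1 := Nat.mul_le_mul_right (q ^ 4) hL
  zify at h1 hsum hlt hbig hq
  nlinarith [mul_le_mul_of_nonneg_right hq (pow_nonneg (show (0 : ℤ) ≤ q by linarith) 4),
    mul_le_mul_of_nonneg_right hq (pow_nonneg (show (0 : ℤ) ≤ q by linarith) 3),
    mul_le_mul_of_nonneg_right hq (pow_nonneg (show (0 : ℤ) ≤ q by linarith) 2),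
    mul_le_mul_of_nonneg_right hq (show (0 : ℤ) ≤ q by linarith)]

omit D in
lemma annW_transport {u : ι → F} (g : omegaGL Q) (y : X) :
    annW hQ (((g : GL ι F) : Matrix ι ι F) *ᵥ u) (g • y) = (annW hQ u y).map (omMap g) :=
  eq_map_omMap g fun _ => mem_annW_map hQ g y

omit D in
lemma IsBig.transport {u : ι → F} {y : X} (h : IsBig hQ u y) (g : omegaGL Q) :
    IsBig hQ (((g : GL ι F) : Matrix ι ι F) *ᵥ u) (g • y) := by
  refine ⟨by rw [annW_transport, card_map_omMap, h.1], fun z hz => ?_⟩
  rw [annW_transport] at hz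
  obtain ⟨z', hz', rfl⟩ := hz
  rw [omMap_apply, mem_isometryGroup.1 (omegaGL_le g.2)]
  exact h.2 z' hz'

/-- Every annihilator is totally singular of dimension four. -/
theorem all_big [MulAction.IsPretransitive (omegaGL Q) X] {u₀ : ι → F} (hu₀ : Q u₀ = 0) (hu₀0 : u₀ ≠ 0)
    {x₀ : X} (hb₀ : IsBig hQ u₀ x₀) {u : ι → F} (hu : Q u = 0) (hu0 : u ≠ 0) (y : X) : IsBig hQ u y := by
  classical
  have := Fintype.ofFinite F
  have := Fintype.ofFinite X
  have hn5 : 5 ≤ Fintype.card ι := by rw [D.dim]; norm_num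
  have hq := D.q_four
  have hsome : ∀ w : ι → F, Q w = 0 → w ≠ 0 → ∃ x : X, IsBig hQ w x := by
    intro w hw hw0
    obtain ⟨k, hk, hkw⟩ := exists_map_singular hQ hn5 hu₀ hw hu₀0 hw0
    refine ⟨(⟨k, eichlerGroup_le_omega hQ hn5 hk⟩ : omegaGL Q) • x₀, ?_⟩
    have := hb₀.transport (⟨k, eichlerGroup_le_omega hQ hn5 hk⟩ : omegaGL Q)
    rwa [show (((⟨k, eichlerGroup_le_omega hQ hn5 hk⟩ : omegaGL Q) : GL ι F) : Matrix ι ι F) *ᵥ u₀ = w from hkw] at this
  have hor : ∀ w : ι → F, Q w = 0 → w ≠ 0 → ∀ z : X,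
      annW hQ w z ≤ (Submodule.span F {w}).toAddSubgroup ∨ IsBig hQ w z := fun w hw hw0 z => by
    obtain ⟨x, hx⟩ := hsome w hw hw0
    exact line_or_big D hw hw0 hx z
  by_contra hy
  let R : X → (ι → F) → Prop := fun z w => Q w = 0 ∧ w ≠ 0 ∧ ¬ IsBig hQ w z
  set c := (Finset.univ.filter fun z => R z u).card with hc
  have hc0 : 0 < c := Finset.card_pos.2 ⟨y, Finset.mem_filter.2 ⟨Finset.mem_univ _, hu, hu0, hy⟩⟩
  have hR : ∀ (g : omegaGL Q) (z : X) (w : ι → F), R z w →
      R (g • z) (((g : GL ι F) : Matrix ι ι F) *ᵥ w) := by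
    rintro g z w ⟨h1, h2, h3⟩
    refine ⟨by rw [mem_isometryGroup.1 (omegaGL_le g.2), h1], fun h => h2 ?_, fun h => h3 ?_⟩
    · rw [← inv_mulVec_cancel (g : GL ι F) w, h, Matrix.mulVec_zero]
    · have := h.transport g⁻¹
      rwa [inv_smul_smul, Subgroup.coe_inv, inv_mulVec_cancel] at this
  -- few exceptional points for each singular vector
  have hcu : ∀ w, Q w = 0 → w ≠ 0 → (Finset.univ.filter fun z => R z w).card = c := by
    have hle : ∀ w w', Q w = 0 → w ≠ 0 → Q w' = 0 → w' ≠ 0 →
        (Finset.univ.filter fun z => R z w).card ≤ (Finset.univ.filter fun z => R z w').card := by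
      intro w w' hw hw0 hw' hw'0
      obtain ⟨k, hk, hkw⟩ := exists_map_singular hQ hn5 hw hw' hw0 hw'0
      refine Finset.card_le_card_of_injOn (fun z => (⟨k, eichlerGroup_le_omega hQ hn5 hk⟩ : omegaGL Q) • z)
        (fun z hz => Finset.mem_filter.2 ⟨Finset.mem_univ _, ?_⟩) (fun z _ z' _ h => smul_left_cancel _ h)
      have := hR ⟨k, eichlerGroup_le_omega hQ hn5 hk⟩ z w (Finset.mem_filter.1 hz).2
      rwa [show (((⟨k, eichlerGroup_le_omega hQ hn5 hk⟩ : omegaGL Q) : GL ι F) : Matrix ι ι F) *ᵥ w = w' from hkw] at this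
    exact fun w hw hw0 => le_antisymm (hle w u hw hw0 hu hu0) (hle u w hu hu0 hw hw0)
  obtain ⟨x, hx⟩ := hsome u hu hu0
  have hcD : c + (q ^ 3 + q ^ 2 + q + 1) * q ^ 3 ≤ Nat.card X := by
    have hfib : ∀ B ∈ family hQ u x, q ^ 3 ≤ (Finset.univ.filter fun z : X => annW hQ u z = B).card := by
      intro B hB
      obtain ⟨g, hg, rfl⟩ := (mem_family hQ).1 hB
      have hbig : IsBig hQ u (g • x) := by
        rcases hor u hu hu0 (g • x) with h | h
        · exfalso
          have h1 := AddSubgroup.card_le_of_le h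
          rw [card_of_mem_family hQ hu hB, hx.1, natCard_submodule, finrank_span_singleton hu0, pow_one] at h1
          have : Nat.card F ^ 1 < Nat.card F ^ 4 := Nat.pow_lt_pow_right (by rw [D.size]; omega) (by norm_num)
          rw [pow_one] at this
          omega
        · exact h
      have := fibre_ge D hu hu0 hbig
      rwa [Nat.card_eq_fintype_card, Fintype.card_subtype] at this
    have hdis : Disjoint (Finset.univ.filter fun z => R z u)
        ((family hQ u x).biUnion fun B => Finset.univ.filter fun z : X => annW hQ u z = B) := by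
      refine Finset.disjoint_left.2 fun z hz hz' => ?_
      obtain ⟨B, hB, hzB⟩ := Finset.mem_biUnion.1 hz'
      rcases hor u hu hu0 z with h | h
      · have h1 := AddSubgroup.card_le_of_le h
        rw [(Finset.mem_filter.1 hzB).2, card_of_mem_family hQ hu hB, hx.1, natCard_submodule,
          finrank_span_singleton hu0, pow_one] at h1
        have : Nat.card F ^ 1 < Nat.card F ^ 4 := Nat.pow_lt_pow_right (by rw [D.size]; omega) (by norm_num)
        rw [pow_one] at this
        omega
      · exact (Finset.mem_filter.1 hz).2.2.2 h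
    have h1 := Finset.card_le_univ ((Finset.univ.filter fun z => R z u) ∪
      (family hQ u x).biUnion fun B => Finset.univ.filter fun z : X => annW hQ u z = B)
    rw [Finset.card_union_of_disjoint hdis, Finset.card_biUnion (fun B _ B' _ hne => Finset.disjoint_left.2
      fun z hz hz' => hne ((Finset.mem_filter.1 hz).2.symm.trans (Finset.mem_filter.1 hz').2)),
      ← Nat.card_eq_fintype_card] at h1
    refine le_trans ?_ h1
    refine Nat.add_le_add_left ?_ _
    refine le_trans (Nat.mul_le_mul_right _ (family_large D hu hu0 hx)) ?_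
    rw [← smul_eq_mul]
    exact Finset.card_nsmul_le_sum _ _ _ hfib
  -- the exceptional vectors of each point
  set φ := (Finset.univ.filter fun w => R y w).card with hφ
  have hφy : ∀ z, (Finset.univ.filter fun w => R z w).card = φ := by
    have hle : ∀ z z' : X, (Finset.univ.filter fun w => R z w).card ≤ (Finset.univ.filter fun w => R z' w).card := by
      intro z z'
      obtain ⟨g, rfl⟩ := MulAction.exists_smul_eq (omegaGL Q) z z'
      refine Finset.card_le_card_of_injOn (fun w => ((g : GL ι F) : Matrix ι ι F) *ᵥ w)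
        (fun w hw => Finset.mem_filter.2 ⟨Finset.mem_univ _, hR g z w (Finset.mem_filter.1 hw).2⟩)
        (fun w _ w' _ h => omMap_injective g h)
    exact fun z => le_antisymm (hle z y) (hle y z)
  have hdvd : q - 1 ∣ φ := by
    rw [hφ, Finset.card_eq_sum_card_fiberwise (f := fun w => Submodule.span F ({w} : Set (ι → F)))
      (t := (Finset.univ.filter fun w => R y w).image fun w => Submodule.span F ({w} : Set (ι → F)))
      (fun w hw => Finset.mem_coe.2 (Finset.mem_image_of_mem _ (Finset.mem_coe.1 hw)))]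
    refine Finset.dvd_sum fun ℓ hℓ => ?_
    obtain ⟨w, hw, rfl⟩ := Finset.mem_image.1 hℓ
    obtain ⟨hQw, hw0, hwb⟩ := (Finset.mem_filter.1 hw).2
    refine dvd_of_eq ?_
    have hcq : (Finset.univ.erase (0 : F)).card = q - 1 := by
      rw [Finset.card_erase_of_mem (Finset.mem_univ _), Finset.card_univ, ← Nat.card_eq_fintype_card, D.size]
    rw [← hcq]
    refine Finset.card_bij (fun r _ => r • w) (fun r hr => ?_) (fun r _ r' _ h => smul_left_injective F hw0 h) ?_
    · have hr0 := (Finset.mem_erase.1 hr).1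
      refine Finset.mem_filter.2 ⟨Finset.mem_filter.2 ⟨Finset.mem_univ _,
        by rw [q_smul hQ, hQw, mul_zero], smul_ne_zero hr0 hw0, fun hbr => ?_⟩,
        Submodule.span_singleton_smul_eq (isUnit_iff_ne_zero.2 hr0) w⟩
      have hle : annW hQ w y ≤ (Submodule.span F {w}).toAddSubgroup := (hor w hQw hw0 y).resolve_right hwb
      have hperp : ∀ z, bform hQ w z = 0 → z ∈ fixW hQ w y := fun z hz => by
        rw [← annS_annW]
        refine annS_anti hQ hle ?_
        rw [annS_submodule]
        exact (mem_perp_span_singleton hQ).2 hz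
      -- a non-singular vector perpendicular to `w` lies in the fixed space of the multiple
      obtain ⟨hts, -, -, hfix⟩ := hbr.facts D
      obtain ⟨p, hp, hQp⟩ : ∃ p ∈ perp hQ (Submodule.span F {w}), Q p ≠ 0 := by
        by_contra h
        push Not at h
        have h1 := D.witt _ h
        have h2 := finrank_perp_add hQ (Submodule.span F {w})
        rw [finrank_span_singleton hw0, D.dim] at h2
        omega
      have hp' : r⁻¹ • p ∈ fixW hQ (r • w) y := by
        rw [mem_fixW_smul_left hQ hQw hr0, smul_inv_smul₀ hr0]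
        exact hperp p ((mem_perp_span_singleton hQ).1 hp)
      rw [hfix] at hp'
      have := hbr.2 _ hp'
      rw [q_smul hQ] at this
      exact hQp ((mul_eq_zero.1 this).resolve_left (pow_ne_zero _ (inv_ne_zero hr0)))
    · intro w' hw'
      obtain ⟨hR', hspan⟩ := Finset.mem_filter.1 hw'
      have hm : w' ∈ Submodule.span F ({w} : Set (ι → F)) := hspan ▸ Submodule.mem_span_singleton_self w'
      obtain ⟨r, hr⟩ := Submodule.mem_span_singleton.1 hm
      refine ⟨r, Finset.mem_erase.2 ⟨fun h0 => (Finset.mem_filter.1 hR').2.2.1 ?_, Finset.mem_univ _⟩, hr⟩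
      rw [← hr, h0, zero_smul]
  obtain ⟨p, hp⟩ := hdvd
  have htot : Nat.card X * φ = (q - 1) * v * c := by
    have h := Finset.sum_card_bipartiteAbove_eq_sum_card_bipartiteBelow (s := (Finset.univ : Finset X))
      (t := (Finset.univ.filter fun w : ι → F => Q w = 0 ∧ w ≠ 0)) R
    have e1 : ∀ z ∈ (Finset.univ : Finset X),
        (Finset.bipartiteAbove R (Finset.univ.filter fun w : ι → F => Q w = 0 ∧ w ≠ 0) z).card = φ := fun z _ => by
      rw [← hφy z, Finset.bipartiteAbove, Finset.filter_filter]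
      congr 1
      ext w
      simp only [Finset.mem_filter, Finset.mem_univ, true_and]
      exact ⟨fun h => h.2, fun h => ⟨⟨h.1, h.2.1⟩, h⟩⟩
    have e2 : ∀ w ∈ (Finset.univ.filter fun w : ι → F => Q w = 0 ∧ w ≠ 0),
        (Finset.bipartiteBelow R (Finset.univ : Finset X) w).card = c := fun w hw => by
      rw [← hcu w (Finset.mem_filter.1 hw).2.1 (Finset.mem_filter.1 hw).2.2, Finset.bipartiteBelow]
    rw [Finset.sum_congr rfl e1, Finset.sum_congr rfl e2, Finset.sum_const, Finset.sum_const, smul_eq_mul,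
      smul_eq_mul, Finset.card_univ, ← Nat.card_eq_fintype_card, ← Fintype.card_subtype,
      ← Nat.card_eq_fintype_card, D.zeros] at h
    exact h
  have heq : Nat.card X * p = v * c := by
    refine Nat.eq_of_mul_eq_mul_left (show 0 < q - 1 by omega) ?_
    calc (q - 1) * (Nat.card X * p) = Nat.card X * ((q - 1) * p) := by ring
      _ = _ := by rw [← hp, htot, mul_assoc]
  have hsmall := D.small
  have hv := D.points
  set L₀ := q ^ 3 + q ^ 2 + q + 1 with hL₀
  have hL : L₀ ≤ 2 * q ^ 3 := by rw [hL₀]; nlinarith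
  obtain ⟨d, hd⟩ : ∃ d, v = Nat.card X + d := ⟨v - Nat.card X, by omega⟩
  have hv' : v = L₀ * q ^ 3 + L₀ := by rw [hv, mul_add, mul_one]
  have hcd : c + d ≤ L₀ := by omega
  have hd0 : 0 < d := by omega
  have h4 : 4 * (c * d) ≤ L₀ * L₀ := by nlinarith [sq_nonneg ((c : ℤ) - d), Nat.mul_le_mul hcd hcd]
  have hlt : c * d < Nat.card X := by
    have h5 : L₀ * L₀ ≤ 2 * (L₀ * q ^ 3) := (Nat.mul_le_mul_left _ hL).trans (le_of_eq (by ring))
    have h6 : 0 < L₀ * q ^ 3 := Nat.mul_pos (by omega) (Nat.pow_pos (by omega))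
    omega
  rw [hd, add_mul, mul_comm d c] at heq
  rcases le_or_gt p c with h | h
  · have h6 := Nat.mul_le_mul_left (Nat.card X) h
    have : 0 < c * d := Nat.mul_pos hc0 hd0
    omega
  · have h6 := Nat.mul_le_mul_left (Nat.card X) h
    rw [Nat.mul_succ] at h6
    omega

/-- An annihilator determines the root orbit of the points that have it. -/
theorem same_orbit {u : ι → F} (hu : Q u = 0) (hu0 : u ≠ 0) {x y : X} (hx : IsBig hQ u x)
    (h : annW hQ u y = annW hQ u x) :
    y ∈ rootOrbit hQ (show 5 ≤ Fintype.card ι by rw [D.dim]; norm_num) hu x := by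
  classical
  have := Fintype.ofFinite X
  have hn5 : 5 ≤ Fintype.card ι := by rw [D.dim]; norm_num
  by_contra hy
  have hq := D.q_four
  have hy' : IsBig hQ u y := by rw [IsBig, h]; exact hx
  have horb : ∀ z : X, IsBig hQ u z → Nat.card (rootOrbit hQ hn5 hu z) = q ^ 3 := fun z hz => by
    have h1 := card_rootOrbit hQ hn5 hu hu0 z
    rw [hz.1, D.size] at h1
    exact Nat.eq_of_mul_eq_mul_left (show 0 < q by omega) (by rw [h1]; ring)
  have hann : ∀ z w : X, w ∈ rootOrbit hQ hn5 hu z → annW hQ u w = annW hQ u z := fun z w hw => by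
    rw [annW, annW, fixW_rootOrbit hQ hn5 hu hw]
  -- two root orbits in the fibre
  have hdis : Disjoint (rootOrbit hQ hn5 hu x).toFinset (rootOrbit hQ hn5 hu y).toFinset := by
    refine Finset.disjoint_left.2 fun z hz hz' => hy ?_
    obtain ⟨a, rfl⟩ := Set.mem_toFinset.1 hz
    obtain ⟨b, hb⟩ := Set.mem_toFinset.1 hz'
    exact ⟨b⁻¹ * a, by
      show rootHom hQ hn5 hu (b⁻¹ * a) • x = y
      rw [map_mul, mul_smul, show rootHom hQ hn5 hu a • x = rootHom hQ hn5 hu b • y from hb.symm, map_inv,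
        inv_smul_smul]⟩
  have htwo : 2 * q ^ 3 ≤ (Finset.univ.filter fun z : X => annW hQ u z = annW hQ u x).card := by
    refine le_trans (le_of_eq ?_) (Finset.card_le_card (s := (rootOrbit hQ hn5 hu x).toFinset ∪
      (rootOrbit hQ hn5 hu y).toFinset) fun z hz => Finset.mem_filter.2 ⟨Finset.mem_univ _, ?_⟩)
    · rw [Finset.card_union_of_disjoint hdis, Set.toFinset_card, Set.toFinset_card,
        ← Nat.card_eq_fintype_card, ← Nat.card_eq_fintype_card, horb x hx, horb y hy', two_mul]
    · rcases Finset.mem_union.1 hz with hz | hz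
      · exact hann x z (Set.mem_toFinset.1 hz)
      · exact (hann y z (Set.mem_toFinset.1 hz)).trans h
  -- hence in every fibre of the family
  have hall : ∀ B ∈ family hQ u x, 2 * q ^ 3 ≤ (Finset.univ.filter fun z : X => annW hQ u z = B).card := by
    intro B hB
    obtain ⟨g, ⟨c, hc, hg⟩, rfl⟩ := (mem_family hQ).1 hB
    refine htwo.trans (Finset.card_le_card_of_injOn (fun z => g • z) (fun z hz => ?_)
      fun z _ z' _ h => smul_left_cancel _ h)
    refine Finset.mem_filter.2 ⟨Finset.mem_univ _, ?_⟩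
    rw [annW_smul hQ hu hc g hg, annW_smul hQ hu hc g hg, (Finset.mem_filter.1 hz).2]
  have h1 := Finset.card_le_univ ((family hQ u x).biUnion fun B => Finset.univ.filter fun z : X => annW hQ u z = B)
  rw [Finset.card_biUnion (fun B _ B' _ hne => Finset.disjoint_left.2 fun z hz hz' =>
    hne ((Finset.mem_filter.1 hz).2.symm.trans (Finset.mem_filter.1 hz').2)), ← Nat.card_eq_fintype_card] at h1
  have h2 := (Finset.card_nsmul_le_sum _ _ _ hall).trans h1
  rw [smul_eq_mul] at h2
  have h3 := Nat.mul_le_mul_right (2 * q ^ 3) (family_large D hu hu0 hx)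
  have hs := D.small
  have hv := D.points
  have h4 : (q ^ 3 + q ^ 2 + q + 1) * (q ^ 3 + 1) ≤ (q ^ 3 + q ^ 2 + q + 1) * (2 * q ^ 3) :=
    Nat.mul_le_mul_left _ (by have : 1 ≤ q ^ 3 := Nat.one_le_pow _ _ (by omega); omega)
  omega

end CfsgLib.MinIndexOrth
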