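import Cfsg.Agent.MinIndexOrth.EightCount

/-! Plus type in eight dimensions: no small set has all its annihilators totally singular of dimension four. -/

set_option autoImplicit false
set_option linter.unusedSectionVars false

namespace CfsgLib.MinIndexOrth

open Cfsg.Geo CfsgLib.OrthGeo Module
open scoped Matrix MatrixGroups

variable {ι : Type} [Fintype ι] [DecidableEq ι] {F : Type*} [Field F] [Finite F]
variable {Q : (ι → F) → F}
variable (hQ : IsNondegenerateQuadraticForm Q)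
variable {X : Type*} [MulAction (omegaGL Q) X] [Finite X]
include hQ

omit hQ in
/-- A chain of four independent vectors fills a subspace of dimension at most four. -/
lemma le_span_of_chain {W : Submodule F (ι → F)} (hW : finrank F W ≤ 4) {w₁ w₂ w₃ w₄ : ι → F}
    (h₁ : w₁ ∈ W) (h₂ : w₂ ∈ W) (h₃ : w₃ ∈ W) (h₄ : w₄ ∈ W) (n₁ : w₁ ≠ 0)
    (n₂ : w₂ ∉ Submodule.span F {w₁}) (n₃ : w₃ ∉ Submodule.span F {w₁} ⊔ Submodule.span F {w₂})
    (n₄ : w₄ ∉ Submodule.span F {w₁} ⊔ Submodule.span F {w₂} ⊔ Submodule.span F {w₃}) :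
    W ≤ Submodule.span F {w₁} ⊔ Submodule.span F {w₂} ⊔ Submodule.span F {w₃} ⊔ Submodule.span F {w₄} := by
  have grow : ∀ (S : Submodule F (ι → F)) (w : ι → F), w ∉ S → finrank F S + 1 ≤ finrank F ↥(S ⊔ Submodule.span F {w}) :=
    fun S w hw => Submodule.finrank_lt_finrank_of_lt (lt_of_le_not_ge le_sup_left fun h =>
      hw (h (Submodule.mem_sup_right (Submodule.mem_span_singleton_self w))))
  have e1 := finrank_span_singleton (K := F) n₁
  have e2 := grow _ _ n₂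
  have e3 := grow _ _ n₃
  have e4 := grow _ _ n₄
  have hle : Submodule.span F {w₁} ⊔ Submodule.span F {w₂} ⊔ Submodule.span F {w₃} ⊔ Submodule.span F {w₄} ≤ W :=
    sup_le (sup_le (sup_le ((Submodule.span_singleton_le_iff_mem _ _).2 h₁)
      ((Submodule.span_singleton_le_iff_mem _ _).2 h₂)) ((Submodule.span_singleton_le_iff_mem _ _).2 h₃))
      ((Submodule.span_singleton_le_iff_mem _ _).2 h₄)
  exact (Submodule.eq_of_le_of_finrank_le hle (by omega)).ge

/-- A torus element on one hyperbolic pair. -/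
lemma exists_torus (hn : 5 ≤ Fintype.card ι) {p p' : ι → F} (hp : Q p = 0) (hp' : Q p' = 0)
    (hpp : bform hQ p p' = 1) {r : F} (hr : r ≠ 0) :
    ∃ h ∈ omegaGL Q, (h : Matrix ι ι F) *ᵥ p = (r⁻¹) ^ 2 • p ∧ (h : Matrix ι ι F) *ᵥ p' = r ^ 2 • p' ∧
      ∀ z, bform hQ p z = 0 → bform hQ p' z = 0 → (h : Matrix ι ι F) *ᵥ z = z := by
  have hp'p : bform hQ p' p = 1 := by rw [b_symm hQ]; exact hpp
  have hee := b_self_eq_zero hQ hp
  have he'e' := b_self_eq_zero hQ hp'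
  set a := p + p' with ha
  set b := r • p + r⁻¹ • p' with hb
  have hQa : Q a = 1 := by rw [ha, q_add hQ, hp, hp', hpp, zero_add, zero_add]
  have hQb : Q b = 1 := by
    rw [hb, q_add hQ, q_smul hQ, q_smul hQ, hp, hp', map_smul, map_smul, LinearMap.smul_apply, hpp,
      smul_eq_mul, smul_eq_mul, mul_zero, mul_zero, zero_add, zero_add, mul_one]
    field_simp
  have ha0 : Q a ≠ 0 := hQa ▸ one_ne_zero
  have hb0 : Q b ≠ 0 := hQb ▸ one_ne_zero
  refine ⟨reflection hQ ha0 * reflection hQ hb0, refl_pair_mem_omega hQ hn ha0 hb0 (hQa.trans hQb.symm),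
    ?_, ?_, fun z h1 h2 => ?_⟩
  · rw [Units.val_mul, ← Matrix.mulVec_mulVec, reflection_mulVec hQ hb0, reflection_mulVec hQ ha0, hQa, hQb]
    simp only [ha, hb, inv_one, one_mul, map_sub, map_add, map_smul, LinearMap.add_apply, LinearMap.smul_apply,
      hee, he'e', hpp, hp'p, smul_eq_mul]
    match_scalars <;> field_simp <;> ring
  · rw [Units.val_mul, ← Matrix.mulVec_mulVec, reflection_mulVec hQ hb0, reflection_mulVec hQ ha0, hQa, hQb]
    simp only [ha, hb, inv_one, one_mul, map_sub, map_add, map_smul, LinearMap.add_apply, LinearMap.smul_apply,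
      hee, he'e', hpp, hp'p, smul_eq_mul]
    match_scalars <;> field_simp <;> ring
  · rw [Units.val_mul, ← Matrix.mulVec_mulVec,
      reflection_fix hQ hb0 (by simp [hb, map_add, map_smul, h1, h2, -bform_apply]),
      reflection_fix hQ ha0 (by simp [ha, map_add, h1, h2, -bform_apply])]

variable {hQ} {q v : ℕ}

/-- The annihilators form a symmetric relation between singular vectors. -/
structure AllBig (x : X) : Prop where
  ts : ∀ u, Q u = 0 → u ≠ 0 → IsTotallySingularQuad Q (spanA hQ u x)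
  closed : ∀ u, Q u = 0 → u ≠ 0 → annW hQ u x = (spanA hQ u x).toAddSubgroup
  rank : ∀ u, Q u = 0 → u ≠ 0 → finrank F (spanA hQ u x) = 4
  fix_eq : ∀ u, Q u = 0 → u ≠ 0 → fixW hQ u x = annW hQ u x
  dim : Fintype.card ι = 8

section relations

variable {x : X} (A : AllBig (hQ := hQ) x)
include A

lemma AllBig.mem_iff {u w : ι → F} (hu : Q u = 0) (hu0 : u ≠ 0) : w ∈ spanA hQ u x ↔ w ∈ fixW hQ u x := by
  rw [A.fix_eq u hu hu0, A.closed u hu hu0]; rfl

lemma AllBig.sing {u w : ι → F} (hu : Q u = 0) (hu0 : u ≠ 0) (h : w ∈ spanA hQ u x) : Q w = 0 :=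
  A.ts u hu hu0 w h

lemma AllBig.bperp {u w z : ι → F} (hu : Q u = 0) (hu0 : u ≠ 0) (hw : w ∈ spanA hQ u x) (hz : z ∈ spanA hQ u x) :
    bform hQ w z = 0 := by
  have h := A.sing hu hu0 (Submodule.add_mem _ hw hz)
  rwa [q_add hQ, A.sing hu hu0 hw, A.sing hu hu0 hz, zero_add, zero_add] at h

lemma AllBig.symm {u w : ι → F} (hu : Q u = 0) (hu0 : u ≠ 0) (hw0 : w ≠ 0) (h : w ∈ spanA hQ u x) :
    u ∈ spanA hQ w x := by
  have hw := A.sing hu hu0 h
  exact (A.mem_iff hw hw0).2 (fixW_symm hQ hu hw ((A.mem_iff hu hu0).1 h))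

lemma AllBig.scale {u : ι → F} (hu : Q u = 0) (hu0 : u ≠ 0) {r : F} (hr : r ≠ 0) :
    spanA hQ (r • u) x = spanA hQ u x := by
  ext w
  rw [A.mem_iff (by rw [q_smul hQ, hu, mul_zero]) (smul_ne_zero hr hu0), mem_fixW_smul_left hQ hu hr,
    ← A.mem_iff hu hu0, Submodule.smul_mem_iff _ hr]

/-- Vectors seen from the two ends of a hyperbolic pair see each other when orthogonal. -/
lemma AllBig.mix {u v a d : ι → F} (hu : Q u = 0) (hu0 : u ≠ 0) (hv : Q v = 0) (hv0 : v ≠ 0)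
    (hvu : bform hQ v u = 1) (ha0 : a ≠ 0) (hau : a ∈ spanA hQ u x) (hva : bform hQ v a = 0)
    (hdv : d ∈ spanA hQ v x) (hud : bform hQ u d = 0) (had : bform hQ a d = 0) : d ∈ spanA hQ a x := by
  have hQd := A.sing hv hv0 hdv
  have hQa := A.sing hu hu0 hau
  obtain ⟨hvd, g, hg, hgE⟩ := (mem_fixW hQ hv).1 ((A.mem_iff hv hv0).1 hdv)
  have hga : (g : Matrix ι ι F) *ᵥ a = a := by
    rw [hgE, eichlerMat_mulVec hQ, b_symm hQ d a, had, hva]; simp
  have hgu : (g : Matrix ι ι F) *ᵥ u = u - d := by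
    rw [hgE, eichlerMat_mulVec hQ, b_symm hQ d u, hud, hvu, hQd]; simp
  have h1 : a ∈ fixW hQ (u - d) x := by
    have := (mem_fixW_stab hQ hg).2 ((A.mem_iff hu hu0).1 hau)
    rwa [hga, hgu] at this
  have hQud : Q (u - d) = 0 := by rw [q_sub hQ, hu, hQd, hud]; ring
  have h2 := (A.mem_iff hQa ha0).2 (fixW_symm hQ hQud hQa h1)
  have h3 := Submodule.sub_mem _ (A.symm hu hu0 ha0 hau) h2
  rwa [sub_sub_cancel] at h3

lemma AllBig.disjoint {u v w : ι → F} (hu : Q u = 0) (hu0 : u ≠ 0) (hv : Q v = 0) (hv0 : v ≠ 0)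
    (huv : bform hQ u v = 1) (h1 : w ∈ spanA hQ u x) (h2 : w ∈ spanA hQ v x) : w = 0 := by
  by_contra hw
  have h := A.bperp (A.sing hu hu0 h1) hw (A.symm hu hu0 hw h1) (A.symm hv hv0 hw h2)
  rw [huv] at h
  exact one_ne_zero h

/-- Dual vectors at the other end of a hyperbolic pair. -/
lemma AllBig.duals {u v a b c : ι → F} (hu : Q u = 0) (hu0 : u ≠ 0) (hv : Q v = 0) (hv0 : v ≠ 0)
    (huv : bform hQ u v = 1) (ha : a ∈ spanA hQ u x) (hb : b ∈ spanA hQ u x) (hc : c ∈ spanA hQ u x)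
    (hva : bform hQ v a = 0) (hvb : bform hQ v b = 0) (hvc : bform hQ v c = 0) (ha0 : a ≠ 0)
    (hba : b ∉ Submodule.span F {a}) (hcab : c ∉ Submodule.span F {a} ⊔ Submodule.span F {b}) :
    (∀ d, d ∈ spanA hQ v x → bform hQ u d = 0 → bform hQ a d = 0 → bform hQ b d = 0 → bform hQ c d = 0 → d = 0) ∧
      ∀ α β γ : F, ∃ d, d ∈ spanA hQ v x ∧ bform hQ u d = 0 ∧ bform hQ a d = α ∧ bform hQ b d = β ∧
        bform hQ c d = γ := by
  have hnu : u ∉ Submodule.span F {a} ⊔ Submodule.span F {b} ⊔ Submodule.span F {c} := fun h => by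
    obtain ⟨_, h₁, _, h₂, e⟩ := Submodule.mem_sup.1 h
    obtain ⟨_, h₃, _, h₄, rfl⟩ := Submodule.mem_sup.1 h₁
    obtain ⟨r₁, rfl⟩ := Submodule.mem_span_singleton.1 h₃
    obtain ⟨r₂, rfl⟩ := Submodule.mem_span_singleton.1 h₄
    obtain ⟨r₃, rfl⟩ := Submodule.mem_span_singleton.1 h₂
    have := congrArg (bform hQ v) e
    rw [map_add, map_add, map_smul, map_smul, map_smul, hva, hvb, hvc, b_symm hQ v u, huv] at this
    simp [-bform_apply] at this
  have hspan := le_span_of_chain (A.rank u hu hu0).le ha hb hc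
    (self_mem_spanA hQ u x) ha0 hba hcab hnu
  have huniq : ∀ d, d ∈ spanA hQ v x → bform hQ u d = 0 → bform hQ a d = 0 → bform hQ b d = 0 →
      bform hQ c d = 0 → d = 0 := by
    intro d hd hud had hbd hcd
    refine A.disjoint hu hu0 hv hv0 huv ?_ hd
    have hp : perp hQ (spanA hQ u x) = spanA hQ u x := by
      refine (Submodule.eq_of_le_of_finrank_le (le_perp_self hQ (A.ts u hu hu0)) ?_).symm
      have := finrank_perp_add hQ (spanA hQ u x)
      have := A.rank u hu hu0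
      have := A.dim
      omega
    rw [← hp]
    refine perp_anti hQ hspan ?_
    rw [perp_sup hQ, perp_sup hQ, perp_sup hQ]
    simp only [Submodule.mem_inf, mem_perp_span_singleton hQ]
    exact ⟨⟨⟨had, hbd⟩, hcd⟩, hud⟩
  refine ⟨huniq, fun α β γ => ?_⟩
  set W := spanA hQ v x ⊓ OrthGeo.perp hQ (Submodule.span F {u}) with hW
  let ψ : W →ₗ[F] F × F × F :=
    (((bform hQ) a).comp W.subtype).prod ((((bform hQ) b).comp W.subtype).prod (((bform hQ) c).comp W.subtype))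
  have hinj : Function.Injective ψ := by
    rw [injective_iff_map_eq_zero]
    intro d hd
    simp only [ψ, LinearMap.prod_apply, Function.prod, LinearMap.comp_apply, Submodule.subtype_apply, Prod.mk_eq_zero] at hd
    exact Subtype.ext (huniq d.1 d.2.1 ((mem_perp_span_singleton hQ).1 d.2.2) hd.1 hd.2.1 hd.2.2)
  have hd3 : finrank F W = finrank F (F × F × F) := by
    have h1 := finrank_le_inf_perp hQ (spanA hQ v x) (Submodule.span F {u})
    rw [A.rank v hv hv0, finrank_span_singleton hu0, ← hW] at h1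
    have h2 := LinearMap.finrank_le_finrank_of_injective hinj
    simp only [finrank_prod, finrank_self] at h2 ⊢
    omega
  obtain ⟨d, hd⟩ := (LinearMap.injective_iff_surjective_of_finrank_eq_finrank hd3).1 hinj (α, β, γ)
  simp only [ψ, LinearMap.prod_apply, Function.prod, LinearMap.comp_apply, Submodule.subtype_apply, Prod.mk.injEq] at hd
  exact ⟨d.1, d.2.1, (mem_perp_span_singleton hQ).1 d.2.2, hd.1, hd.2.1, hd.2.2⟩

end relations

/-- In eight dimensions of plus type not every annihilator of a small set is totally singular of dimension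
four. -/
theorem no_big_eight [MulAction.IsPretransitive (omegaGL Q) X] (D : EightData hQ X q v) {u : ι → F}
    (hu : Q u = 0) (hu0 : u ≠ 0) {x : X} (hb : IsBig hQ u x) : False := by
  classical
  have := Fintype.ofFinite F
  have hn5 : 5 ≤ Fintype.card ι := by rw [D.dim]; norm_num
  have hbig : ∀ (z : X) (w : ι → F), Q w = 0 → w ≠ 0 → IsBig hQ w z := fun z w hw hw0 =>
    all_big D hu hu0 hb hw hw0 z
  have hAll : ∀ z : X, AllBig (hQ := hQ) z := fun z =>
    { ts := fun w hw hw0 => ((hbig z w hw hw0).facts D).1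
      closed := fun w hw hw0 => ((hbig z w hw hw0).facts D).2.1
      rank := fun w hw hw0 => ((hbig z w hw hw0).facts D).2.2.1
      fix_eq := fun w hw hw0 => ((hbig z w hw hw0).facts D).2.2.2
      dim := D.dim }
  have huu := b_self_eq_zero hQ hu
  obtain ⟨v, hv, huv⟩ := exists_partner hQ hu hu0
  have hv0 : v ≠ 0 := by rintro rfl; rw [map_zero] at huv; exact zero_ne_one huv
  have hvv := b_self_eq_zero hQ hv
  have hvu : bform hQ v u = 1 := by rw [b_symm hQ]; exact huv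
  obtain ⟨r, hr, hr2⟩ : ∃ r : F, r ≠ 0 ∧ r ^ 2 ≠ 1 := by
    by_contra h
    push Not at h
    have hsub : (Finset.univ : Finset F) ⊆ {0, 1, -1} := fun r _ => by
      by_cases hr : r = 0
      · simp [hr]
      · rcases sq_eq_one_iff.1 (h r hr) with e | e <;> simp [e]
    have h1 := (Finset.card_le_card hsub).trans Finset.card_le_three
    rw [Finset.card_univ, ← Nat.card_eq_fintype_card, D.size] at h1
    have := D.q_four
    omega
  -- a basis of the part perpendicular to `v`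
  set π := spanA hQ u x ⊓ perp hQ (Submodule.span F {v}) with hπ
  have hπ3 : 3 ≤ finrank F π := by
    have h1 := finrank_le_inf_perp hQ (spanA hQ u x) (Submodule.span F {v})
    rw [(hAll x).rank u hu hu0, finrank_span_singleton hv0, ← hπ] at h1
    omega
  have pick : ∀ S : Submodule F (ι → F), finrank F S ≤ 2 → ∃ w ∈ π, w ∉ S := fun S hS => by
    by_contra h
    push Not at h
    have := Submodule.finrank_mono (show π ≤ S from h)
    omega
  obtain ⟨a, haπ, ha0'⟩ := pick ⊥ (by rw [finrank_bot]; norm_num)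
  obtain ⟨b, hbπ, hba⟩ := pick (Submodule.span F {a}) ((finrank_span_le_one hQ a).trans (by norm_num))
  obtain ⟨c, hcπ, hcab⟩ := pick _ (finrank_span_pair_le hQ a b)
  have ha0 : a ≠ 0 := fun h => ha0' ((Submodule.mem_bot F).2 h)
  have hva := (mem_perp_span_singleton hQ).1 haπ.2
  have hvb := (mem_perp_span_singleton hQ).1 hbπ.2
  have hvc := (mem_perp_span_singleton hQ).1 hcπ.2
  have hua : bform hQ u a = 0 := (hAll x).bperp hu hu0 (self_mem_spanA hQ u x) haπ.1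
  have hub : bform hQ u b = 0 := (hAll x).bperp hu hu0 (self_mem_spanA hQ u x) hbπ.1
  have huc : bform hQ u c = 0 := (hAll x).bperp hu hu0 (self_mem_spanA hQ u x) hcπ.1
  have hab : bform hQ a b = 0 := (hAll x).bperp hu hu0 haπ.1 hbπ.1
  have hac : bform hQ a c = 0 := (hAll x).bperp hu hu0 haπ.1 hcπ.1
  have hbc : bform hQ b c = 0 := (hAll x).bperp hu hu0 hbπ.1 hcπ.1
  have hQa : Q a = 0 := (hAll x).sing hu hu0 haπ.1
  have hQb : Q b = 0 := (hAll x).sing hu hu0 hbπ.1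
  have hQc : Q c = 0 := (hAll x).sing hu hu0 hcπ.1
  obtain ⟨huniq, hex⟩ := (hAll x).duals hu hu0 hv hv0 huv haπ.1 hbπ.1 hcπ.1 hva hvb hvc ha0 hba hcab
  obtain ⟨a₁, ha₁, hua₁, haa₁, hba₁, hca₁⟩ := hex 1 0 0
  obtain ⟨b₁, hb₁, hub₁, hab₁, hbb₁, hcb₁⟩ := hex 0 1 0
  obtain ⟨c₁, hc₁, huc₁, hac₁, hbc₁, hcc₁⟩ := hex 0 0 1
  have hab₁' : bform hQ a₁ b₁ = 0 := (hAll x).bperp hv hv0 ha₁ hb₁
  have hac₁' : bform hQ a₁ c₁ = 0 := (hAll x).bperp hv hv0 ha₁ hc₁
  have hbc₁' : bform hQ b₁ c₁ = 0 := (hAll x).bperp hv hv0 hb₁ hc₁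
  have hQa₁ := (hAll x).sing hv hv0 ha₁
  have hQb₁ := (hAll x).sing hv hv0 hb₁
  have hQc₁ := (hAll x).sing hv hv0 hc₁
  have hva₁ : bform hQ v a₁ = 0 := (hAll x).bperp hv hv0 (self_mem_spanA hQ v x) ha₁
  have hvb₁ : bform hQ v b₁ = 0 := (hAll x).bperp hv hv0 (self_mem_spanA hQ v x) hb₁
  have hvc₁ : bform hQ v c₁ = 0 := (hAll x).bperp hv hv0 (self_mem_spanA hQ v x) hc₁
  -- the torus element
  obtain ⟨h₁, hh₁, h₁a, h₁a', h₁f⟩ := exists_torus hQ hn5 hQa hQa₁ haa₁ (inv_ne_zero hr)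
  obtain ⟨h₂, hh₂, h₂b, h₂b', h₂f⟩ := exists_torus hQ hn5 hQb hQb₁ hbb₁ hr
  obtain ⟨h₃, hh₃, h₃c, h₃c', h₃f⟩ := exists_torus hQ hn5 hQc hQc₁ hcc₁ (inv_ne_zero hr)
  rw [inv_inv] at h₁a h₃c
  set ν := r ^ 2 with hν
  have hν0 : ν ≠ 0 := pow_ne_zero _ hr
  have hνi : (r⁻¹) ^ 2 = ν⁻¹ := inv_pow r 2
  rw [hνi] at h₁a' h₂b h₃c'
  set g : omegaGL Q := ⟨h₁ * (h₂ * h₃), mul_mem hh₁ (mul_mem hh₂ hh₃)⟩ with hg
  have hact : ∀ z, ((g : GL ι F) : Matrix ι ι F) *ᵥ z =
      (h₁ : Matrix ι ι F) *ᵥ ((h₂ : Matrix ι ι F) *ᵥ ((h₃ : Matrix ι ι F) *ᵥ z)) := fun z => by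
    simp only [hg, Units.val_mul, ← Matrix.mulVec_mulVec]
  have hs : ∀ p q : ι → F, bform hQ p q = 0 → bform hQ q p = 0 := fun p q h => by rw [b_symm hQ]; exact h
  have gu : ((g : GL ι F) : Matrix ι ι F) *ᵥ u = u := by
    rw [hact, h₃f u (hs _ _ huc) (hs _ _ huc₁), h₂f u (hs _ _ hub) (hs _ _ hub₁), h₁f u (hs _ _ hua) (hs _ _ hua₁)]
  have gv : ((g : GL ι F) : Matrix ι ι F) *ᵥ v = v := by
    rw [hact, h₃f v (hs _ _ hvc) (hs _ _ hvc₁), h₂f v (hs _ _ hvb) (hs _ _ hvb₁), h₁f v (hs _ _ hva) (hs _ _ hva₁)]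
  have ga : ((g : GL ι F) : Matrix ι ι F) *ᵥ a = ν • a := by
    rw [hact, h₃f a (hs _ _ hac) (hs _ _ hac₁), h₂f a (hs _ _ hab) (hs _ _ hab₁), h₁a]
  have gb : ((g : GL ι F) : Matrix ι ι F) *ᵥ b = ν⁻¹ • b := by
    rw [hact, h₃f b (hs _ _ hbc) (hs _ _ hbc₁), h₂b, Matrix.mulVec_smul, h₁f b hab (hs _ _ hba₁)]
  have gc : ((g : GL ι F) : Matrix ι ι F) *ᵥ c = ν • c := by
    rw [hact, h₃c, Matrix.mulVec_smul, h₂f c hbc (hs _ _ hcb₁), Matrix.mulVec_smul, h₁f c hac (hs _ _ hca₁)]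
  have ga₁ : ((g : GL ι F) : Matrix ι ι F) *ᵥ a₁ = ν⁻¹ • a₁ := by
    rw [hact, h₃f a₁ hca₁ (hs _ _ hac₁'), h₂f a₁ hba₁ (hs _ _ hab₁'), h₁a']
  have gb₁ : ((g : GL ι F) : Matrix ι ι F) *ᵥ b₁ = ν • b₁ := by
    rw [hact, h₃f b₁ hcb₁ (hs _ _ hbc₁'), h₂b', Matrix.mulVec_smul, h₁f b₁ hab₁ hab₁']
  have gc₁ : ((g : GL ι F) : Matrix ι ι F) *ᵥ c₁ = ν⁻¹ • c₁ := by
    rw [hact, h₃c', Matrix.mulVec_smul, h₂f c₁ hbc₁ hbc₁', Matrix.mulVec_smul, h₁f c₁ hac₁ hac₁']
  have hgI := omegaGL_le g.2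
  -- `g` preserves the annihilator, hence fixes a translate
  have hgS : ∀ z ∈ spanA hQ u x, ((g : GL ι F) : Matrix ι ι F) *ᵥ z ∈ spanA hQ u x := by
    have hnu : u ∉ Submodule.span F {a} ⊔ Submodule.span F {b} ⊔ Submodule.span F {c} := fun h => by
      obtain ⟨_, h₁, _, h₂, e⟩ := Submodule.mem_sup.1 h
      obtain ⟨_, h₃, _, h₄, rfl⟩ := Submodule.mem_sup.1 h₁
      obtain ⟨r₁, rfl⟩ := Submodule.mem_span_singleton.1 h₃
      obtain ⟨r₂, rfl⟩ := Submodule.mem_span_singleton.1 h₄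
      obtain ⟨r₃, rfl⟩ := Submodule.mem_span_singleton.1 h₂
      have := congrArg (bform hQ v) e
      rw [map_add, map_add, map_smul, map_smul, map_smul, hva, hvb, hvc, hvu] at this
      simp [-bform_apply] at this
    intro z hz
    obtain ⟨_, h₁, _, h₂, rfl⟩ := Submodule.mem_sup.1 (le_span_of_chain ((hAll x).rank u hu hu0).le
      haπ.1 hbπ.1 hcπ.1 (self_mem_spanA hQ u x) ha0 hba hcab hnu hz)
    obtain ⟨_, h₃, _, h₄, rfl⟩ := Submodule.mem_sup.1 h₁
    obtain ⟨_, h₅, _, h₆, rfl⟩ := Submodule.mem_sup.1 h₃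
    obtain ⟨r₁, rfl⟩ := Submodule.mem_span_singleton.1 h₅
    obtain ⟨r₂, rfl⟩ := Submodule.mem_span_singleton.1 h₆
    obtain ⟨r₃, rfl⟩ := Submodule.mem_span_singleton.1 h₄
    obtain ⟨r₄, rfl⟩ := Submodule.mem_span_singleton.1 h₂
    simp only [Matrix.mulVec_add, Matrix.mulVec_smul, ga, gb, gc, gu]
    exact add_mem (add_mem (add_mem (Submodule.smul_mem _ _ (Submodule.smul_mem _ _ haπ.1))
      (Submodule.smul_mem _ _ (Submodule.smul_mem _ _ hbπ.1))) (Submodule.smul_mem _ _ (Submodule.smul_mem _ _ hcπ.1)))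
      (Submodule.smul_mem _ _ (self_mem_spanA hQ u x))
  have hgA : annW hQ u (g • x) = annW hQ u x := by
    rw [annW_omMap hQ g gu]
    refine AddSubgroup.eq_of_le_of_card_ge ?_ (le_of_eq (card_map_omMap _ g).symm)
    rintro _ ⟨z, hz, rfl⟩
    rw [(hAll x).closed u hu hu0] at hz ⊢
    exact hgS z hz
  obtain ⟨s, hs'⟩ := same_orbit D hu hu0 (hbig x u hu hu0) hgA
  set s₀ : ι → F := (s.toAdd : ι → F) with hs₀
  have hus : bform hQ u s₀ = 0 := (mem_perp_span_singleton hQ).1 s.toAdd.2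
  set t : ι → F := (bform hQ a (-s₀) / (ν⁻¹ - 1)) • a₁ + (bform hQ b (-s₀) / (ν - 1)) • b₁ +
    (bform hQ c (-s₀) / (ν⁻¹ - 1)) • c₁ with ht
  have hν1 : ν - 1 ≠ 0 := sub_ne_zero.2 hr2
  have hνi1 : ν⁻¹ - 1 ≠ 0 := sub_ne_zero.2 fun h => hr2 (inv_eq_one.1 h)
  have hut : bform hQ u t = 0 := by
    simp only [ht, map_add, map_smul, hua₁, hub₁, huc₁, smul_zero, add_zero]
  set m := -s₀ - (((g : GL ι F) : Matrix ι ι F) *ᵥ t - t) with hm
  have hgt : ((g : GL ι F) : Matrix ι ι F) *ᵥ t - t = bform hQ a (-s₀) • a₁ + bform hQ b (-s₀) • b₁ +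
      bform hQ c (-s₀) • c₁ := by
    simp only [ht, Matrix.mulVec_add, Matrix.mulVec_smul, ga₁, gb₁, gc₁]
    match_scalars <;> field_simp <;> ring
  have hmfix : m ∈ fixW hQ u x := by
    have hp : perp hQ (spanA hQ u x) ≤ spanA hQ u x := fun z hz => by
      rw [(hAll x).mem_iff hu hu0]
      exact perp_spanA_le hQ u x hz
    rw [← (hAll x).mem_iff hu hu0]
    refine hp (perp_anti hQ (le_span_of_chain ((hAll x).rank u hu hu0).le haπ.1 hbπ.1 hcπ.1
      (self_mem_spanA hQ u x) ha0 hba hcab fun h => ?_) ?_)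
    · obtain ⟨_, h₁, _, h₂, e⟩ := Submodule.mem_sup.1 h
      obtain ⟨_, h₃, _, h₄, rfl⟩ := Submodule.mem_sup.1 h₁
      obtain ⟨r₁, rfl⟩ := Submodule.mem_span_singleton.1 h₃
      obtain ⟨r₂, rfl⟩ := Submodule.mem_span_singleton.1 h₄
      obtain ⟨r₃, rfl⟩ := Submodule.mem_span_singleton.1 h₂
      have := congrArg (bform hQ v) e
      rw [map_add, map_add, map_smul, map_smul, map_smul, hva, hvb, hvc, hvu] at this
      simp [-bform_apply] at this
    · rw [perp_sup hQ, perp_sup hQ, perp_sup hQ]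
      simp only [Submodule.mem_inf, mem_perp_span_singleton hQ, hm, hgt, map_sub, map_add, map_smul, map_neg,
        haa₁, hab₁, hac₁, hba₁, hbb₁, hbc₁, hca₁, hcb₁, hcc₁, hua₁, hub₁, huc₁, hus, smul_eq_mul]
      exact ⟨⟨⟨by ring, by ring⟩, by ring⟩, by ring⟩
  -- the translate fixed by `g`
  set E := rootHom hQ hn5 hu (Multiplicative.ofAdd ⟨t, (mem_perp_span_singleton hQ).2 hut⟩) with hE
  set y := E • x with hy
  have hgy : g • y = y := by
    have hgt' : ((g : GL ι F) : Matrix ι ι F) *ᵥ t ∈ perp hQ (Submodule.span F {u}) := by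
      rw [mem_perp_span_singleton hQ]
      conv_lhs => arg 1; rw [← gu]
      rw [isometry_b hQ hgI, hut]
    have hconj : g * E = rootHom hQ hn5 hu (Multiplicative.ofAdd ⟨_, hgt'⟩) * g := by
      rw [← mul_inv_eq_iff_eq_mul]
      refine Subtype.ext ?_
      exact conj_eichler hQ hgI hu hut hu ((mem_perp_span_singleton hQ).1 hgt') gu rfl
    have hmP : m ∈ perp hQ (Submodule.span F {u}) := (mem_perp_span_singleton hQ).2 hmfix.1
    have hmx : rootHom hQ hn5 hu (Multiplicative.ofAdd ⟨m, hmP⟩) • x = x :=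
      (rootHom_smul_eq_iff hQ hn5 hu _ x).2 hmfix
    have hgx : g • x = rootHom hQ hn5 hu s • x := hs'.symm
    rw [hy, ← mul_smul, hconj, mul_smul, hgx, ← mul_smul, ← map_mul]
    conv_rhs => rw [hE, ← hmx, ← mul_smul, ← map_mul]
    rw [eq_comm, smul_eq_iff_eq_inv_smul, ← mul_smul, ← map_inv, ← map_mul, eq_comm, rootHom_smul_eq_iff hQ]
    have : (((Multiplicative.ofAdd (⟨t, (mem_perp_span_singleton hQ).2 hut⟩ : perp hQ (Submodule.span F {u})) *
        Multiplicative.ofAdd (⟨m, hmP⟩ : perp hQ (Submodule.span F {u})))⁻¹ * (Multiplicative.ofAdd (⟨_, hgt'⟩ : perp hQ (Submodule.span F {u})) * s)).toAdd : ι → F) =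
        (-(m + m)) := by
      show -(t + m) + (((g : GL ι F) : Matrix ι ι F) *ᵥ t + s₀) = -(m + m)
      rw [hm]; abel
    rw [this]
    exact neg_mem (add_mem hmfix hmfix)
  have hgst : (g : GL ι F) ∈ stabGL (Q := Q) y := mem_stabGL.2 ⟨g.2, hgy⟩
  have Ay := hAll y
  have hπy : spanA hQ u y = spanA hQ u x := by
    have e : annW hQ u y = annW hQ u x := by
      rw [annW, annW, fixW_rootOrbit hQ hn5 hu (x := x) (y := y) ⟨_, rfl⟩]
    rw [spanA, spanA, e]
  -- the frame at the translate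
  obtain ⟨huniq', hex'⟩ := Ay.duals hu hu0 hv hv0 huv (hπy ▸ haπ.1) (hπy ▸ hbπ.1) (hπy ▸ hcπ.1) hva hvb hvc
    ha0 hba hcab
  obtain ⟨α, hα, huα, haα, hbα, hcα⟩ := hex' 1 0 0
  obtain ⟨β, hβ, huβ, haβ, hbβ, hcβ⟩ := hex' 0 1 0
  obtain ⟨γ, hγ, huγ, haγ, hbγ, hcγ⟩ := hex' 0 0 1
  have hau : a ∈ spanA hQ u y := hπy ▸ haπ.1
  have hbu : b ∈ spanA hQ u y := hπy ▸ hbπ.1
  have hcu : c ∈ spanA hQ u y := hπy ▸ hcπ.1
  have hAv : ∀ d ∈ spanA hQ v y, ((g : GL ι F) : Matrix ι ι F) *ᵥ d ∈ spanA hQ v y := fun d hd => by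
    have := spanA_stab hQ hgst hd
    rwa [gv] at this
  have heig : ∀ (d : ι → F) (lam : F), d ∈ spanA hQ v y → bform hQ u d = 0 →
      (∀ (p : ι → F) (r' : F), ((g : GL ι F) : Matrix ι ι F) *ᵥ p = r' • p → r' ≠ 0 → (p = a ∨ p = b ∨ p = c) →
        bform hQ p d = 0 ∨ r'⁻¹ = (lam : F)) →
      ((g : GL ι F) : Matrix ι ι F) *ᵥ d = lam • d := by
    intro d lam hd hud hp
    rw [← sub_eq_zero]
    have hpair : ∀ (p : ι → F) (r' : F), ((g : GL ι F) : Matrix ι ι F) *ᵥ p = r' • p → r' ≠ 0 → (p = a ∨ p = b ∨ p = c) →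
        bform hQ p (((g : GL ι F) : Matrix ι ι F) *ᵥ d - lam • d) = 0 := by
      intro p r' hgp hr' hmem
      have h1 := isometry_b hQ hgI p d
      rw [hgp, map_smul, LinearMap.smul_apply, smul_eq_mul] at h1
      rw [map_sub, map_smul, smul_eq_mul]
      rcases hp p r' hgp hr' hmem with h | h
      · rw [h] at h1 ⊢
        rw [(mul_eq_zero.1 h1).resolve_left hr', mul_zero, sub_zero]
      · rw [← h, ← h1]; field_simp; ring
    refine huniq' _ (Submodule.sub_mem _ (hAv d hd) (Submodule.smul_mem _ _ hd)) ?_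
      (hpair a ν ga hν0 (Or.inl rfl)) (hpair b ν⁻¹ gb (inv_ne_zero hν0) (Or.inr (Or.inl rfl)))
      (hpair c ν gc hν0 (Or.inr (Or.inr rfl)))
    have h1 := isometry_b hQ hgI u d
    rw [gu, hud] at h1
    rw [map_sub, map_smul, h1, hud, smul_zero, sub_zero]
  have hne_ab : a ≠ b := fun h => hba (h ▸ Submodule.mem_span_singleton_self a)
  have hne_ac : a ≠ c := fun h => hcab (h ▸ Submodule.mem_sup_left (Submodule.mem_span_singleton_self a))
  have hne_bc : b ≠ c := fun h => hcab (h ▸ Submodule.mem_sup_right (Submodule.mem_span_singleton_self b))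
  have hb0 : b ≠ 0 := fun h => hba (h ▸ Submodule.zero_mem _)
  have hc0 : c ≠ 0 := fun h => hcab (h ▸ Submodule.zero_mem _)
  have gβ : ((g : GL ι F) : Matrix ι ι F) *ᵥ β = ν • β := heig β ν hβ huβ fun p r' hgp hr' hmem => by
    rcases hmem with rfl | rfl | rfl
    · exact Or.inl haβ
    · refine Or.inr ?_
      rw [gb] at hgp
      rw [← smul_left_injective F hb0 hgp, inv_inv]
    · exact Or.inl hcβ
  have gγ : ((g : GL ι F) : Matrix ι ι F) *ᵥ γ = ν⁻¹ • γ := heig γ ν⁻¹ hγ huγ fun p r' hgp hr' hmem => by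
    rcases hmem with rfl | rfl | rfl
    · exact Or.inl haγ
    · exact Or.inl hbγ
    · refine Or.inr ?_
      rw [gc] at hgp
      rw [← smul_left_injective F hc0 hgp]
  have hQα := Ay.sing hv hv0 hα
  have hQβ := Ay.sing hv hv0 hβ
  have hQγ := Ay.sing hv hv0 hγ
  have hvα : bform hQ v α = 0 := Ay.bperp hv hv0 (self_mem_spanA hQ v y) hα
  have hvβ : bform hQ v β = 0 := Ay.bperp hv hv0 (self_mem_spanA hQ v y) hβ
  have hvγ : bform hQ v γ = 0 := Ay.bperp hv hv0 (self_mem_spanA hQ v y) hγ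
  have hαβ : bform hQ α β = 0 := Ay.bperp hv hv0 hα hβ
  have hαγ : bform hQ α γ = 0 := Ay.bperp hv hv0 hα hγ
  have hβγ : bform hQ β γ = 0 := Ay.bperp hv hv0 hβ hγ
  have hβ0 : β ≠ 0 := fun h => by rw [h, map_zero] at hbβ; exact zero_ne_one hbβ
  have hγ0 : γ ≠ 0 := fun h => by rw [h, map_zero] at hcγ; exact zero_ne_one hcγ
  set z := a + β with hz
  have hQz : Q z = 0 := by rw [hz, q_add hQ, hQa, hQβ, haβ]; ring
  have hz0 : z ≠ 0 := fun h => by
    have := congrArg (bform hQ b) h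
    rw [hz, map_add, hs _ _ (hs _ _ (hs _ _ hab)), hbβ, map_zero, zero_add] at this
    exact one_ne_zero this
  have hβa : β ∈ spanA hQ a y := Ay.mix hu hu0 hv hv0 hvu ha0 hau hva hβ huβ haβ
  have haβ' : a ∈ spanA hQ β y := Ay.symm hQa ha0 hβ0 hβa
  have hza : z ∈ spanA hQ a y := Submodule.add_mem _ (self_mem_spanA hQ a y) hβa
  have hzβ : z ∈ spanA hQ β y := Submodule.add_mem _ haβ' (self_mem_spanA hQ β y)
  have haz : a ∈ spanA hQ z y := Ay.symm hQa ha0 hz0 hza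
  have hβz : β ∈ spanA hQ z y := Ay.symm hQβ hβ0 hz0 hzβ
  have hzu : u ∉ spanA hQ z y := fun h => by
    have h1 := Submodule.sub_mem _ (Ay.symm hQz hz0 hu0 h) hau
    rw [hz, add_sub_cancel_left] at h1
    exact hβ0 (Ay.disjoint hu hu0 hv hv0 huv h1 hβ)
  have hzv : v ∉ spanA hQ z y := fun h => by
    have h1 := Submodule.sub_mem _ (Ay.symm hQz hz0 hv0 h) hβ
    rw [hz, add_sub_cancel_right] at h1
    exact ha0 (Ay.disjoint hu hu0 hv hv0 huv hau h1)
  have hzc : c ∉ spanA hQ z y := fun h => by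
    have h1 := Ay.symm hQz hz0 hc0 h
    have h2 : β ∈ spanA hQ c y := Ay.mix hu hu0 hv hv0 hvu hc0 hcu hvc hβ huβ hcβ
    have h3 := Submodule.sub_mem _ h1 h2
    rw [hz, add_sub_cancel_right] at h3
    have h4 := Ay.bperp hQc hc0 h3 (Ay.mix hu hu0 hv hv0 hvu hc0 hcu hvc hα huα hcα)
    rw [haα] at h4
    exact one_ne_zero h4
  have hzγ : γ ∉ spanA hQ z y := fun h => by
    have h1 := Ay.symm hQz hz0 hγ0 h
    have h2 : a ∈ spanA hQ γ y := Ay.symm hQa ha0 hγ0 (Ay.mix hu hu0 hv hv0 hvu ha0 hau hva hγ huγ haγ)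
    have h3 := Submodule.sub_mem _ h1 h2
    rw [hz, add_sub_cancel_left] at h3
    have h4 := Ay.bperp hQγ hγ0 (Ay.symm hQb hb0 hγ0 (Ay.mix hu hu0 hv hv0 hvu hb0 hbu hvb hγ huγ hbγ)) h3
    rw [hbβ] at h4
    exact one_ne_zero h4
  -- the two vectors `a` and `β` cannot fill the annihilator
  obtain ⟨w, hw, hwS⟩ : ∃ w ∈ spanA hQ z y, w ∉ Submodule.span F {a} ⊔ Submodule.span F {β} := by
    by_contra h
    push Not at h
    have h1 := Submodule.finrank_mono (show spanA hQ z y ≤ Submodule.span F {a} ⊔ Submodule.span F {β} from h)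
    have h2 := finrank_span_pair_le hQ a β
    have h3 := Ay.rank z hQz hz0
    omega
  have haw : bform hQ a w = 0 := Ay.bperp hQz hz0 haz hw
  have hβw : bform hQ β w = 0 := Ay.bperp hQz hz0 hβz hw
  set w₀ := w - bform hQ α w • a - bform hQ b w • β with hw₀
  have hw₀m : w₀ ∈ spanA hQ z y :=
    Submodule.sub_mem _ (Submodule.sub_mem _ hw (Submodule.smul_mem _ _ haz)) (Submodule.smul_mem _ _ hβz)
  have hw₀0 : w₀ ≠ 0 := fun h => hwS (by
    rw [hw₀, sub_sub, sub_eq_zero] at h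
    rw [h]
    exact Submodule.add_mem _ (Submodule.mem_sup_left (Submodule.smul_mem _ _ (Submodule.mem_span_singleton_self _)))
      (Submodule.mem_sup_right (Submodule.smul_mem _ _ (Submodule.mem_span_singleton_self _))))
  -- coordinates
  have hzero : ∀ d, bform hQ u d = 0 → bform hQ v d = 0 → bform hQ a d = 0 → bform hQ b d = 0 →
      bform hQ c d = 0 → bform hQ α d = 0 → bform hQ β d = 0 → bform hQ γ d = 0 → d = 0 := by
    intro d e1 e2 e3 e4 e5 e6 e7 e8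
    refine Ay.disjoint hu hu0 hv hv0 huv ?_ ?_
    · rw [Ay.mem_iff hu hu0]
      refine perp_spanA_le hQ u y (perp_anti hQ (le_span_of_chain (Ay.rank u hu hu0).le hau hbu hcu
        (self_mem_spanA hQ u y) ha0 hba hcab fun h => ?_) ?_)
      · obtain ⟨_, h₁, _, h₂, e⟩ := Submodule.mem_sup.1 h
        obtain ⟨_, h₃, _, h₄, rfl⟩ := Submodule.mem_sup.1 h₁
        obtain ⟨r₁, rfl⟩ := Submodule.mem_span_singleton.1 h₃
        obtain ⟨r₂, rfl⟩ := Submodule.mem_span_singleton.1 h₄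
        obtain ⟨r₃, rfl⟩ := Submodule.mem_span_singleton.1 h₂
        have := congrArg (bform hQ v) e
        rw [map_add, map_add, map_smul, map_smul, map_smul, hva, hvb, hvc, hvu] at this
        simp [-bform_apply] at this
      · rw [perp_sup hQ, perp_sup hQ, perp_sup hQ]
        simp only [Submodule.mem_inf, mem_perp_span_singleton hQ]
        exact ⟨⟨⟨e3, e4⟩, e5⟩, e1⟩
    · rw [Ay.mem_iff hv hv0]
      refine perp_spanA_le hQ v y (perp_anti hQ (le_span_of_chain (Ay.rank v hv hv0).le hα hβ hγ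
        (self_mem_spanA hQ v y) (fun h => by rw [h, map_zero] at haα; exact zero_ne_one haα) ?_ ?_ ?_) ?_)
      · intro h
        obtain ⟨r₁, e⟩ := Submodule.mem_span_singleton.1 h
        have := congrArg (bform hQ b) e
        rw [map_smul, hbα, hbβ, smul_zero] at this
        exact zero_ne_one this
      · intro h
        obtain ⟨_, h₁, _, h₂, e⟩ := Submodule.mem_sup.1 h
        obtain ⟨r₁, rfl⟩ := Submodule.mem_span_singleton.1 h₁
        obtain ⟨r₂, rfl⟩ := Submodule.mem_span_singleton.1 h₂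
        have := congrArg (bform hQ c) e
        rw [map_add, map_smul, map_smul, hcα, hcβ, hcγ] at this
        simp [-bform_apply] at this
      · intro h
        obtain ⟨_, h₁, _, h₂, e⟩ := Submodule.mem_sup.1 h
        obtain ⟨_, h₃, _, h₄, rfl⟩ := Submodule.mem_sup.1 h₁
        obtain ⟨r₁, rfl⟩ := Submodule.mem_span_singleton.1 h₃
        obtain ⟨r₂, rfl⟩ := Submodule.mem_span_singleton.1 h₄
        obtain ⟨r₃, rfl⟩ := Submodule.mem_span_singleton.1 h₂
        have := congrArg (bform hQ u) e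
        rw [map_add, map_add, map_smul, map_smul, map_smul, huα, huβ, huγ, huv] at this
        simp [-bform_apply] at this
      · rw [perp_sup hQ, perp_sup hQ, perp_sup hQ]
        simp only [Submodule.mem_inf, mem_perp_span_singleton hQ]
        exact ⟨⟨⟨e6, e7⟩, e8⟩, e2⟩
  have hexp : w₀ = bform hQ v w₀ • u + bform hQ u w₀ • v + bform hQ γ w₀ • c + bform hQ c w₀ • γ := by
    rw [← sub_eq_zero]
    have k1 : bform hQ a w₀ = 0 := by
      simp only [hw₀, map_sub, map_smul, haw, b_self_eq_zero hQ hQa, haβ, smul_eq_mul]; ring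
    have k2 : bform hQ β w₀ = 0 := by
      simp only [hw₀, map_sub, map_smul, hβw, b_symm hQ β a, haβ, b_self_eq_zero hQ hQβ, smul_eq_mul]; ring
    have k3 : bform hQ α w₀ = 0 := by
      simp only [hw₀, map_sub, map_smul, b_symm hQ α a, haα, hαβ, smul_eq_mul]; ring
    have k4 : bform hQ b w₀ = 0 := by
      simp only [hw₀, map_sub, map_smul, b_symm hQ b a, hab, hbβ, smul_eq_mul]; ring
    have s1 := hs _ _ hva; have s2 := hs _ _ hvb; have s3 := hs _ _ hvc
    have s4 := hs _ _ hvα; have s5 := hs _ _ hvβ; have s6 := hs _ _ hvγ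
    have t1 := hs _ _ hua; have t2 := hs _ _ hub; have t3 := hs _ _ huc
    have t4 := hs _ _ huα; have t5 := hs _ _ huβ; have t6 := hs _ _ huγ
    have m1 := hs _ _ hcα; have m2 := hs _ _ hcβ; have m3 := hs _ _ hαγ; have m4 := hs _ _ hβγ
    have m5 : bform hQ γ c = 1 := by rw [b_symm hQ]; exact hcγ
    refine hzero _ ?_ ?_ ?_ ?_ ?_ ?_ ?_ ?_ <;>
      simp [map_sub, map_add, map_smul, k1, k2, k3, k4, huu, hvv, huv, hvu, huc, huγ, hvc, hvγ, s1, s2, s3, s4, s5,
        s6, t1, t2, t3, t4, t5, t6, hac, hbc, haγ, hbγ, hcγ, m1, m2, m3, m4, m5, hαγ, hβγ,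
        b_self_eq_zero hQ hQc, b_self_eq_zero hQ hQγ, -bform_apply]
  have hgw : ((g : GL ι F) : Matrix ι ι F) *ᵥ w₀ - w₀ =
      (bform hQ γ w₀ * (ν - 1)) • c + (bform hQ c w₀ * (ν⁻¹ - 1)) • γ := by
    conv_lhs => rw [hexp]
    simp only [Matrix.mulVec_add, Matrix.mulVec_smul, gu, gv, gc, gγ]
    module
  have hgz : ((g : GL ι F) : Matrix ι ι F) *ᵥ z = ν • z := by
    rw [hz, Matrix.mulVec_add, ga, gβ, smul_add]
  have hmem : ((g : GL ι F) : Matrix ι ι F) *ᵥ w₀ - w₀ ∈ spanA hQ z y := by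
    refine Submodule.sub_mem _ ?_ hw₀m
    have := spanA_stab hQ hgst hw₀m
    rwa [hgz, Ay.scale hQz hz0 hν0] at this
  rw [hgw] at hmem
  have hQ0 := Ay.sing hQz hz0 hmem
  rw [q_add hQ, q_smul hQ, q_smul hQ, hQc, hQγ, map_smul, map_smul, LinearMap.smul_apply, hcγ] at hQ0
  simp only [mul_zero, zero_add, smul_eq_mul, mul_one, mul_eq_zero, hν1, hνi1, or_false] at hQ0
  have hγc : bform hQ γ w₀ = 0 ∧ bform hQ c w₀ = 0 := by
    rcases hQ0 with h | h
    · rw [h, zero_mul, zero_smul, add_zero] at hmem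
      refine ⟨?_, h⟩
      by_contra hne
      exact hzc ((Submodule.smul_mem_iff _ (mul_ne_zero hne hν1)).1 hmem)
    · rw [h, zero_mul, zero_smul, zero_add] at hmem
      refine ⟨h, ?_⟩
      by_contra hne
      exact hzγ ((Submodule.smul_mem_iff _ (mul_ne_zero hne hνi1)).1 hmem)
  rw [hγc.1, hγc.2, zero_smul, zero_smul, add_zero, add_zero] at hexp
  have hQw := Ay.sing hQz hz0 hw₀m
  rw [hexp, q_add hQ, q_smul hQ, q_smul hQ, hu, hv, map_smul, map_smul, LinearMap.smul_apply, huv] at hQw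
  simp only [mul_zero, zero_add, smul_eq_mul, mul_one, mul_eq_zero] at hQw
  rcases hQw with h | h
  · rw [h, zero_smul, add_zero] at hexp
    have hne : bform hQ v w₀ ≠ 0 := fun h' => hw₀0 (by rw [hexp, h', zero_smul])
    exact hzu ((Submodule.smul_mem_iff _ hne).1 (hexp ▸ hw₀m))
  · rw [h, zero_smul, zero_add] at hexp
    have hne : bform hQ u w₀ ≠ 0 := fun h' => hw₀0 (by rw [hexp, h', zero_smul])
    exact hzv ((Submodule.smul_mem_iff _ hne).1 (hexp ▸ hw₀m))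

end CfsgLib.MinIndexOrth
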