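import Cfsg.Agent.MinIndexOrth.Main

/-! Seven dimensions: annihilators that are totally singular planes over a point cannot all be maximal. -/

set_option autoImplicit false
set_option linter.unusedSectionVars false

namespace CfsgLib.MinIndexOrth

open Cfsg.Geo CfsgLib.OrthGeo Module
open scoped Matrix MatrixGroups

variable {ι : Type} [Fintype ι] [DecidableEq ι] {F : Type*} [Field F] [Finite F]
variable {Q : (ι → F) → F}
variable (hQ : IsNondegenerateQuadraticForm Q)
variable {X : Type*} [MulAction (omegaGL Q) X] [Finite X]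
include hQ

/-- Every annihilator is a line or singular of the largest size. -/
lemma annW_line_or_big (hn : Fintype.card ι = 7) (hq5 : 5 ≤ Nat.card F) {v : ℕ} (hXv : Nat.card X < v)
    (hv : (Nat.card F - 1) * v + 1 = Nat.card F ^ 6)
    (hsingle : ∀ u : ι → F, Q u = 0 → u ≠ 0 → Nat.card {z // singPerp hQ u z} + Nat.card F = Nat.card F ^ 5)
    (hclass : ∀ u : ι → F, Q u = 0 → u ≠ 0 → ∀ s : F, s ≠ 0 →
      Nat.card F ^ 5 ≤ Nat.card {z // bform hQ u z = 0 ∧ SameClass Q s z} + Nat.card F ^ 3)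
    {x : X} {u : ι → F} (hu : Q u = 0) (hu0 : u ≠ 0) (hcard : Nat.card (annW hQ u x) = Nat.card F ^ 3)
    (hts : IsTotallySingularQuad Q (spanA hQ u x)) (hclosed : annW hQ u x = (spanA hQ u x).toAddSubgroup)
    (h3 : 3 ≤ finrank F (spanA hQ u x)) (y : X) :
    annW hQ u y ≤ (Submodule.span F {u}).toAddSubgroup ∨
      (Nat.card (annW hQ u y) = Nat.card F ^ 3 ∧ ∀ z ∈ annW hQ u y, Q z = 0) := by
  classical
  have := Fintype.ofFinite F
  by_cases hy : annW hQ u y ∈ family hQ u x
  · refine Or.inr ⟨(card_of_mem_family hQ hu hy).trans hcard, ?_⟩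
    obtain ⟨g, ⟨c, hc, hg⟩, e⟩ := (mem_family hQ).1 hy
    intro z hz
    rw [← e, annW_smul hQ hu hc g hg] at hz
    obtain ⟨z', hz', rfl⟩ := hz
    show Q (c⁻¹ • (((g : GL ι F) : Matrix ι ι F) *ᵥ z')) = 0
    rw [q_smul hQ, mem_isometryGroup.1 (omegaGL_le g.2), hts z' (Submodule.subset_span hz'), mul_zero]
  left
  intro a ha
  by_contra hau
  set q := Nat.card F with hq
  have hdisj : Disjoint (family hQ u x) (family hQ u y) := Finset.disjoint_left.2 fun B hBx hBy => hy (by
    obtain ⟨g, ⟨c, hc, hg⟩, e⟩ := (mem_family hQ).1 hBy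
    have hginv : (((g⁻¹ : omegaGL Q) : GL ι F) : Matrix ι ι F) *ᵥ u = c⁻¹ • u := by
      have h1 := congrArg ((((g : GL ι F)⁻¹ : GL ι F) : Matrix ι ι F) *ᵥ ·) hg
      simp only [inv_mulVec_cancel, Matrix.mulVec_smul] at h1
      rw [Subgroup.coe_inv]
      conv_rhs => rw [h1, inv_smul_smul₀ hc]
    have h := family_map hQ hu hBx (inv_ne_zero hc) g⁻¹ hginv
    rw [← e, ← annW_smul hQ hu (inv_ne_zero hc) g⁻¹ hginv, inv_smul_smul] at h
    exact h)
  have hsum := sum_card_annW_le hQ (by omega) hu hu0 (family hQ u x ∪ family hQ u y) fun B hB => by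
    rcases Finset.mem_union.1 hB with h | h <;> obtain ⟨g, -, hg⟩ := (mem_family hQ).1 h <;> exact ⟨_, hg⟩
  rw [Finset.sum_union hdisj, Finset.sum_congr rfl (fun B hB => (card_of_mem_family hQ hu hB).trans hcard),
    Finset.sum_const, smul_eq_mul] at hsum
  set L := (family hQ u x).card with hL
  set s := ∑ B ∈ family hQ u y, Nat.card B with hs
  -- many planes
  have hpair := pair_count hQ (by omega) hu hu0 (fun z hz => hts z (Submodule.subset_span hz)) h3 _
    (sq_le_card_inf hQ hu hu0 hclosed)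
  rw [hcard, ← hL, ← hq, hn] at hpair
  set N := Nat.card {z // singPerp hQ u z} with hN
  have hN5 := hsingle u hu hu0
  rw [← hN] at hN5
  -- the class of `a` is covered by the second family
  have hbig : q ^ 3 ≤ s := by
    have hcls : ∀ P : (ι → F) → Prop, (∀ z, P z → Move Q (Submodule.span F {u}) a z) →
        Nat.card {z // P z} ≤ s := by
      intro P hP
      rw [Nat.card_eq_fintype_card, Fintype.card_subtype]
      refine (Finset.card_le_card (t := (family hQ u y).biUnion fun B => (B : Set (ι → F)).toFinset)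
        fun z hz => ?_).trans (Finset.card_biUnion_le.trans (le_of_eq (Finset.sum_congr rfl fun B _ => ?_)))
      · obtain ⟨c, g, hc, hgu, hga⟩ := hP z (Finset.mem_filter.1 hz).2
        have hgu' : ((g : GL ι F) : Matrix ι ι F) *ᵥ u = c • u := by
          have := hgu u (Submodule.mem_span_singleton_self u)
          conv_rhs => rw [← this, smul_inv_smul₀ hc]
        exact Finset.mem_biUnion.2 ⟨_, family_map hQ hu (annW_mem_family hQ u y) hc g hgu',
          Set.mem_toFinset.2 ⟨a, ha, hga⟩⟩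
      · rw [Set.toFinset_card, ← Nat.card_eq_fintype_card]; rfl
    have h2q : 2 * q ^ 3 ≤ q ^ 5 := by
      rw [show q ^ 5 = q ^ 2 * q ^ 3 by ring]
      exact Nat.mul_le_mul_right _ (by nlinarith)
    have hqq : q ≤ q ^ 3 := Nat.le_self_pow three_ne_zero q
    have hua : bform hQ u a = 0 := b_eq_zero_of_mem_annW hQ hu ha
    by_cases hQa : Q a = 0
    · have h := hcls (singPerp hQ u) fun z hz =>
        (move_perp hQ (by omega) hu hu0 hua hz.2.1 hau hz.2.2 (hQa.trans hz.1.symm)).toMove
      omega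
    · have h := hcls (fun z => bform hQ u z = 0 ∧ SameClass Q (Q a) z) fun z hz =>
        move_of_sameClass hQ (by omega) hu hu0 hua hQa hz.1 hz.2
      have h' := hclass u hu hu0 _ hQa
      omega
  have hlt : q * Nat.card X + q ≤ q * v := by
    rw [← Nat.mul_succ]; exact Nat.mul_le_mul_left q hXv
  have hqq2 : q ^ 2 ≤ q ^ 3 := Nat.pow_le_pow_right (by omega) (by norm_num)
  have hq13 : q ≤ q ^ 3 := Nat.le_self_pow three_ne_zero q
  zify [hq13, hqq2, show 1 ≤ q by omega] at hpair hv hN5 hsum hlt hbig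
  have hq' : (5 : ℤ) ≤ q := by exact_mod_cast hq5
  set Q' := (q : ℤ) with hQ'
  have hpos : 0 < Q' * (Q' ^ 2 - 1) * (Q' ^ 2 * (Q' - 1)) :=
    mul_pos (mul_pos (by linarith) (by nlinarith)) (mul_pos (by positivity) (by linarith))
  have hL' : Q' ^ 3 + Q' ^ 2 + Q' + 1 ≤ L := by
    refine le_of_mul_le_mul_right (le_trans (le_of_eq ?_) (hpair.trans (le_of_eq ?_))) hpos
    · rw [show (N : ℤ) = Q' ^ 5 - Q' by linarith]; ring
    · ring
  have h1 := mul_le_mul_of_nonneg_right hL' (pow_nonneg (show (0 : ℤ) ≤ Q' by linarith) 3)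
  have h2 : Q' * (v : ℤ) = Q' ^ 6 + Q' ^ 5 + Q' ^ 4 + Q' ^ 3 + Q' ^ 2 + Q' := by
    refine mul_left_cancel₀ (show Q' - 1 ≠ 0 by linarith) ?_
    linear_combination Q' * hv
  nlinarith

/-- No maximal totally singular annihilator in seven dimensions over five or more elements. -/
theorem no_max_seven (hn : Fintype.card ι = 7) (hq5 : 5 ≤ Nat.card F) {v : ℕ} (hXv : Nat.card X < v)
    (hv : (Nat.card F - 1) * v + 1 = Nat.card F ^ 6)
    (hw : ∀ W : Submodule F (ι → F), IsTotallySingularQuad Q W → finrank F W ≤ 3)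
    (hsingle : ∀ u : ι → F, Q u = 0 → u ≠ 0 → Nat.card {z // singPerp hQ u z} + Nat.card F = Nat.card F ^ 5)
    (hclass : ∀ u : ι → F, Q u = 0 → u ≠ 0 → ∀ s : F, s ≠ 0 →
      Nat.card F ^ 5 ≤ Nat.card {z // bform hQ u z = 0 ∧ SameClass Q s z} + Nat.card F ^ 3)
    {x : X} {u : ι → F} (hu : Q u = 0) (hu0 : u ≠ 0) (hcard : Nat.card (annW hQ u x) = Nat.card F ^ 3)
    (hts : IsTotallySingularQuad Q (spanA hQ u x)) (hclosed : annW hQ u x = (spanA hQ u x).toAddSubgroup)
    (h3 : 3 ≤ finrank F (spanA hQ u x)) : False := by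
  classical
  set π := spanA hQ u x with hπ
  obtain ⟨b, hb, hQb⟩ : ∃ b ∈ perp hQ π, Q b ≠ 0 := by
    by_contra h
    push Not at h
    have h1 := hw _ h
    have h2 := finrank_perp_add hQ π
    have h4 := hw _ hts
    omega
  have hub : bform hQ u b = 0 := by rw [b_symm hQ, ← b_symm hQ u b]; exact hb u (self_mem_spanA hQ u x)
  have hbK : b ∈ fixW hQ u x := perp_spanA_le hQ u x hb
  obtain ⟨w, hw0, hwu⟩ : ∃ w ∈ π, w ∉ Submodule.span F {u} := by
    by_contra h
    push Not at h
    have := Submodule.finrank_mono (show π ≤ Submodule.span F {u} from h)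
    rw [finrank_span_singleton hu0] at this
    omega
  set S := Submodule.span F {u} ⊔ Submodule.span F {b} with hS
  have hwS : w ∈ perp hQ S := (mem_perp_pair hQ).2
    ⟨(mem_perp_span_singleton hQ).1 (spanA_le_perp hQ hu x hw0), by rw [b_symm hQ]; exact hb w hw0⟩
  have hwnS : w ∉ S := by
    intro h
    obtain ⟨_, hb₁, _, hb₂, e⟩ := Submodule.mem_sup.1 h
    obtain ⟨r, rfl⟩ := Submodule.mem_span_singleton.1 hb₁
    obtain ⟨t, rfl⟩ := Submodule.mem_span_singleton.1 hb₂
    have hQw := hts w hw0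
    rw [← e, q_add hQ, q_smul hQ, q_smul hQ, hu, map_smul, map_smul, LinearMap.smul_apply, hub] at hQw
    simp only [mul_zero, zero_add, smul_zero, add_zero, mul_eq_zero, pow_eq_zero_iff two_ne_zero, hQb,
      or_false] at hQw
    rw [hQw, zero_smul, add_zero] at e
    exact hwu (e ▸ hb₁)
  obtain ⟨u', hu'S, hu', hu'nS, hu'w⟩ := exists_detect hQ (by omega) (finrank_span_pair_le hQ u b) hwS hwnS
  obtain ⟨hu'u, hu'b⟩ := (mem_perp_pair hQ).1 hu'S
  have hu'0 : u' ≠ 0 := fun h => hu'w (by rw [h, map_zero, LinearMap.zero_apply])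
  -- `u'` is outside the fixed space at `u`
  have hnot : u ∉ fixW hQ u' x := fun h => by
    have h1 := fixW_symm hQ hu' hu h
    refine hu'w (eq_zero_of_chi fun c => ?_)
    have hcw : c • w ∈ annW hQ u x := hclosed ▸ Submodule.smul_mem _ c hw0
    have h2 := hcw u' h1
    rwa [map_smul, smul_eq_mul, mul_comm] at h2
  -- the root element of `b`
  obtain ⟨g, hg, hgE⟩ := ((mem_fixW hQ hu).1 hbK).2
  have hgu' : (g : Matrix ι ι F) *ᵥ u' = u' := by
    rw [hgE, eichlerMat_mulVec hQ, hu'u, hu'b]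
    simp
  -- move the maximal annihilator to `u'`
  obtain ⟨k, hk, hku⟩ := exists_map_singular hQ (by omega) hu hu' hu0 hu'0
  set k' : omegaGL Q := ⟨k, eichlerGroup_le_omega hQ (by omega) hk⟩ with hk'
  have hkI := omegaGL_le k'.2
  have he : annW hQ u' (k' • x) = (annW hQ u x).map (omMap k') := eq_map_omMap k' fun z => by
    have := mem_annW_map hQ (u := u) (a := z) k' x
    rwa [show ((k' : GL ι F) : Matrix ι ι F) *ᵥ u = u' from hku] at this
  have hcard' : Nat.card (annW hQ u' (k' • x)) = Nat.card F ^ 3 := by rw [he, card_map_omMap, hcard]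
  have hall : ∀ z ∈ annW hQ u' (k' • x), Q z = 0 := by
    intro z hz
    rw [he] at hz
    obtain ⟨z', hz', rfl⟩ := hz
    rw [omMap_apply, mem_isometryGroup.1 hkI]
    exact hts z' (Submodule.subset_span hz')
  have hts' := spanA_totallySingular hQ hall
  have hclosed' : annW hQ u' (k' • x) = (spanA hQ u' (k' • x)).toAddSubgroup := by
    refine AddSubgroup.eq_of_le_of_card_ge (fun z hz => Submodule.subset_span hz) ?_
    rw [natCard_submodule, hcard']
    exact Nat.pow_le_pow_right Nat.card_pos (hw _ hts')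
  have h3' : 3 ≤ finrank F (spanA hQ u' (k' • x)) := by
    by_contra h
    have h1 := AddSubgroup.card_le_of_le (show annW hQ u' (k' • x) ≤ (spanA hQ u' (k' • x)).toAddSubgroup from
      hclosed'.le)
    rw [natCard_submodule, hcard'] at h1
    have h2 := Nat.pow_le_pow_right (show 0 < Nat.card F from Nat.card_pos) (show finrank F (spanA hQ u' (k' • x)) ≤ 2 by omega)
    have : Nat.card F ^ 2 < Nat.card F ^ 3 := Nat.pow_lt_pow_right (by omega) (by norm_num)
    omega
  rcases annW_line_or_big hQ hn hq5 hXv hv hsingle hclass hu' hu'0 hcard' hts' hclosed' h3' x with h | ⟨-, hall'⟩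
  · -- all root elements at `u'` fix the point
    refine hnot ?_
    rw [← annS_annW]
    refine annS_anti hQ h ?_
    rw [annS_submodule]
    exact (mem_perp_span_singleton hQ).2 (by rw [b_symm hQ]; exact hu'u)
  · obtain ⟨z, hz, hzu⟩ : ∃ z ∈ annW hQ u' x, bform hQ u z ≠ 0 := by
      by_contra h
      push Not at h
      refine hnot ?_
      rw [← annS_annW]
      intro z hz
      rw [b_symm hQ, h z hz, AddChar.map_zero_eq_one]
    have hgz := annW_stab hQ hg hz
    rw [hgu', hgE, eichlerMat_mulVec hQ] at hgz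
    have hd := hall' _ (sub_mem hgz hz)
    rw [show z + bform hQ b z • u - bform hQ u z • b - (Q b * bform hQ u z) • u - z =
        (bform hQ b z - Q b * bform hQ u z) • u + (-bform hQ u z) • b by module,
      q_add hQ, q_smul hQ, q_smul hQ, hu, map_smul, map_smul, LinearMap.smul_apply, hub] at hd
    simp [hQb] at hd
    exact hzu hd

end CfsgLib.MinIndexOrth
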