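import Mathlib

/-! The numerical inequalities for the minus type. -/

set_option autoImplicit false

namespace CfsgLib.MinIndexOrth

section Integers

variable {q R : ℤ}

private lemma prod_le_square (hq : 2 ≤ q) {P : ℤ} (hP : 0 ≤ P) : (q * P + 1) * (P - 1) ≤ q * P ^ 2 := by
  nlinarith [mul_le_mul_of_nonneg_right hq hP]

private lemma cube_le (hq : 3 ≤ q) (hR : q ^ 2 ≤ R) : q ^ 3 ≤ (q - 1) ^ 2 * (R - 1) := by
  have h1 : q + 1 ≤ (q - 1) ^ 2 := by nlinarith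
  have h2 : (q + 1) * (q ^ 2 - 1) ≤ (q - 1) ^ 2 * (R - 1) :=
    mul_le_mul h1 (by linarith) (by nlinarith) (sq_nonneg _)
  nlinarith

private lemma singular_ge_three (hq : 3 ≤ q) (hR : q ^ 2 ≤ R) {N : ℤ} (hN : q ^ 2 * R * (R - 1) ≤ N) :
    q * ((q * (q * R) + 1) * (q * R - 1)) * (q * R) ≤ 2 * (N * ((q - 1) ^ 2 * (R ^ 2 + q ^ 2))) ∧
      q * ((q * (q * R) + 1) * (q * R - 1)) * ((q * R - q) * (q * R - q ^ 2)) ≤
        q * R * (N * ((q - 1) ^ 2 * (R ^ 2 + q ^ 2))) := by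
  have hq0 : (0 : ℤ) ≤ q := by linarith
  have hR9 : (9 : ℤ) ≤ R := by nlinarith
  have hR0 : (0 : ℤ) ≤ R := by linarith
  have ha := prod_le_square (q := q) (by linarith) (mul_nonneg hq0 hR0)
  have hN0 : 0 ≤ N := le_trans (mul_nonneg (mul_nonneg (sq_nonneg q) hR0) (by linarith)) hN
  have hq1 : (0 : ℤ) ≤ (q - 1) ^ 2 := sq_nonneg _
  have e1 : q ^ 2 * R ^ 3 * q ^ 3 ≤ q ^ 2 * R ^ 3 * ((q - 1) ^ 2 * (R - 1)) :=
    mul_le_mul_of_nonneg_left (cube_le hq hR) (mul_nonneg (sq_nonneg q) (pow_nonneg hR0 3))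
  have e2 : q ^ 2 * R * (R - 1) * ((q - 1) ^ 2 * R ^ 2) ≤ N * ((q - 1) ^ 2 * (R ^ 2 + q ^ 2)) :=
    mul_le_mul hN (mul_le_mul_of_nonneg_left (by linarith [sq_nonneg q]) hq1)
      (mul_nonneg hq1 (sq_nonneg R)) hN0
  constructor
  · calc q * ((q * (q * R) + 1) * (q * R - 1)) * (q * R) ≤ q * (q * (q * R) ^ 2) * (q * R) :=
          mul_le_mul_of_nonneg_right (mul_le_mul_of_nonneg_left ha hq0) (mul_nonneg hq0 hR0)
      _ = q ^ 2 * R ^ 3 * q ^ 3 := by ring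
      _ ≤ q ^ 2 * R ^ 3 * ((q - 1) ^ 2 * (R - 1)) := e1
      _ = q ^ 2 * R * (R - 1) * ((q - 1) ^ 2 * R ^ 2) := by ring
      _ ≤ _ := by linarith [mul_nonneg hN0 (mul_nonneg hq1 (add_nonneg (sq_nonneg R) (sq_nonneg q)))]
  · have hq2R : q ^ 2 ≤ q * R := hR.trans (le_mul_of_one_le_left hR0 (by linarith))
    have hb : (q * R - q) * (q * R - q ^ 2) ≤ q * R * (q * R) :=
      mul_le_mul (by linarith) (by linarith [sq_nonneg q]) (by linarith) (mul_nonneg hq0 hR0)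
    have hb0 : 0 ≤ (q * R - q) * (q * R - q ^ 2) :=
      mul_nonneg (by linarith [le_mul_of_one_le_right hq0 (show (1 : ℤ) ≤ R by linarith)]) (by linarith)
    calc q * ((q * (q * R) + 1) * (q * R - 1)) * ((q * R - q) * (q * R - q ^ 2))
        ≤ q * (q * (q * R) ^ 2) * (q * R * (q * R)) :=
          mul_le_mul (mul_le_mul_of_nonneg_left ha hq0) hb hb0 (mul_nonneg hq0 (mul_nonneg hq0 (sq_nonneg _)))
      _ = q * R * (q ^ 2 * R ^ 3 * q ^ 3) := by ring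
      _ ≤ q * R * (q ^ 2 * R ^ 3 * ((q - 1) ^ 2 * (R - 1))) :=
          mul_le_mul_of_nonneg_left e1 (mul_nonneg hq0 hR0)
      _ = q * R * (q ^ 2 * R * (R - 1) * ((q - 1) ^ 2 * R ^ 2)) := by ring
      _ ≤ _ := mul_le_mul_of_nonneg_left e2 (mul_nonneg hq0 hR0)

private lemma singular_two (hR : 4 ≤ R) :
    2 * ((2 * (2 * R) + 1) * (2 * R - 1)) * (2 * R) ≤
        2 * ((4 * R ^ 2 - 2 * R - 2) * ((2 - 1) ^ 2 * (R ^ 2 + 2 ^ 2))) ∧
      2 * ((2 * (2 * R) + 1) * (2 * R - 1)) * ((2 * R - 2) * (2 * R - 2 ^ 2)) ≤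
        2 * R * ((4 * R ^ 2 - 2 * R - 2) * ((2 - 1) ^ 2 * (R ^ 2 + 2 ^ 2))) := by
  obtain ⟨t, ht, rfl⟩ : ∃ t, 0 ≤ t ∧ R = t + 4 := ⟨R - 4, by linarith, by ring⟩
  constructor <;> nlinarith [pow_nonneg ht 3, sq_nonneg t, pow_nonneg ht 4, pow_nonneg ht 5]

end Integers

variable {q R v N : ℕ}

private lemma cast_facts (hq : 2 ≤ q) (hR : q ^ 2 ≤ R) (hv : (q - 1) * v = (q * (q * R) + 1) * (q * R - 1))
    (hN : N + q + q * (q * R) = (q * R) ^ 2 + q * R) :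
    2 ≤ (q : ℤ) ∧ (q : ℤ) ^ 2 ≤ R ∧ ((q : ℤ) - 1) * v = (q * (q * R) + 1) * (q * R - 1) ∧
      (N : ℤ) + q + q * (q * R) = (q * R) ^ 2 + q * R := by
  have h1 : 1 ≤ q * R := Nat.mul_pos (by omega) (by nlinarith)
  refine ⟨by exact_mod_cast hq, by exact_mod_cast hR, ?_, by exact_mod_cast hN⟩
  have := congrArg (fun z : ℕ => (z : ℤ)) hv
  push_cast [Nat.cast_sub h1, Nat.cast_sub (show 1 ≤ q by omega)] at this
  exact this

theorem minus_arith_two (hq : 2 ≤ q) (hR : q ^ 2 ≤ R) (hv : (q - 1) * v = (q * (q * R) + 1) * (q * R - 1))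
    (hN : N + q + q * (q * R) = (q * R) ^ 2 + q * R) :
    v ≤ 2 * (q * R) ^ 2 ∧
      (∀ O : ℕ, (q * R) ^ 2 ≤ O → (q - 1) * (q * R) ^ 2 ≤ 2 * O → q * v ≤ 5 * O ∧ (q = 2 → q * v ≤ 4 * O)) := by
  obtain ⟨hq', hR', hv', hN'⟩ := cast_facts hq hR hv hN
  have hR0 : (4 : ℤ) ≤ R := by nlinarith
  have hv2 : ((q : ℤ) - 1) * v ≤ q * (q * R) ^ 2 := hv' ▸ prod_le_square hq' (by positivity)
  have hsq := sq_nonneg ((q : ℤ) * R)
  refine ⟨?_, fun O h1 h2 => ⟨?_, ?_⟩⟩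
  · have h : ((q : ℤ) - 1) * v ≤ ((q : ℤ) - 1) * (2 * (q * R) ^ 2) := by
      nlinarith [mul_le_mul_of_nonneg_right hq' hsq]
    exact_mod_cast le_of_mul_le_mul_left h (by omega)
  · zify [show 1 ≤ q by omega] at h1 h2 ⊢
    refine le_of_mul_le_mul_left (a := (q : ℤ) - 1) ?_ (by omega)
    have hl : ((q : ℤ) - 1) * (q * v) ≤ q * (q * (q * R) ^ 2) := by
      rw [show ((q : ℤ) - 1) * (q * v) = q * (((q : ℤ) - 1) * v) by ring]
      exact mul_le_mul_of_nonneg_left hv2 (by omega)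
    refine hl.trans ?_
    rcases Nat.lt_or_ge q 3 with h | h
    · have h2' : (q : ℤ) = 2 := by omega
      rw [h2'] at h1 ⊢
      linarith
    · have h3 : (3 : ℤ) ≤ q := by exact_mod_cast h
      have e1 : 2 * (q : ℤ) ^ 2 ≤ 5 * ((q : ℤ) - 1) ^ 2 := by nlinarith
      have e2 := mul_le_mul_of_nonneg_right e1 hsq
      have e4 := mul_le_mul_of_nonneg_left h2 (show (0 : ℤ) ≤ 5 * ((q : ℤ) - 1) by omega)
      linarith
  · intro h
    subst h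
    zify at h1 ⊢
    push_cast at hv2
    linarith

theorem minus_arith_singular (hq : 2 ≤ q) (hR : q ^ 2 ≤ R) (hv : (q - 1) * v = (q * (q * R) + 1) * (q * R - 1))
    (hN : N + q + q * (q * R) = (q * R) ^ 2 + q * R) :
    q * v * (q * R) ≤ 2 * (N * ((q - 1) * R ^ 2 + (q - 1) * q ^ 2)) ∧
      q * v * ((q * R - q) * (q * R - q ^ 2)) ≤ q * R * (N * ((q - 1) * R ^ 2 + (q - 1) * q ^ 2)) ∧ 0 < N := by
  obtain ⟨hq', hR', hv', hN'⟩ := cast_facts hq hR hv hN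
  have hR0 : (4 : ℤ) ≤ R := by nlinarith
  have hqR : q ^ 2 ≤ q * R := hR.trans (Nat.le_mul_of_pos_left R (by omega))
  have hR1 : 0 < R := lt_of_lt_of_le (Nat.pow_pos (by omega)) hR
  have hqR1 : q ≤ q * R := Nat.le_mul_of_pos_right q hR1
  have hN2 : (q : ℤ) ^ 2 * R * (R - 1) ≤ N := by
    have : (q : ℤ) * 1 ≤ q * R := mul_le_mul_of_nonneg_left (by omega) (by omega)
    linarith
  have key : (q : ℤ) * ((q * (q * R) + 1) * (q * R - 1)) * (q * R) ≤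
        2 * (N * ((q - 1) ^ 2 * (R ^ 2 + q ^ 2))) ∧
      (q : ℤ) * ((q * (q * R) + 1) * (q * R - 1)) * ((q * R - q) * (q * R - q ^ 2)) ≤
        q * R * (N * ((q - 1) ^ 2 * (R ^ 2 + q ^ 2))) := by
    rcases Nat.lt_or_ge q 3 with h | h
    · have h2 : (q : ℤ) = 2 := by omega
      rw [h2] at hN' ⊢
      rw [show (N : ℤ) = 4 * R ^ 2 - 2 * R - 2 by linarith]
      exact singular_two hR0
    · exact singular_ge_three (by exact_mod_cast h) hR' hN2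
  refine ⟨?_, ?_, ?_⟩
  · zify [show 1 ≤ q by omega]
    refine le_of_mul_le_mul_left (a := (q : ℤ) - 1) ?_ (by omega)
    rw [show ((q : ℤ) - 1) * (q * v * (q * R)) = q * (((q : ℤ) - 1) * v) * (q * R) by ring, hv']
    linarith [key.1]
  · zify [show 1 ≤ q by omega, hqR, hqR1]
    refine le_of_mul_le_mul_left (a := (q : ℤ) - 1) ?_ (by omega)
    rw [show ((q : ℤ) - 1) * (q * v * ((q * R - q) * (q * R - q ^ 2))) =
      q * (((q : ℤ) - 1) * v) * ((q * R - q) * (q * R - q ^ 2)) by ring, hv']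
    linarith [key.2]
  · have h1 : (0 : ℤ) < q ^ 2 * R * (R - 1) := mul_pos (mul_pos (by positivity) (by omega)) (by omega)
    omega

end CfsgLib.MinIndexOrth
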