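import Cfsg.Agent.QuadCount.Zeros
import Cfsg.Agent.Classical.Orth.OrderBinary

/-! The numbers of vectors of given non-zero value of the standard forms. -/

set_option autoImplicit false

namespace CfsgLib.MinIndexOrth

open CfsgLib.Classical.Orth (binForm)

variable {F : Type*} [Field F] [Fintype F]

/-- An anisotropic binary form takes each non-zero value `q + 1` times. -/
theorem card_binForm_value {a b : F}
    (hab : ∀ z₁ z₂ : F, z₁ ^ 2 + a * z₁ * z₂ + b * z₂ ^ 2 = 0 → z₁ = 0 ∧ z₂ = 0) {s : F} (hs : s ≠ 0) :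
    Nat.card {v : Fin 2 → F // binForm a b v = s} = Fintype.card F + 1 := by
  classical
  have h1 := CfsgLib.Classical.Orth.card_conic a b hab
  have hle : ∀ t : F, t ≠ 0 → Nat.card {v : Fin 2 → F // binForm a b v = t} ≤ Fintype.card F + 1 := by
    intro t ht
    rcases isEmpty_or_nonempty {v : Fin 2 → F // binForm a b v = t} with h | ⟨⟨w, hw⟩⟩
    · simp
    · let M : (Fin 2 → F) → (Fin 2 → F) := fun v =>
        ![w 0 * v 0 - b * (w 1 * v 1), w 0 * v 1 + w 1 * v 0 + a * (w 1 * v 1)]
      have hmul : ∀ v, binForm a b (M v) = binForm a b w * binForm a b v := fun v => by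
        simp [M, binForm]; ring
      let Mi : (Fin 2 → F) → (Fin 2 → F) := fun z =>
        ![((w 0 + a * w 1) * z 0 + b * (w 1 * z 1)) / t, (w 0 * z 1 - w 1 * z 0) / t]
      have hw' : w 0 ^ 2 + a * w 0 * w 1 + b * w 1 ^ 2 = t := hw
      have hinv : ∀ z, M (Mi z) = z := fun z => by
        funext i
        fin_cases i <;> simp [M, Mi] <;> field_simp
        · linear_combination z 0 * hw'
        · linear_combination z 1 * hw'
      rw [← h1]
      refine Nat.card_le_card_of_injective (fun z => (⟨Mi z.1, mul_left_cancel₀ ht ?_⟩ :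
        {v : Fin 2 → F // binForm a b v = 1})) fun z z' h => Subtype.ext ?_
      · rw [mul_one]
        have hh := hmul (Mi z.1)
        rw [hinv, z.2, hw] at hh
        exact hh.symm
      · rw [← hinv z.1, ← hinv z'.1]
        exact congrArg (fun p : {v : Fin 2 → F // binForm a b v = 1} => M p.1) h
  have htot := Finset.card_eq_sum_card_fiberwise (s := (Finset.univ : Finset (Fin 2 → F)))
    (t := (Finset.univ : Finset F)) (f := binForm a b) (fun v _ => Finset.mem_univ _)
  rw [Finset.card_univ, Fintype.card_fun, Fintype.card_fin, ← Finset.add_sum_erase _ _ (Finset.mem_univ (0 : F))]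
    at htot
  have h0 : (Finset.univ.filter fun v : Fin 2 → F => binForm a b v = 0).card = 1 := by
    rw [Finset.card_eq_one]
    refine ⟨0, Finset.ext fun v => ?_⟩
    simp only [Finset.mem_filter, Finset.mem_univ, true_and, Finset.mem_singleton]
    refine ⟨fun h => ?_, fun h => by simp [h, binForm]⟩
    obtain ⟨e0, e1⟩ := hab _ _ h
    funext i; fin_cases i <;> simp [e0, e1]
  have hf : ∀ t : F, (Finset.univ.filter fun v : Fin 2 → F => binForm a b v = t).card =
      Nat.card {v : Fin 2 → F // binForm a b v = t} := fun t => by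
    rw [Nat.card_eq_fintype_card, Fintype.card_subtype]
  rw [h0] at htot
  by_contra hne
  have hlt : Nat.card {v : Fin 2 → F // binForm a b v = s} < Fintype.card F + 1 := lt_of_le_of_ne (hle s hs) hne
  have hsum : ∑ t ∈ Finset.univ.erase (0 : F), (Finset.univ.filter fun v : Fin 2 → F => binForm a b v = t).card <
      ∑ _t ∈ Finset.univ.erase (0 : F), (Fintype.card F + 1) :=
    Finset.sum_lt_sum (fun t ht => (hf t).le.trans (hle t (Finset.mem_erase.1 ht).1))
      ⟨s, Finset.mem_erase.2 ⟨hs, Finset.mem_univ _⟩, (hf s).trans_lt hlt⟩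
  rw [Finset.sum_const, Finset.card_erase_of_mem (Finset.mem_univ _), Finset.card_univ, smul_eq_mul] at hsum
  obtain ⟨k, hk⟩ : ∃ k, Fintype.card F = k + 1 :=
    ⟨Fintype.card F - 1, (Nat.sub_add_cancel Fintype.card_pos).symm⟩
  rw [hk] at hsum htot
  rw [Nat.add_sub_cancel] at hsum
  nlinarith

/-- The value count of the form of minus type. -/
theorem card_minus_value (m : ℕ) (a b : F)
    (hab : ∀ z₁ z₂ : F, z₁ ^ 2 + a * z₁ * z₂ + b * z₂ ^ 2 = 0 → z₁ = 0 ∧ z₂ = 0) {s : F} (hs : s ≠ 0) :
    Nat.card {v : (Fin m ⊕ Fin m) ⊕ Fin 2 → F // Cfsg.quadFormMinus m F a b v = s} =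
      Fintype.card F ^ (2 * m + 1) + Fintype.card F ^ m := by
  let f : (Fin 2 → F) → F := fun z => binForm a b z - s
  have e : {v : (Fin m ⊕ Fin m) ⊕ Fin 2 → F // Cfsg.quadFormMinus m F a b v = s} ≃
      {p : (Fin m → F × F) × (Fin 2 → F) // (∑ i, (p.1 i).1 * (p.1 i).2) + f p.2 = 0} :=
    ((Equiv.sumArrowEquivProdArrow _ _ F).trans
      ((QuadZeros.pairEquiv m).prodCongr (Equiv.refl _))).subtypeEquiv fun v => by
      simp [Cfsg.quadFormMinus, QuadZeros.pairEquiv, f, binForm, ← add_sub_assoc, sub_eq_zero]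
  have h := QuadZeros.card_zeros_hyperbolic f m
  rw [← Nat.card_congr e, Nat.card_congr (Equiv.subtypeEquivRight fun z =>
    (show f z = 0 ↔ binForm a b z = s from sub_eq_zero)), card_binForm_value hab hs,
    Nat.card_eq_fintype_card (α := Fin 2 → F), Fintype.card_fun, Fintype.card_fin] at h
  apply Nat.eq_of_mul_eq_mul_left (Fintype.card_pos (α := F))
  linear_combination h

/-- The value count of the odd-dimensional form, in terms of the square roots of the value. -/
theorem card_odd_value (m : ℕ) (s : F) :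
    Nat.card {v : Unit ⊕ (Fin m ⊕ Fin m) → F // Cfsg.quadFormOdd m F v = s} + Fintype.card F ^ m =
      Fintype.card F ^ (2 * m) + Fintype.card F ^ m * Nat.card {z : F // z ^ 2 = s} := by
  let f : F → F := fun z => z ^ 2 - s
  have e : {v : Unit ⊕ (Fin m ⊕ Fin m) → F // Cfsg.quadFormOdd m F v = s} ≃
      {p : (Fin m → F × F) × F // (∑ i, (p.1 i).1 * (p.1 i).2) + f p.2 = 0} :=
    ((Equiv.sumArrowEquivProdArrow _ _ F).trans
      (((Equiv.funUnique Unit F).prodCongr (QuadZeros.pairEquiv m)).trans (Equiv.prodComm _ _))).subtypeEquiv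
      fun v => by
        simp only [Cfsg.quadFormOdd, QuadZeros.pairEquiv, f]
        simp only [Equiv.trans_apply, Equiv.prodCongr_apply, Prod.map, Equiv.prodComm_apply, Prod.swap]
        simp
        constructor <;> intro h <;> linear_combination h
  have h := QuadZeros.card_zeros_hyperbolic f m
  rw [← Nat.card_congr e, Nat.card_congr (Equiv.subtypeEquivRight fun z =>
    (show f z = 0 ↔ z ^ 2 = s from sub_eq_zero)), Nat.card_eq_fintype_card (α := F)] at h
  apply Nat.eq_of_mul_eq_mul_left (Fintype.card_pos (α := F))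
  linear_combination h

/-- Every value is taken often by the odd-dimensional form. -/
theorem card_odd_value_ge (m : ℕ) (s : F) :
    Fintype.card F ^ (2 * m) ≤
      Nat.card {v : Unit ⊕ (Fin m ⊕ Fin m) → F // Cfsg.quadFormOdd m F v = s} + Fintype.card F ^ m := by
  rw [card_odd_value]; exact Nat.le_add_right _ _

end CfsgLib.MinIndexOrth
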