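import Cfsg.Agent.MinIndexOrth.Main
import Cfsg.Agent.MinIndexOrth.StdCount
import Cfsg.Agent.MinIndexOrth.MinusArith
import Cfsg.Agent.AutOrthMinus.AllSemisim

/-! The least index of a proper subgroup of the orthogonal groups of minus type. -/

set_option autoImplicit false
set_option linter.unusedSectionVars false

namespace CfsgLib.MinIndexOrth

open Cfsg Cfsg.Geo CfsgLib.OrthGeo Module
open scoped Matrix MatrixGroups

variable {F : Type*} [Field F] [Fintype F]

variable {ι : Type} [Fintype ι] [DecidableEq ι] {Q : (ι → F) → F}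

/-- The index bound from the counts of the minus type. -/
theorem minus_generic (hQ : IsNondegenerateQuadraticForm Q) {q k R v : ℕ} (hι : Fintype.card ι = 2 * k + 8)
    (hqF : Nat.card F = q) (hRdef : R = q ^ (k + 2))
    (hv : (q - 1) * v = (q * (q * R) + 1) * (q * R - 1))
    (hw : ∀ W : Submodule F (ι → F), IsTotallySingularQuad Q W → finrank F W ≤ k + 3)
    (hZ : Nat.card {z // Q z = 0} + q * (q * R) = q * (q * R) ^ 2 + q * R)
    (hval : ∀ t : F, t ≠ 0 → Nat.card {z // Q z = t} = q * (q * R) ^ 2 + q * R)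
    {p : ι → F} (hp : p ≠ 0) (hQp : Q p = 0) :
    (∀ H : Subgroup (POmega F Q), H ≠ ⊤ → v ≤ H.index) ∧ ∃ H : Subgroup (POmega F Q), H.index = v := by
  have hq : 2 ≤ q := hqF ▸ two_le_natCard
  have hR : q ^ 2 ≤ R := hRdef ▸ Nat.pow_le_pow_right (by omega) (by omega)
  have hP : q ^ (k + 3) = q * R := by rw [hRdef]; ring
  have hqP : q ^ (k + 4) = q * (q * R) := by rw [← hP]; ring
  have hslice : (Nat.card F - 1) * Nat.card F ^ (Fintype.card ι - 2) = (q - 1) * (q * R) ^ 2 := by
    rw [hqF, hι, ← hP, ← pow_mul, show 2 * k + 8 - 2 = (k + 3) * 2 by omega]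
  have hsplit : (q - 1) * (q * R) ^ 2 + (q * R) ^ 2 = q * (q * R) ^ 2 := by
    rw [← Nat.succ_mul, show (q - 1).succ = q by omega]
  obtain ⟨N, hN, hNle⟩ : ∃ N, N + q + q * (q * R) = (q * R) ^ 2 + q * R ∧
      ∀ u, Q u = 0 → u ≠ 0 → N ≤ Nat.card {z // singPerp hQ u z} := by
    refine ⟨(q * R) ^ 2 + q * R - q - q * (q * R), ?_, fun u hu hu0 => ?_⟩
    · have h2 : 2 * q ≤ q * R := by
        rw [mul_comm 2]; exact Nat.mul_le_mul_left q (by nlinarith)
      have h3 : q * (q * R) + q * R ≤ (q * R) ^ 2 + q * R := by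
        rw [sq]; exact Nat.add_le_add_right (Nat.mul_le_mul_right _ (by omega)) _
      omega
    · have h := card_singPerp hQ hu hu0
      rw [hslice, hqF] at h
      have h' : Nat.card {z // singPerp hQ u z} + q + q * (q * R) = (q * R) ^ 2 + q * R := by linarith
      omega
  obtain ⟨hv2, hO⟩ := minus_arith_two hq hR hv hN
  obtain ⟨hn1, hn2, hN0⟩ := minus_arith_singular hq hR hv hN
  have hv2' : v ≤ 2 * Nat.card F ^ (Fintype.card ι - 2) := by
    rw [hqF, hι, show 2 * k + 8 - 2 = (k + 3) * 2 by omega, pow_mul, hP]; exact hv2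
  have h1 : (q * (q * R) + 1) * (q * R - 1) + 1 + q * (q * R) = q * (q * R) ^ 2 + q * R := by
    have h0 : 1 ≤ q * R := Nat.mul_pos (by omega) (by nlinarith)
    zify [h0]; ring
  have hclass : ∀ p : ι → F, p ≠ 0 → (Nat.card F - 1) * v ≤ Nat.card {z // ClassOf Q p z} := by
    intro p hp
    rw [hqF, hv]
    by_cases hQp : Q p = 0
    · have e := card_classOf_singular hQ hQp
      linarith
    · have h := (card_class_univ_ge hQ hQp (L := q * (q * R) ^ 2 + q * R) fun t ht => (hval t ht).ge).1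
      rw [card_classOf_nonsingular hQ hQp]
      exact le_trans (((Nat.le_add_right _ 1).trans (Nat.le_add_right _ _)).trans h1.le) h
  have hlow : ∀ K : Subgroup (omegaGL Q), K ≠ ⊤ → v ≤ K.index := by
    intro K hK
    have : Finite (omegaGL Q ⧸ K) := inferInstance
    have : Nontrivial (omegaGL Q ⧸ K) := QuotientGroup.nontrivial_iff.2 hK
    refine card_ge hQ (X := omegaGL Q ⧸ K) (by omega) ?_ hv2' hclass fun hXv => ?_
    · by_cases hk : k = 0
      · exact Or.inr (Or.inl fun W hW => (hw W hW).trans (by omega))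
      · exact Or.inl (by omega)
    refine dichot_of hQ (by omega) (Or.inr (by omega)) hXv hv2' (fun u hu hu0 s hs => ?_)
      (fun _ _ _ _ _ _ _ _ h7 => absurd h7 (by omega)) (fun x u hu hu0 hsing => Or.inr ?_)
    · obtain ⟨h1, h2⟩ := card_class_perp_ge hQ hu hu0 hs (L := (q * R) ^ 2) fun t ht => by
        rw [hslice, hval t ht]; omega
      rw [hqF] at h2 ⊢
      exact hO _ h1 h2
    · have hOeq : (Nat.card F - 1) * Nat.card F ^ (Fintype.card ι - 4) + (Nat.card F - 1) * Nat.card F ^ 2 =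
          (q - 1) * R ^ 2 + (q - 1) * q ^ 2 := by
        rw [hqF, hι, hRdef, ← pow_mul, show 2 * k + 8 - 4 = (k + 2) * 2 by omega]
      rcases classify_singular hQ (by omega) hXv hw hu hu0 (hNle u hu hu0)
          (by rw [hOeq, hqF, hP]; exact hn1) hsing with h | ⟨hcard, hclosed, hts, h3⟩
      · exact h
      · exact (not_max hQ (by omega) hXv hu hu0 (hNle u hu hu0) (by rw [hOeq, hqF, hP]; exact hn2) hN0 hcard
          hclosed hts h3).elim
  refine pomega_min_index hQ (by omega) hlow hp ?_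
  refine le_antisymm ?_ (hclass _ hp)
  rw [hqF, hv]
  have h := card_classOf_singular hQ hQp
  linarith


theorem minus_min_index {q : ℕ} (hF : Fintype.card F = q) (m : ℕ) (hm : 4 ≤ m) (a b : F)
    (hab : ∀ z₁ z₂ : F, z₁ ^ 2 + a * z₁ * z₂ + b * z₂ ^ 2 = 0 → z₁ = 0 ∧ z₂ = 0) :
    (∀ H : Subgroup (POmega F (quadFormMinus (m - 1) F a b)), H ≠ ⊤ →
        (q ^ m + 1) * (q ^ (m - 1) - 1) / (q - 1) ≤ H.index) ∧
      ∃ H : Subgroup (POmega F (quadFormMinus (m - 1) F a b)),
        H.index = (q ^ m + 1) * (q ^ (m - 1) - 1) / (q - 1) := by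
  obtain ⟨k, rfl⟩ : ∃ k, m = k + 4 := ⟨m - 4, by omega⟩
  rw [show k + 4 - 1 = k + 3 by omega]
  set Q := quadFormMinus (k + 3) F a b with hQdef
  have hQ := CfsgLib.Classical.Orth.isNondegQF_quadFormMinus (k + 3) a b hab
  have hι : Fintype.card ((Fin (k + 3) ⊕ Fin (k + 3)) ⊕ Fin 2) = 2 * k + 8 := by simp; omega
  have hqF : Nat.card F = q := by rw [Nat.card_eq_fintype_card, hF]
  have hq : 2 ≤ q := hqF ▸ two_le_natCard
  obtain ⟨R, hRdef⟩ : ∃ R, R = q ^ (k + 2) := ⟨_, rfl⟩
  have hP : q ^ (k + 3) = q * R := by rw [hRdef]; ring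
  have hR : q ^ 2 ≤ R := hRdef ▸ Nat.pow_le_pow_right (by omega) (by omega)
  have hqP : q ^ (k + 4) = q * (q * R) := by rw [← hP]; ring
  generalize hvdef : (q ^ (k + 4) + 1) * (q ^ (k + 3) - 1) / (q - 1) = v
  have hv : (q - 1) * v = (q * (q * R) + 1) * (q * R - 1) := by
    rw [← hvdef, hP, hqP]
    refine Nat.mul_div_cancel' (Dvd.dvd.mul_left ?_ _)
    rw [← hP]
    simpa using Nat.sub_one_dvd_pow_sub_one q (k + 3)
  -- the counts
  have hZ : Nat.card {z // Q z = 0} + q * (q * R) = q * (q * R) ^ 2 + q * R := by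
    have h := CfsgLib.QuadZeros.card_zeros_minus hF (k + 4) (by omega) a b hab
    rw [show 2 * (k + 4) - 1 = 2 * (k + 3) + 1 by omega, show k + 4 - 1 = k + 3 by omega] at h
    rw [hQdef, h, hqP, pow_succ, mul_comm 2 (k + 3), pow_mul, hP,
      Nat.sub_add_cancel (le_add_right (by rw [mul_comm q]; exact Nat.mul_le_mul_right q (Nat.le_self_pow two_ne_zero _)))]
    ring
  have hval : ∀ t : F, t ≠ 0 → Nat.card {z // Q z = t} = q * (q * R) ^ 2 + q * R := fun t ht => by
    rw [hQdef, card_minus_value (k + 3) a b hab ht, hF, pow_succ, mul_comm 2 (k + 3), pow_mul, hP]; ring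
  exact minus_generic hQ hι hqF hRdef hv (fun W hW => AutOrthMinus.minus_ts_le hab hW) hZ hval
    (p := Pi.single (Sum.inl (Sum.inl 0)) 1) (by simp) (by simp [hQdef, quadFormMinus])

end CfsgLib.MinIndexOrth
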