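import Mathlib

/-! The numerical inequalities for odd dimension. -/

set_option autoImplicit false

namespace CfsgLib.MinIndexOrth

section Integers

variable {q t : ℤ}

private lemma odd_big_one (hq : 5 ≤ q) (ht : 1 ≤ t) :
    q * (q ^ 6 * t ^ 2 - 1) * (q ^ 3 * t) ≤ 2 * ((q ^ 5 * t ^ 2 - q) * ((q - 1) ^ 2 * (q ^ 3 * t ^ 2 + q ^ 2))) := by
  have hq0 : (0 : ℤ) ≤ q := by linarith
  have h1 : 7 * q ^ 2 ≤ 11 * (q - 1) ^ 2 := by nlinarith
  have h2 : q ^ 4 * t ^ 2 * 624 ≤ 625 * (q ^ 4 * t ^ 2 - 1) := by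
    have : (625 : ℤ) ≤ q ^ 4 := by nlinarith [pow_le_pow_left₀ (by norm_num : (0 : ℤ) ≤ 5) hq 4]
    nlinarith [mul_le_mul this (one_le_pow₀ ht (n := 2)) zero_le_one (by positivity)]
  have hA : 0 ≤ q ^ 4 * t ^ 2 - 1 := by nlinarith [mul_nonneg (pow_nonneg hq0 4) (sq_nonneg t)]
  have key : q ^ 6 * t ^ 2 ≤ 2 * ((q - 1) ^ 2 * (q ^ 4 * t ^ 2 - 1)) := by
    have h3 := mul_le_mul h1 h2 (by positivity) (by positivity)
    have : 0 ≤ q ^ 6 * t ^ 2 := by positivity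
    nlinarith
  have ht2 : t ≤ t ^ 2 := by nlinarith
  calc q * (q ^ 6 * t ^ 2 - 1) * (q ^ 3 * t) ≤ q ^ 4 * t ^ 2 * (q ^ 6 * t) := by
        nlinarith [mul_nonneg (pow_nonneg hq0 4) (le_trans zero_le_one ht)]
    _ ≤ q ^ 4 * t ^ 2 * (q ^ 6 * t ^ 2) := by gcongr
    _ ≤ q ^ 4 * t ^ 2 * (2 * ((q - 1) ^ 2 * (q ^ 4 * t ^ 2 - 1))) := by gcongr
    _ ≤ _ := by nlinarith [mul_nonneg (mul_nonneg hA (sq_nonneg (q - 1))) (pow_nonneg hq0 3)]

private lemma odd_big_two (hq : 5 ≤ q) (ht : q ≤ t) :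
    q * (q ^ 6 * t ^ 2 - 1) * ((q ^ 3 * t - q) * (q ^ 3 * t - q ^ 2)) ≤
      q ^ 3 * t * ((q ^ 5 * t ^ 2 - q) * ((q - 1) ^ 2 * (q ^ 3 * t ^ 2 + q ^ 2))) := by
  have hq0 : (0 : ℤ) ≤ q := by linarith
  have ht5 : (5 : ℤ) ≤ t := by linarith
  have ht0 : (0 : ℤ) ≤ t := by linarith
  have h1 : 7 * q ^ 2 ≤ 11 * (q - 1) ^ 2 := by nlinarith
  have h2 : q ^ 4 * t ^ 2 * 624 ≤ 625 * (q ^ 4 * t ^ 2 - 1) := by
    have : (625 : ℤ) ≤ q ^ 4 := by nlinarith [pow_le_pow_left₀ (by norm_num : (0 : ℤ) ≤ 5) hq 4]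
    nlinarith [mul_le_mul this (one_le_pow₀ (show (1 : ℤ) ≤ t by linarith) (n := 2)) zero_le_one (by positivity)]
  have hA : 0 ≤ q ^ 4 * t ^ 2 - 1 := by nlinarith [mul_nonneg (pow_nonneg hq0 4) (sq_nonneg t)]
  have key : q ^ 6 * t ≤ (q - 1) ^ 2 * (q ^ 4 * t ^ 2 - 1) := by
    have h3 := mul_le_mul h1 h2 (by positivity) (by positivity)
    have h4 : q ^ 6 * t * 5 ≤ q ^ 6 * t * t := mul_le_mul_of_nonneg_left ht5 (by positivity)
    nlinarith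
  have hP : q ^ 2 ≤ q ^ 3 * t := by nlinarith [mul_le_mul_of_nonneg_left ht5 (pow_nonneg hq0 3)]
  have hb : (q ^ 3 * t - q) * (q ^ 3 * t - q ^ 2) ≤ q ^ 3 * t * (q ^ 3 * t) :=
    mul_le_mul (by linarith) (by linarith [sq_nonneg q]) (by linarith) (by positivity)
  calc q * (q ^ 6 * t ^ 2 - 1) * ((q ^ 3 * t - q) * (q ^ 3 * t - q ^ 2)) ≤
        q * (q ^ 6 * t ^ 2) * (q ^ 3 * t * (q ^ 3 * t)) := by
        refine mul_le_mul ?_ hb ?_ (by positivity)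
        · exact mul_le_mul_of_nonneg_left (by linarith) hq0
        · exact mul_nonneg (by nlinarith) (by linarith)
    _ = q ^ 7 * t ^ 3 * (q ^ 6 * t) := by ring
    _ ≤ q ^ 7 * t ^ 3 * ((q - 1) ^ 2 * (q ^ 4 * t ^ 2 - 1)) := by gcongr
    _ ≤ _ := by
      nlinarith [mul_nonneg (mul_nonneg hA (sq_nonneg (q - 1))) (mul_nonneg (pow_nonneg hq0 6) ht0)]

private lemma odd_three_one (ht : 1 ≤ t) :
    3 * (27 * t * (27 * t - 1)) * (27 * t) ≤ 2 * (2 * ((243 * t ^ 2 - 3) * (2 * (27 * t ^ 2) + 18))) := by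
  have h1 : 27 * t * (27 * t - 1) ≤ 729 * t ^ 2 := by nlinarith
  have h2 := mul_le_mul_of_nonneg_right h1 (show (0 : ℤ) ≤ 81 * t by linarith)
  rcases (show t = 1 ∨ 2 ≤ t by omega) with rfl | h
  · norm_num
  · nlinarith [mul_le_mul_of_nonneg_left h (pow_nonneg (show (0 : ℤ) ≤ t by linarith) 3), sq_nonneg t]

private lemma odd_three_two (ht : 1 ≤ t) (ht3 : t = 1 ∨ 3 ≤ t) :
    3 * (27 * t * (27 * t - 1)) * ((27 * t - 3) * (27 * t - 9)) ≤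
      2 * (27 * t * ((243 * t ^ 2 - 3) * (2 * (27 * t ^ 2) + 18))) := by
  rcases ht3 with rfl | h
  · norm_num
  · have h0 : (0 : ℤ) ≤ t := by linarith
    nlinarith [mul_le_mul_of_nonneg_left h (pow_nonneg h0 4), mul_le_mul_of_nonneg_left h (pow_nonneg h0 2),
      pow_nonneg h0 3, sq_nonneg t]

end Integers

variable {q t v N : ℕ}

/-- The inequalities over at least five elements. -/
theorem odd_arith_big (hq : 5 ≤ q) (ht : 1 ≤ t) (hv : (q - 1) * v + 1 = q ^ 6 * t ^ 2)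
    (hN : N + q = q ^ 5 * t ^ 2) :
    q * v * (q ^ 3 * t) ≤ 2 * (N * ((q - 1) * (q ^ 3 * t ^ 2) + (q - 1) * q ^ 2)) ∧
      (q ≤ t → q * v * ((q ^ 3 * t - q) * (q ^ 3 * t - q ^ 2)) ≤
        q ^ 3 * t * (N * ((q - 1) * (q ^ 3 * t ^ 2) + (q - 1) * q ^ 2))) := by
  have hq' : (5 : ℤ) ≤ q := by exact_mod_cast hq
  have ht' : (1 : ℤ) ≤ t := by exact_mod_cast ht
  have hv' : ((q : ℤ) - 1) * v = q ^ 6 * t ^ 2 - 1 := by
    have := congrArg (fun z : ℕ => (z : ℤ)) hv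
    push_cast [Nat.cast_sub (show 1 ≤ q by omega)] at this
    linarith
  have hN' : (N : ℤ) = q ^ 5 * t ^ 2 - q := by
    have := congrArg (fun z : ℕ => (z : ℤ)) hN
    push_cast at this
    linarith
  refine ⟨?_, fun htq => ?_⟩
  · zify [show 1 ≤ q by omega]
    refine le_of_mul_le_mul_left (a := (q : ℤ) - 1) ?_ (by omega)
    rw [show ((q : ℤ) - 1) * (q * v * (q ^ 3 * t)) = q * (((q : ℤ) - 1) * v) * (q ^ 3 * t) by ring, hv', hN']
    linarith [odd_big_one hq' ht']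
  · have hP1 : q ^ 2 ≤ q ^ 3 * t :=
      (Nat.pow_le_pow_right (by omega) (by norm_num)).trans (Nat.le_mul_of_pos_right _ (by omega))
    have hP2 : q ≤ q ^ 3 * t := (Nat.le_self_pow two_ne_zero q).trans hP1
    zify [show 1 ≤ q by omega, hP1, hP2]
    refine le_of_mul_le_mul_left (a := (q : ℤ) - 1) ?_ (by omega)
    rw [show ((q : ℤ) - 1) * (q * v * ((q ^ 3 * t - q) * (q ^ 3 * t - q ^ 2))) =
      q * (((q : ℤ) - 1) * v) * ((q ^ 3 * t - q) * (q ^ 3 * t - q ^ 2)) by ring, hv', hN']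
    linarith [odd_big_two hq' (show (q : ℤ) ≤ t by exact_mod_cast htq)]

/-- The inequalities over three elements. -/
theorem odd_arith_three (ht : 1 ≤ t) (ht3 : t = 1 ∨ 3 ≤ t) (hv : 2 * v + 27 * t = (27 * t) * (27 * t))
    (hN : N + 3 = 243 * t ^ 2) :
    3 * v * (27 * t) ≤ 2 * (N * (2 * (27 * t ^ 2) + 18)) ∧
      3 * v * ((27 * t - 3) * (27 * t - 9)) ≤ 27 * t * (N * (2 * (27 * t ^ 2) + 18)) := by
  have ht' : (1 : ℤ) ≤ t := by exact_mod_cast ht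
  have hv' : 2 * (v : ℤ) = 27 * t * (27 * t - 1) := by
    have := congrArg (fun z : ℕ => (z : ℤ)) hv
    push_cast at this
    linarith
  have hN' : (N : ℤ) = 243 * t ^ 2 - 3 := by
    have := congrArg (fun z : ℕ => (z : ℤ)) hN
    push_cast at this
    linarith
  refine ⟨?_, ?_⟩
  · zify
    have h := odd_three_one ht'
    rw [← hv', ← hN'] at h
    linarith
  · zify [show 3 ≤ 27 * t by omega, show 9 ≤ 27 * t by omega]
    have h := odd_three_two ht' (by exact_mod_cast ht3)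
    rw [← hv', ← hN'] at h
    linarith

end CfsgLib.MinIndexOrth
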