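import Cfsg.Agent.MinIndexOrth.ThreeSeven
import Cfsg.Agent.MinIndexOrth.MaxSeven
import Cfsg.Agent.MinIndexOrth.StdCount
import Cfsg.Agent.MinIndexOrth.OddArith
import Cfsg.Agent.OrthGeo.QuadOdd

/-! The least index of a proper subgroup of the odd-dimensional orthogonal groups. -/

set_option autoImplicit false
set_option linter.unusedSectionVars false

namespace CfsgLib.MinIndexOrth

open Cfsg Cfsg.Geo CfsgLib.OrthGeo Module
open scoped Matrix MatrixGroups

variable {ι : Type} [Fintype ι] [DecidableEq ι] {F : Type*} [Field F] [Finite F]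
variable {Q : (ι → F) → F}

/-- The counts of vectors in odd dimension. -/
structure OddData (hQ : IsNondegenerateQuadraticForm Q) (q k : ℕ) : Prop where
  dim : Fintype.card ι = 2 * k + 7
  size : Nat.card F = q
  witt : ∀ W : Submodule F (ι → F), IsTotallySingularQuad Q W → finrank F W ≤ k + 3
  zeros : Nat.card {z // Q z = 0} = q * q ^ (2 * k + 5)
  values : ∀ t : F, t ≠ 0 → q * q ^ (2 * k + 5) ≤ Nat.card {z // Q z = t} + q ^ (k + 3)

section generic

variable {hQ : IsNondegenerateQuadraticForm Q} {q k : ℕ} (D : OddData hQ q k)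
include D

lemma OddData.q_ge : 2 ≤ q := D.size ▸ two_le_natCard

lemma OddData.slice : (Nat.card F - 1) * Nat.card F ^ (Fintype.card ι - 2) = (q - 1) * q ^ (2 * k + 5) := by
  rw [D.size, D.dim, show 2 * k + 7 - 2 = 2 * k + 5 by omega]

lemma OddData.mul_eq : q * q ^ (2 * k + 5) = (q - 1) * q ^ (2 * k + 5) + q ^ (2 * k + 5) := by
  have := D.q_ge
  rw [← Nat.succ_mul, show (q - 1).succ = q by omega]

lemma OddData.singles {u : ι → F} (hu : Q u = 0) (hu0 : u ≠ 0) :
    Nat.card {z // singPerp hQ u z} + q = q ^ (2 * k + 5) := by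
  have h := card_singPerp hQ hu hu0
  rw [D.slice, D.size, D.zeros, D.mul_eq] at h
  omega

lemma OddData.le_pow : 25 ≤ q ^ 2 → 25 * q ^ (k + 3) ≤ q ^ (2 * k + 5) := fun h => by
  have := D.q_ge
  calc 25 * q ^ (k + 3) ≤ q ^ (k + 2) * q ^ (k + 3) :=
        Nat.mul_le_mul_right _ (h.trans (Nat.pow_le_pow_right (by omega) (by omega)))
    _ = _ := by rw [← pow_add]; congr 1; omega

lemma OddData.perp_class {u : ι → F} (hu : Q u = 0) (hu0 : u ≠ 0) {s : F} (hs : s ≠ 0) :
    q ^ (2 * k + 5) ≤ Nat.card {z // bform hQ u z = 0 ∧ SameClass Q s z} + q ^ (k + 3) ∧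
      (q - 1) * (q ^ (2 * k + 5) - q ^ (k + 3)) ≤
        2 * Nat.card {z // bform hQ u z = 0 ∧ SameClass Q s z} := by
  have hle : q ^ (k + 3) ≤ q ^ (2 * k + 5) := Nat.pow_le_pow_right (by have := D.q_ge; omega) (by omega)
  obtain ⟨h1, h2⟩ := card_class_perp_ge hQ hu hu0 hs (L := q ^ (2 * k + 5) - q ^ (k + 3)) fun t ht => by
    have h := D.values t ht
    rw [D.mul_eq] at h
    rw [D.slice]
    omega
  rw [D.size] at h2
  exact ⟨by omega, h2⟩

/-- Odd dimension over at least five elements. -/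
theorem odd_generic_big (hq5 : 5 ≤ q) (h2 : (2 : F) ≠ 0) {v : ℕ} (hv : (q - 1) * v + 1 = q * q ^ (2 * k + 5))
    {p : ι → F} (hp : p ≠ 0) (hQp : Q p = 0) :
    (∀ H : Subgroup (POmega F Q), H ≠ ⊤ → v ≤ H.index) ∧ ∃ H : Subgroup (POmega F Q), H.index = v := by
  have h25 : 25 ≤ q ^ 2 := by nlinarith
  have hPS := D.le_pow h25
  have hP1 : 1 ≤ q ^ (k + 3) := Nat.one_le_pow _ _ (by omega)
  have hv2 : v ≤ 2 * q ^ (2 * k + 5) := by
    refine le_of_mul_le_mul_left (a := q - 1) ?_ (by omega)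
    have : q * q ^ (2 * k + 5) ≤ (q - 1) * (2 * q ^ (2 * k + 5)) := by
      rw [← mul_assoc]; exact Nat.mul_le_mul_right _ (by omega)
    omega
  have hv2' : v ≤ 2 * Nat.card F ^ (Fintype.card ι - 2) := by
    rw [D.size, D.dim, show 2 * k + 7 - 2 = 2 * k + 5 by omega]; exact hv2
  have hclass : ∀ r : ι → F, r ≠ 0 → (Nat.card F - 1) * v ≤ Nat.card {z // ClassOf Q r z} := by
    intro r hr
    rw [D.size]
    by_cases hQr : Q r = 0
    · have h := card_classOf_singular hQ hQr
      rw [D.zeros] at h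
      omega
    · have h := (card_class_univ_ge hQ hQr (L := q * q ^ (2 * k + 5) - q ^ (k + 3)) fun t ht => by
        have := D.values t ht; omega).2
      rw [D.size] at h
      rw [card_classOf_nonsingular hQ hQr]
      have h4 := (Nat.mul_le_mul_right (q * q ^ (2 * k + 5) - q ^ (k + 3)) (show 4 ≤ q - 1 by omega)).trans h
      have : q ^ (2 * k + 5) ≤ q * q ^ (2 * k + 5) := Nat.le_mul_of_pos_left _ (by omega)
      omega
  have hlow : ∀ K : Subgroup (omegaGL Q), K ≠ ⊤ → v ≤ K.index := by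
    intro K hK
    have : Nontrivial (omegaGL Q ⧸ K) := QuotientGroup.nontrivial_iff.2 hK
    have hn : 7 ≤ Fintype.card ι := by rw [D.dim]; omega
    refine card_ge hQ (X := omegaGL Q ⧸ K) hn ?_ hv2' hclass fun hXv => ?_
    · by_cases hk : k = 0
      · exact Or.inr (Or.inl fun W hW => (D.witt W hW).trans (by omega))
      · exact Or.inl (by rw [D.dim]; omega)
    refine dichot_of hQ hn (Or.inl h2) hXv hv2' (fun u hu hu0 s hs => ⟨?_, fun hq2 => ?_⟩)
      (fun _ _ _ _ _ _ _ h3 _ => absurd h3 (by rw [D.size]; omega)) (fun x u hu hu0 hsing => Or.inr ?_)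
    · obtain ⟨-, h⟩ := D.perp_class hu hu0 hs
      rw [D.size]
      refine le_of_mul_le_mul_left (a := q - 1) ?_ (by omega)
      zify [show 1 ≤ q by omega, show q ^ (k + 3) ≤ q ^ (2 * k + 5) by omega] at h hv ⊢
      zify at hPS
      have h24 : 24 * (q : ℤ) ^ (2 * k + 5) ≤ 25 * ((q : ℤ) ^ (2 * k + 5) - (q : ℤ) ^ (k + 3)) := by linarith
      have hq' : (5 : ℤ) ≤ q := by exact_mod_cast hq5
      have hS0 : (0 : ℤ) ≤ (q : ℤ) ^ (2 * k + 5) := by positivity
      have e1 : 50 * (q : ℤ) ^ 2 ≤ 120 * ((q : ℤ) - 1) ^ 2 := by nlinarith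
      have e2 := mul_le_mul_of_nonneg_right e1 hS0
      have e3 := mul_le_mul_of_nonneg_left h24 (show (0 : ℤ) ≤ 5 * ((q : ℤ) - 1) ^ 2 by positivity)
      have e4 := mul_le_mul_of_nonneg_left h (show (0 : ℤ) ≤ 125 * ((q : ℤ) - 1) by linarith)
      have e5 : ((q : ℤ) - 1) * (q * v) ≤ q * (q * (q : ℤ) ^ (2 * k + 5)) := by
        rw [show ((q : ℤ) - 1) * (q * v) = q * (((q : ℤ) - 1) * v) by ring]
        exact mul_le_mul_of_nonneg_left (by linarith) (by linarith)
      linarith
    · rw [D.size] at hq2; omega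
    · obtain ⟨N, hN⟩ : ∃ N, N = Nat.card {z // singPerp hQ u z} := ⟨_, rfl⟩
      have hNe : N + q = q ^ 5 * (q ^ k) ^ 2 := by
        rw [hN, D.singles hu hu0, ← pow_mul, ← pow_add]; congr 1; omega
      have hve : (q - 1) * v + 1 = q ^ 6 * (q ^ k) ^ 2 := by
        rw [hv, ← pow_mul, ← pow_add, ← pow_succ']; congr 1; omega
      obtain ⟨hn1, hn2⟩ := odd_arith_big hq5 (Nat.one_le_pow k q (by omega)) hve hNe
      have hO : (Nat.card F - 1) * Nat.card F ^ (Fintype.card ι - 4) + (Nat.card F - 1) * Nat.card F ^ 2 =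
          (q - 1) * (q ^ 3 * (q ^ k) ^ 2) + (q - 1) * q ^ 2 := by
        rw [D.size, D.dim, ← pow_mul, ← pow_add, show 2 * k + 7 - 4 = 3 + k * 2 by omega]
      have hM : Nat.card F ^ (k + 3) = q ^ 3 * q ^ k := by rw [D.size, ← pow_add, add_comm]
      rcases classify_singular hQ hn hXv D.witt hu hu0 hN.le
          (by rw [hO, hM, D.size]; exact hn1) hsing with h | ⟨hcard, hclosed, hts, h3⟩
      · exact h
      · exfalso
        by_cases hk : k = 0
        · subst hk
          refine no_max_seven hQ D.dim (D.size.symm ▸ hq5) hXv ?_ D.witt ?_ ?_ hu hu0 hcard hts hclosed h3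
          · rw [D.size, hv]; ring
          · intro u' hu' hu'0
            rw [D.size]; exact D.singles hu' hu'0
          · intro u' hu' hu'0 s hs
            rw [D.size]; exact (D.perp_class hu' hu'0 hs).1
        · refine not_max hQ hn hXv hu hu0 hN.le ?_ ?_ hcard hclosed hts h3
          · rw [hO, hM, D.size]
            exact hn2 (by calc q = q ^ 1 := (pow_one q).symm
              _ ≤ q ^ k := Nat.pow_le_pow_right (by omega) (by omega))
          · have h5 : q ^ 1 < q ^ (2 * k + 5) := Nat.pow_lt_pow_right (by omega) (by omega)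
            have hs' := D.singles hu hu0
            rw [pow_one] at h5
            omega
  refine pomega_min_index hQ (by rw [D.dim]; omega) hlow hp ?_
  have h := card_classOf_singular hQ hQp
  rw [D.zeros] at h
  rw [D.size]
  omega

/-- Odd dimension over three elements. -/
theorem odd_generic_three (hq3 : q = 3) (h2 : (2 : F) ≠ 0) {v : ℕ}
    (hv : 2 * v + q ^ (k + 3) = q * q ^ (2 * k + 5))
    {p : ι → F} (hp : p ≠ 0) (hQp : Q p ≠ 0)
    (hpc : Nat.card {z // SameClass Q (Q p) z} + q ^ (k + 3) = q * q ^ (2 * k + 5)) :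
    (∀ H : Subgroup (POmega F Q), H ≠ ⊤ → v ≤ H.index) ∧ ∃ H : Subgroup (POmega F Q), H.index = v := by
  have hsz := D.size
  subst hq3
  have hPS : 9 * 3 ^ (k + 3) ≤ 3 ^ (2 * k + 5) := by
    calc 9 * 3 ^ (k + 3) = 3 ^ (k + 5) := by rw [show k + 5 = (k + 3) + 2 by omega, pow_add 3 (k + 3)]; norm_num; ring
      _ ≤ _ := Nat.pow_le_pow_right (by norm_num) (by omega)
  have hP1 : 1 ≤ 3 ^ (k + 3) := Nat.one_le_pow _ _ (by norm_num)
  have hv2' : v ≤ 2 * Nat.card F ^ (Fintype.card ι - 2) := by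
    rw [hsz, D.dim, show 2 * k + 7 - 2 = 2 * k + 5 by omega]; omega
  have hclass : ∀ r : ι → F, r ≠ 0 → (Nat.card F - 1) * v ≤ Nat.card {z // ClassOf Q r z} := by
    intro r hr
    rw [hsz]
    by_cases hQr : Q r = 0
    · have h := card_classOf_singular hQ hQr
      rw [D.zeros] at h
      omega
    · have h := (card_class_univ_ge hQ hQr (L := 3 * 3 ^ (2 * k + 5) - 3 ^ (k + 3)) fun t ht => by
        have := D.values t ht; omega).1
      rw [card_classOf_nonsingular hQ hQr]
      omega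
  have hlow : ∀ K : Subgroup (omegaGL Q), K ≠ ⊤ → v ≤ K.index := by
    intro K hK
    have : Nontrivial (omegaGL Q ⧸ K) := QuotientGroup.nontrivial_iff.2 hK
    have hn : 7 ≤ Fintype.card ι := by rw [D.dim]; omega
    refine card_ge hQ (X := omegaGL Q ⧸ K) hn ?_ hv2' hclass fun hXv => ?_
    · by_cases hk : k = 0
      · exact Or.inr (Or.inl fun W hW => (D.witt W hW).trans (by omega))
      · exact Or.inl (by rw [D.dim]; omega)
    refine dichot_of hQ hn (Or.inl h2) hXv hv2' (fun u hu hu0 s hs => ⟨?_, fun hq2 => ?_⟩)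
      (fun x u a hu hu0 haA ha _ h7 hU => ?_) (fun x u hu hu0 hsing => Or.inr ?_)
    · obtain ⟨h, -⟩ := D.perp_class hu hu0 hs
      rw [hsz]
      have h81 : 21 * 3 ^ (k + 3) ≤ 3 * 3 ^ (2 * k + 5) := by omega
      omega
    · rw [hsz] at hq2; omega
    · have hk : k = 0 := by have := D.dim; omega
      subst hk
      refine no_three_seven hQ hsz h7 (by norm_num at hv; omega) (fun u' hu' hu'0 => ?_)
        (fun u' hu' hu'0 s hs => ?_) x u a hu hu0 haA ha hU
      · have := D.singles hu' hu'0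
        norm_num [-bform_apply] at this
        omega
      · have := (D.perp_class hu' hu'0 hs).1
        norm_num [-bform_apply] at this
        omega
    · obtain ⟨N, hN⟩ : ∃ N, N = Nat.card {z // singPerp hQ u z} := ⟨_, rfl⟩
      have hNe : N + 3 = 243 * (3 ^ k) ^ 2 := by
        rw [hN, D.singles hu hu0, ← pow_mul, show 2 * k + 5 = 5 + k * 2 by omega, pow_add]; norm_num
      have hP : 3 ^ (k + 3) = 27 * 3 ^ k := by rw [pow_add]; norm_num; ring
      have hve : 2 * v + 27 * 3 ^ k = (27 * 3 ^ k) * (27 * 3 ^ k) := by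
        rw [← hP, hv, ← pow_succ', ← pow_add]; congr 1; omega
      have ht3 : 3 ^ k = 1 ∨ 3 ≤ 3 ^ k := by
        rcases Nat.eq_zero_or_pos k with rfl | hk
        · exact Or.inl rfl
        · exact Or.inr (Nat.le_self_pow (by omega) 3)
      obtain ⟨hn1, hn2⟩ := odd_arith_three (Nat.one_le_pow k 3 (by norm_num)) ht3 hve hNe
      have hO : (Nat.card F - 1) * Nat.card F ^ (Fintype.card ι - 4) + (Nat.card F - 1) * Nat.card F ^ 2 =
          2 * (27 * (3 ^ k) ^ 2) + 18 := by
        rw [hsz, D.dim, ← pow_mul, show 2 * k + 7 - 4 = 3 + k * 2 by omega, pow_add]; norm_num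
      have hM : Nat.card F ^ (k + 3) = 27 * 3 ^ k := by rw [hsz, hP]
      rcases classify_singular hQ hn hXv D.witt hu hu0 hN.le
          (by rw [hO, hM, hsz]; exact hn1) hsing with h | ⟨hcard, hclosed, hts, h3⟩
      · exact h
      · refine (not_max hQ hn hXv hu hu0 hN.le ?_ ?_ hcard hclosed hts h3).elim
        · rw [hO, hM, hsz]; exact hn2
        · have : 0 < (3 ^ k) ^ 2 := by positivity
          omega
  refine pomega_min_index hQ (by rw [D.dim]; omega) hlow hp ?_
  rw [card_classOf_nonsingular hQ hQp, hsz]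
  omega

end generic

variable {K : Type*} [Field K] [Fintype K]

theorem odd_data {q : ℕ} (hF : Fintype.card K = q) (k : ℕ) (h2 : (2 : K) ≠ 0) :
    OddData (OrthGeo.isNondegenerateQuadraticForm_quadFormOdd (k + 3) h2) q k where
  dim := by simp; omega
  size := by rw [Nat.card_eq_fintype_card, hF]
  witt W hW := by
    have := two_mul_finrank_le (OrthGeo.isNondegenerateQuadraticForm_quadFormOdd (k + 3) h2) hW
    simp at this
    omega
  zeros := by rw [CfsgLib.QuadZeros.card_zeros_odd hF (k + 3), ← pow_succ']; congr 1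
  values t _ := by
    have h := card_odd_value_ge (k + 3) t
    rw [hF] at h
    rwa [← pow_succ', show 2 * k + 5 + 1 = 2 * (k + 3) by omega]

theorem two_ne_zero_of_odd (hodd : Odd (Fintype.card K)) : (2 : K) ≠ 0 := by
  intro h2
  have h1 : ((Fintype.card K : ℕ) : K) = 0 := Nat.cast_card_eq_zero K
  obtain ⟨r, hr⟩ := hodd
  rw [hr] at h1
  push_cast at h1
  rw [h2, zero_mul, zero_add] at h1
  exact one_ne_zero h1

theorem odd_min_index {q : ℕ} (hF : Fintype.card K = q) (hodd : Odd q) (h5 : 5 ≤ q) (m : ℕ) (hm : 3 ≤ m) :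
    (∀ H : Subgroup (POmega K (quadFormOdd m K)), H ≠ ⊤ → (q ^ (2 * m) - 1) / (q - 1) ≤ H.index) ∧
      ∃ H : Subgroup (POmega K (quadFormOdd m K)), H.index = (q ^ (2 * m) - 1) / (q - 1) := by
  obtain ⟨k, rfl⟩ : ∃ k, m = k + 3 := ⟨m - 3, by omega⟩
  have h2 : (2 : K) ≠ 0 := two_ne_zero_of_odd (hF ▸ hodd)
  have hd : (q - 1) ∣ q ^ (2 * (k + 3)) - 1 := Nat.sub_one_dvd_pow_sub_one q _
  refine odd_generic_big (odd_data hF k h2) h5 h2 ?_ (p := Pi.single (Sum.inr (Sum.inl 0)) 1) (by simp)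
    (by simp [quadFormOdd])
  rw [Nat.mul_div_cancel' hd, Nat.sub_add_cancel (Nat.one_le_pow _ _ (by omega)), ← pow_succ']
  congr 1

theorem odd_min_index_three (hF : Fintype.card K = 3) (m : ℕ) (hm : 3 ≤ m) :
    (∀ H : Subgroup (POmega K (quadFormOdd m K)), H ≠ ⊤ → 3 ^ m * (3 ^ m - 1) / 2 ≤ H.index) ∧
      ∃ H : Subgroup (POmega K (quadFormOdd m K)), H.index = 3 ^ m * (3 ^ m - 1) / 2 := by
  obtain ⟨k, rfl⟩ : ∃ k, m = k + 3 := ⟨m - 3, by omega⟩
  have h3 : Nat.card K = 3 := by rw [Nat.card_eq_fintype_card, hF]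
  have h2 : (2 : K) ≠ 0 := two_ne_zero_of_odd (hF ▸ by decide)
  let p : Unit ⊕ (Fin (k + 3) ⊕ Fin (k + 3)) → K :=
    Pi.single (Sum.inr (Sum.inl 0)) 1 + Pi.single (Sum.inr (Sum.inr 0)) (-1)
  have hQp : quadFormOdd (k + 3) K p = -1 := by
    simp [quadFormOdd, p, Pi.single_apply]
  have hp0 : p ≠ 0 := fun h => by
    rw [h] at hQp
    simp [quadFormOdd] at hQp
  have hroot : IsEmpty {z : K // z ^ 2 = -1} := ⟨fun ⟨z, hz⟩ => by
    rcases zero_one_neg_one h3 z with rfl | rfl | rfl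
    · simp at hz
    · exact h2 (by linear_combination hz)
    · exact h2 (by linear_combination hz)⟩
  have hclass : ∀ z, SameClass (quadFormOdd (k + 3) K) (quadFormOdd (k + 3) K p) z ↔
      quadFormOdd (k + 3) K z = -1 := fun z => by
    rw [hQp]
    constructor
    · rintro ⟨c, hc, hz⟩
      rcases zero_one_neg_one h3 c with rfl | rfl | rfl
      · exact absurd rfl hc
      · rw [hz]; ring
      · rw [hz]; ring
    · exact fun h => ⟨1, one_ne_zero, by rw [h]; ring⟩
  refine odd_generic_three (odd_data hF k h2) rfl h2 ?_ hp0 (by rw [hQp]; simp) ?_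
  · have he : Even (3 ^ (k + 3) * (3 ^ (k + 3) - 1)) :=
      (Nat.Odd.sub_odd (Odd.pow (by decide)) odd_one).mul_left _
    rw [Nat.two_mul_div_two_of_even he, Nat.mul_sub, mul_one,
      Nat.sub_add_cancel (Nat.le_mul_self _), ← pow_add, ← pow_succ']
    congr 1; omega
  · rw [Nat.card_congr (Equiv.subtypeEquivRight hclass)]
    have h := card_odd_value (F := K) (k + 3) (-1)
    rw [Nat.card_of_isEmpty (α := {z : K // z ^ 2 = -1}), mul_zero, add_zero, hF] at h
    rw [h, ← pow_succ']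
    congr 1

end CfsgLib.MinIndexOrth
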