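import Cfsg.Agent.MinIndexOrth.Singular

/-! Pairs of orthogonal singular vectors: the stabiliser of a singular pair moves all the singular vectors
outside the pair and perpendicular to it into each other. -/

set_option autoImplicit false
set_option linter.unusedSectionVars false

namespace CfsgLib.MinIndexOrth

open Cfsg.Geo CfsgLib.OrthGeo Module
open scoped Matrix MatrixGroups

variable {ι : Type} [Fintype ι] [DecidableEq ι] {F : Type*} [Field F] [Finite F]
variable {Q : (ι → F) → F}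
variable (hQ : IsNondegenerateQuadraticForm Q)
include hQ

/-- One orbit on the singular vectors over a singular pair. -/
theorem move_singular_all (hn : 7 ≤ Fintype.card ι) {u z : ι → F} (hu : Q u = 0) (hu0 : u ≠ 0) (hQz : Q z = 0)
    (huz : bform hQ u z = 0) (hzu : z ∉ Submodule.span F {u}) {y w : ι → F} (hQy : Q y = 0)
    (hyP : y ∈ perp hQ (Submodule.span F {u} ⊔ Submodule.span F {z}))
    (hyS : y ∉ Submodule.span F {u} ⊔ Submodule.span F {z}) (hQw : Q w = 0)
    (hwP : w ∈ perp hQ (Submodule.span F {u} ⊔ Submodule.span F {z}))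
    (hwS : w ∉ Submodule.span F {u} ⊔ Submodule.span F {z}) :
    Move Q (Submodule.span F {u} ⊔ Submodule.span F {z}) y w := by
  classical
  have := Fintype.ofFinite F
  set S := Submodule.span F {u} ⊔ Submodule.span F {z} with hS
  -- the hyperbolic frame
  have huu := b_self_eq_zero hQ hu
  have hzz := b_self_eq_zero hQ hQz
  have hzu' : bform hQ z u = 0 := by rw [b_symm hQ]; exact huz
  obtain ⟨v, hv, huv, hzv⟩ : ∃ v, Q v = 0 ∧ bform hQ u v = 1 ∧ bform hQ z v = 0 := by
    obtain ⟨v, -, hvz, huv⟩ := exists_b_one_mem hQ (S := ⊤) (T := Submodule.span F {z}) (v := u) (by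
      intro h
      obtain ⟨_, hb, w, hw, e⟩ := Submodule.mem_sup.1 h
      obtain ⟨r, rfl⟩ := Submodule.mem_span_singleton.1 hb
      have hw0 : w = 0 := (b_nondeg hQ).1 w fun t => by
        rw [b_symm hQ]; exact hw t Submodule.mem_top
      rw [hw0, add_zero] at e
      by_cases hr : r = 0
      · exact hu0 (by rw [← e, hr, zero_smul])
      · exact hzu (Submodule.mem_span_singleton.2 ⟨r⁻¹, by rw [← e, inv_smul_smul₀ hr]⟩))
    rw [mem_perp_span_singleton hQ] at hvz
    refine ⟨v - Q v • u, ?_, ?_, ?_⟩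
    · rw [q_sub hQ, q_smul hQ, hu, map_smul, smul_eq_mul, b_symm hQ v u, huv]; ring
    · rw [map_sub, map_smul, huu, huv, smul_zero, sub_zero]
    · rw [map_sub, map_smul, hvz, hzu', smul_zero, sub_zero]
  have hvu : bform hQ v u = 1 := by rw [b_symm hQ]; exact huv
  have hvz : bform hQ v z = 0 := by rw [b_symm hQ]; exact hzv
  have hvv := b_self_eq_zero hQ hv
  obtain ⟨z', hz'Q, hzz', huz', hvz'⟩ : ∃ z', Q z' = 0 ∧ bform hQ z z' = 1 ∧ bform hQ u z' = 0 ∧
      bform hQ v z' = 0 := by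
    obtain ⟨p, hp, -, hzp⟩ := exists_b_one_mem hQ
      (S := perp hQ (Submodule.span F {u} ⊔ Submodule.span F {v})) (T := (⊥ : Submodule F (ι → F))) (v := z) (by
        rw [bot_sup_eq, perp_perp hQ]
        intro h
        obtain ⟨_, hb₁, _, hb₂, e⟩ := Submodule.mem_sup.1 h
        obtain ⟨r, rfl⟩ := Submodule.mem_span_singleton.1 hb₁
        obtain ⟨t, rfl⟩ := Submodule.mem_span_singleton.1 hb₂
        have h' := congrArg (bform hQ u) e
        rw [map_add, map_smul, map_smul, huu, huv, huz, smul_zero, zero_add, smul_eq_mul, mul_one] at h'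
        exact hzu (Submodule.mem_span_singleton.2 ⟨r, by rw [← e, h', zero_smul, add_zero]⟩))
    obtain ⟨hup, hvp⟩ := (mem_perp_pair hQ).1 hp
    refine ⟨p - Q p • z, ?_, ?_, ?_, ?_⟩
    · rw [q_sub hQ, q_smul hQ, hQz, map_smul, smul_eq_mul, b_symm hQ p z, hzp]; ring
    · rw [map_sub, map_smul, hzz, hzp, smul_zero, sub_zero]
    · rw [map_sub, map_smul, hup, huz, smul_zero, sub_zero]
    · rw [map_sub, map_smul, hvp, hvz, smul_zero, sub_zero]
  have hz'z : bform hQ z' z = 1 := by rw [b_symm hQ]; exact hzz'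
  have hz'u : bform hQ z' u = 0 := by rw [b_symm hQ]; exact huz'
  have hz'v : bform hQ z' v = 0 := by rw [b_symm hQ]; exact hvz'
  have hz'z' := b_self_eq_zero hQ hz'Q
  set P := Submodule.span F {u} ⊔ Submodule.span F {v} ⊔ (Submodule.span F {z} ⊔ Submodule.span F {z'}) with hP
  have hmemP : ∀ w, w ∈ perp hQ P ↔
      (bform hQ u w = 0 ∧ bform hQ v w = 0) ∧ bform hQ z w = 0 ∧ bform hQ z' w = 0 := fun w => by
    rw [hP, perp_sup hQ, Submodule.mem_inf, mem_perp_pair hQ, mem_perp_pair hQ]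
  have hproj : ∀ t, Q t = 0 → t ∈ perp hQ S → t ∉ S →
      t - bform hQ v t • u - bform hQ z' t • z ∈ perp hQ P ∧
        Q (t - bform hQ v t • u - bform hQ z' t • z) = 0 ∧ t - bform hQ v t • u - bform hQ z' t • z ≠ 0 := by
    intro t ht htP htS
    obtain ⟨hut, hzt⟩ := (mem_perp_pair hQ).1 htP
    refine ⟨(hmemP _).2 ⟨⟨?_, ?_⟩, ?_, ?_⟩, ?_, fun h => htS ?_⟩
    · simp only [map_sub, map_smul, hut, huu, huz, smul_zero, sub_zero]
    · simp only [map_sub, map_smul, hvu, hvz, smul_eq_mul, mul_one, mul_zero, sub_self, sub_zero]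
    · simp only [map_sub, map_smul, hzt, hzu', hzz, smul_zero, sub_zero]
    · simp only [map_sub, map_smul, hz'u, hz'z, smul_eq_mul, mul_one, mul_zero, sub_zero, sub_self]
    · simp only [q_sub hQ, q_smul hQ, ht, hu, hQz, map_sub, map_smul, LinearMap.sub_apply,
        LinearMap.smul_apply, b_symm hQ t u, b_symm hQ t z, hut, hzt, huz, smul_eq_mul]
      ring
    · rw [sub_sub, sub_eq_zero] at h
      rw [h]
      exact Submodule.add_mem _
        (Submodule.mem_sup_left (Submodule.smul_mem _ _ (Submodule.mem_span_singleton_self _)))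
        (Submodule.mem_sup_right (Submodule.smul_mem _ _ (Submodule.mem_span_singleton_self _)))
  -- partners inside the perp of the frame
  have hpart : ∀ f f' : ι → F, f ∈ perp hQ P → f' ∈ perp hQ P → Q f = 0 → f ∉ Submodule.span F {f'} →
      ∃ e ∈ perp hQ P, Q e = 0 ∧ bform hQ e f = 1 ∧ (bform hQ f f' = 0 → bform hQ e f' = 0) := by
    intro f f' hfP hf'P hfQ hff'
    obtain ⟨p, hp, -, hfp⟩ := exists_b_one_mem hQ (S := perp hQ (P ⊔ Submodule.span F {f'}))
      (T := (⊥ : Submodule F (ι → F))) (v := f) (by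
      rw [bot_sup_eq, perp_perp hQ]
      intro h
      obtain ⟨_, h', _, hb, e1⟩ := Submodule.mem_sup.1 h
      obtain ⟨_, h₁, _, h₂, rfl⟩ := Submodule.mem_sup.1 h'
      obtain ⟨_, hb₁, _, hb₂, rfl⟩ := Submodule.mem_sup.1 h₁
      obtain ⟨_, hb₃, _, hb₄, rfl⟩ := Submodule.mem_sup.1 h₂
      obtain ⟨r₁, rfl⟩ := Submodule.mem_span_singleton.1 hb₁
      obtain ⟨r₂, rfl⟩ := Submodule.mem_span_singleton.1 hb₂
      obtain ⟨r₃, rfl⟩ := Submodule.mem_span_singleton.1 hb₃
      obtain ⟨r₄, rfl⟩ := Submodule.mem_span_singleton.1 hb₄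
      obtain ⟨r₅, rfl⟩ := Submodule.mem_span_singleton.1 hb
      obtain ⟨⟨f1, f2⟩, f3, f4⟩ := (hmemP f).1 hfP
      obtain ⟨⟨g1, g2⟩, g3, g4⟩ := (hmemP f').1 hf'P
      rw [← e1] at f1 f2 f3 f4
      simp [map_add, map_smul, huu, huv, huz, huz', hvu, hvv, hvz, hvz', hzu', hzv, hzz, hzz', hz'u, hz'v,
        hz'z, hz'z', g1, g2, g3, g4, -bform_apply] at f1 f2 f3 f4
      exact hff' (Submodule.mem_span_singleton.2 ⟨r₅, by rw [← e1, f1, f2, f3, f4]; simp⟩))
    rw [perp_sup hQ, Submodule.mem_inf, mem_perp_span_singleton hQ] at hp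
    refine ⟨p - Q p • f, Submodule.sub_mem _ hp.1 (Submodule.smul_mem _ _ hfP), ?_, ?_, fun h => ?_⟩
    · rw [q_sub hQ, q_smul hQ, hfQ, map_smul, smul_eq_mul, b_symm hQ p f, hfp]; ring
    · rw [b_symm hQ, map_sub (bform hQ f) p, map_smul (bform hQ f) (Q p) f, hfp, b_self_eq_zero hQ hfQ,
        smul_zero, sub_zero]
    · rw [b_symm hQ, map_sub (bform hQ f') p, map_smul (bform hQ f') (Q p) f, hp.2, b_symm hQ f' f, h,
        smul_zero, sub_zero]
  obtain ⟨hf₁P, hf₁Q, hf₁0⟩ := hproj y hQy hyP hyS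
  obtain ⟨hf₂P, hf₂Q, hf₂0⟩ := hproj w hQw hwP hwS
  set f₁ := y - bform hQ v y • u - bform hQ z' y • z with hf₁
  set f₂ := w - bform hQ v w • u - bform hQ z' w • z with hf₂
  have hbS : ∀ e ∈ perp hQ P, ∀ t, bform hQ e (t - bform hQ v t • u - bform hQ z' t • z) = bform hQ e t := by
    intro e he t
    obtain ⟨⟨h1, -⟩, h3, -⟩ := (hmemP e).1 he
    rw [map_sub, map_sub, map_smul, map_smul, b_symm hQ e u, b_symm hQ e z, h1, h3, smul_zero, smul_zero,
      sub_zero, sub_zero]
  obtain ⟨e, heP, heQ, hef, -⟩ := hpart f₁ 0 hf₁P (Submodule.zero_mem _) hf₁Q (by simpa using hf₁0)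
  have hey : bform hQ e y = 1 := by rw [← hbS e heP, ← hf₁, hef]
  have hfy : bform hQ e y ≠ 0 := by rw [hey]; exact one_ne_zero
  have move1 : ∀ t, Q t = 0 → t ∈ perp hQ S → bform hQ e t ≠ 0 ∨ bform hQ f₁ t ≠ 0 → Move Q S y t :=
    fun t ht htP hne =>
      (move_singular_pair hQ hn hu hv huv hQz hz'Q hzz' huz huz' hvz hvz' heQ hf₁Q hef heP hf₁P hQy hyP
        (Or.inl hfy)).symm.trans
      (move_singular_pair hQ hn hu hv huv hQz hz'Q hzz' huz huz' hvz hvz' heQ hf₁Q hef heP hf₁P ht htP hne)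
  by_cases hne : bform hQ e w ≠ 0 ∨ bform hQ f₁ w ≠ 0
  · exact move1 w hQw hwP hne
  push Not at hne
  obtain ⟨hew, hf₁w⟩ := hne
  have hef₂ : bform hQ e f₂ = 0 := by rw [hf₂, hbS e heP, hew]
  have hf₁₂ : bform hQ f₁ f₂ = 0 := by rw [hf₂, hbS f₁ hf₁P, hf₁w]
  have hnot : f₂ ∉ Submodule.span F {f₁} := fun h => by
    obtain ⟨r, hr⟩ := Submodule.mem_span_singleton.1 h
    rw [← hr, map_smul, hef, smul_eq_mul, mul_one] at hef₂
    exact hf₂0 (by rw [← hr, hef₂, zero_smul])
  obtain ⟨e₂, he₂P, he₂Q, he₂f, he₂f₁⟩ := hpart f₂ f₁ hf₂P hf₁P hf₂Q hnot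
  replace he₂f₁ := he₂f₁ (by rw [b_symm hQ]; exact hf₁₂)
  have hPS : ∀ t ∈ perp hQ P, t ∈ perp hQ S := fun t ht =>
    (mem_perp_pair hQ).2 ⟨((hmemP t).1 ht).1.1, ((hmemP t).1 ht).2.1⟩
  set c := f₁ + f₂ with hc
  have hcQ : Q c = 0 := by rw [hc, q_add hQ, hf₁Q, hf₂Q, hf₁₂]; ring
  have hcP : c ∈ perp hQ S := Submodule.add_mem _ (hPS _ hf₁P) (hPS _ hf₂P)
  refine (move1 c hcQ hcP (Or.inl (by rw [hc, map_add, hef, hef₂, add_zero]; exact one_ne_zero))).trans
    ((move_singular_pair hQ hn hu hv huv hQz hz'Q hzz' huz huz' hvz hvz' he₂Q hf₂Q he₂f he₂P hf₂P hcQ hcP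
      (Or.inl (by rw [hc, map_add, he₂f, he₂f₁, zero_add]; exact one_ne_zero))).symm.trans
    (move_singular_pair hQ hn hu hv huv hQz hz'Q hzz' huz huz' hvz hvz' he₂Q hf₂Q he₂f he₂P hf₂P hQw hwP
      (Or.inl (by rw [← hbS e₂ he₂P, ← hf₂, he₂f]; exact one_ne_zero))))

variable {X : Type*} [MulAction (omegaGL Q) X] [Finite X]

/-- Pairs of orthogonal singular vectors bound the number of annihilators. -/
theorem pair_count_all (hn : 7 ≤ Fintype.card ι) {u : ι → F} (hu : Q u = 0) (hu0 : u ≠ 0) {x : X}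
    (hsing : ∀ a ∈ annW hQ u x, Q a = 0) (h3 : 3 ≤ finrank F (spanA hQ u x)) (β : ℕ)
    (hβ : ∀ B ∈ family hQ u x, ∀ z ∈ B, singPerp hQ u z → β ≤
      Nat.card (B ⊓ (Submodule.span F {u} ⊔ Submodule.span F {z}).toAddSubgroup : AddSubgroup (ι → F)))
    (O : ℕ) (hO : ∀ z, singPerp hQ u z → O ≤ Nat.card {w // Q w = 0 ∧
      w ∈ perp hQ (Submodule.span F {u} ⊔ Submodule.span F {z}) ∧ w ∉ Submodule.span F {u} ⊔ Submodule.span F {z}}) :
    Nat.card {z // singPerp hQ u z} * O ≤
      (family hQ u x).card * ((Nat.card (annW hQ u x) - Nat.card F) * (Nat.card (annW hQ u x) - β)) := by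
  classical
  have := Fintype.ofFinite F
  have hn5 : 5 ≤ Fintype.card ι := by omega
  obtain ⟨a₀, ha₀, ha₀u⟩ : ∃ a ∈ annW hQ u x, a ∉ Submodule.span F {u} := by
    by_contra h
    push Not at h
    have := Submodule.finrank_mono (show spanA hQ u x ≤ Submodule.span F {u} from Submodule.span_le.2 h)
    rw [finrank_span_singleton hu0] at this
    omega
  obtain ⟨y₀, hy₀, hy₀S⟩ : ∃ y ∈ annW hQ u x, y ∉ Submodule.span F {u} ⊔ Submodule.span F {a₀} := by
    by_contra h
    push Not at h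
    have := Submodule.finrank_mono (show spanA hQ u x ≤ Submodule.span F {u} ⊔ Submodule.span F {a₀} from
      Submodule.span_le.2 h)
    have := finrank_span_pair_le hQ u a₀
    omega
  have hbb := fun {a b : ι → F} => b_eq_zero_of_all_singular hQ hsing (a := a) (b := b)
  let q := Nat.card F
  let C : Finset (ι → F) := Finset.univ.filter (singPerp hQ u)
  -- for each vector of the class many vectors share a translate with it
  have hkey : ∀ z ∈ C, O ≤
      (((family hQ u x).filter fun B => z ∈ B).biUnion fun B => (B : Set (ι → F)).toFinset.filter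
        fun w => w ∉ Submodule.span F {u} ⊔ Submodule.span F {z}).card := by
    intro z hz
    obtain ⟨hQz, huz, hzu⟩ := (Finset.mem_filter.1 hz).2
    obtain ⟨g, hgu, hgz⟩ := move_perp hQ hn hu hu0 (b_eq_zero_of_mem_annW hQ hu ha₀) huz ha₀u hzu
      ((hsing a₀ ha₀).trans hQz.symm)
    have hgu' := hgu u (Submodule.mem_span_singleton_self u)
    set B₁ := annW hQ u (g • x) with hB₁
    have hB₁f : B₁ ∈ family hQ u x := (mem_family hQ).2 ⟨g, ⟨1, one_ne_zero, by rw [hgu', one_smul]⟩, rfl⟩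
    have hzB₁ : z ∈ B₁ := by rw [hB₁, annW_omMap hQ g hgu']; exact ⟨a₀, ha₀, hgz⟩
    set y₁ := ((g : GL ι F) : Matrix ι ι F) *ᵥ y₀ with hy₁
    have hy₁B : y₁ ∈ B₁ := by rw [hB₁, annW_omMap hQ g hgu']; exact ⟨y₀, hy₀, rfl⟩
    have hgI := omegaGL_le g.2
    have hQy₁ : Q y₁ = 0 := by rw [hy₁, mem_isometryGroup.1 hgI, hsing y₀ hy₀]
    have huy₁ : bform hQ u y₁ = 0 := by
      rw [hy₁, ← hgu', isometry_b hQ hgI]; exact b_eq_zero_of_mem_annW hQ hu hy₀
    have hzy₁ : bform hQ z y₁ = 0 := by rw [← hgz, hy₁, isometry_b hQ hgI]; exact hbb ha₀ hy₀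
    set S := Submodule.span F {u} ⊔ Submodule.span F {z} with hS
    have hy₁S : y₁ ∉ S := by
      intro h
      obtain ⟨_, hb₁, _, hb₂, e⟩ := Submodule.mem_sup.1 h
      obtain ⟨r, rfl⟩ := Submodule.mem_span_singleton.1 hb₁
      obtain ⟨t, rfl⟩ := Submodule.mem_span_singleton.1 hb₂
      refine hy₀S ?_
      have : y₀ = r • u + t • a₀ := by
        have h' := congrArg (((g : GL ι F)⁻¹ : GL ι F) : Matrix ι ι F).mulVec e
        rw [hy₁] at h'
        conv at h' => rhs; rw [inv_mulVec_cancel]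
        rw [← h', Matrix.mulVec_add, Matrix.mulVec_smul, Matrix.mulVec_smul]
        conv_lhs => rw [← hgu', ← hgz]
        rw [inv_mulVec_cancel, inv_mulVec_cancel]
      rw [this]
      exact Submodule.add_mem _ (Submodule.mem_sup_left (Submodule.smul_mem _ _ (Submodule.mem_span_singleton_self _)))
        (Submodule.mem_sup_right (Submodule.smul_mem _ _ (Submodule.mem_span_singleton_self _)))
    refine (hO z (Finset.mem_filter.1 hz).2).trans ?_
    rw [Nat.card_eq_fintype_card, Fintype.card_subtype]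
    refine Finset.card_le_card fun w hw => ?_
    obtain ⟨hQw, hwP, hwS⟩ := (Finset.mem_filter.1 hw).2
    obtain ⟨c, k, hc, hkS, hky⟩ := move_singular_all hQ hn hu hu0 hQz huz hzu hQy₁
      ((mem_perp_pair hQ).2 ⟨huy₁, hzy₁⟩) hy₁S hQw hwP hwS
    have hku : ((k : GL ι F) : Matrix ι ι F) *ᵥ u = c • u := by
      have := hkS u (Submodule.mem_sup_left (Submodule.mem_span_singleton_self u))
      conv_rhs => rw [← this, smul_inv_smul₀ hc]
    exact Finset.mem_biUnion.2 ⟨_, Finset.mem_filter.2 ⟨family_map hQ hu hB₁f hc k hku,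
      ⟨z, hzB₁, hkS z (Submodule.mem_sup_right (Submodule.mem_span_singleton_self z))⟩⟩,
      Finset.mem_filter.2 ⟨Set.mem_toFinset.2 ⟨y₁, hy₁B, hky⟩, hwS⟩⟩
  -- summing up
  have hCcard : C.card = Nat.card {z // singPerp hQ u z} := by
    rw [Nat.card_eq_fintype_card, Fintype.card_subtype]
  rw [← hCcard, ← smul_eq_mul C.card]
  refine (Finset.card_nsmul_le_sum _ _ _ hkey).trans ?_
  set α := Nat.card (annW hQ u x) with hα
  calc ∑ z ∈ C, (((family hQ u x).filter fun B => z ∈ B).biUnion fun B => (B : Set (ι → F)).toFinset.filter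
        fun w => w ∉ Submodule.span F {u} ⊔ Submodule.span F {z}).card
      ≤ ∑ z ∈ C, ∑ B ∈ (family hQ u x).filter (fun B => z ∈ B), (α - β) := by
        refine Finset.sum_le_sum fun z hz => Finset.card_biUnion_le.trans (Finset.sum_le_sum fun B hB => ?_)
        obtain ⟨hBf, hzB⟩ := Finset.mem_filter.1 hB
        have hb := hβ B hBf z hzB (Finset.mem_filter.1 hz).2
        have hcb := card_of_mem_family hQ hu hBf
        rw [show ((B : Set (ι → F)).toFinset.filter fun w => w ∉ Submodule.span F {u} ⊔ Submodule.span F {z}) =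
            (B : Set (ι → F)).toFinset \ ((B ⊓ (Submodule.span F {u} ⊔ Submodule.span F {z}).toAddSubgroup :
              AddSubgroup (ι → F)) : Set (ι → F)).toFinset from by
              ext w
              simp [Finset.mem_filter],
          Finset.card_sdiff_of_subset (fun w hw => by rw [Set.mem_toFinset] at hw ⊢; exact hw.1),
          Set.toFinset_card, Set.toFinset_card, ← Nat.card_eq_fintype_card, ← Nat.card_eq_fintype_card, hα, ← hcb]
        exact Nat.sub_le_sub_left hb _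
    _ = ∑ B ∈ family hQ u x, (C.filter fun z => z ∈ B).card * (α - β) := by
        simp only [Finset.sum_const, smul_eq_mul, ← Finset.sum_mul]
        congr 1
        exact Finset.sum_card_bipartiteAbove_eq_sum_card_bipartiteBelow
          (fun z (B : AddSubgroup (ι → F)) => z ∈ B)
    _ ≤ _ := by
        refine (Finset.sum_le_card_nsmul _ _ _ fun B hB => ?_).trans (le_of_eq (smul_eq_mul _ _))
        refine Nat.mul_le_mul_right _ ?_
        refine (Finset.card_le_card (t := (B : Set (ι → F)).toFinset \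
          ((Submodule.span F ({u} : Set (ι → F))).toAddSubgroup : Set (ι → F)).toFinset) fun z hz => ?_).trans ?_
        · obtain ⟨hzC, hzB⟩ := Finset.mem_filter.1 hz
          rw [Finset.mem_sdiff, Set.mem_toFinset, Set.mem_toFinset]
          exact ⟨hzB, (Finset.mem_filter.1 hzC).2.2.2⟩
        · obtain ⟨g, -, hg⟩ := (mem_family hQ).1 hB
          rw [Finset.card_sdiff_of_subset (fun w hw => by
              rw [Set.mem_toFinset] at hw ⊢; rw [← hg]; exact span_self_le_annW hQ u (g • x) hw),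
            Set.toFinset_card, Set.toFinset_card, ← Nat.card_eq_fintype_card, ← Nat.card_eq_fintype_card,
            hα, ← card_of_mem_family hQ hu hB]
          refine Nat.sub_le_sub_left (le_of_eq ?_) _
          show Nat.card F = Nat.card (Submodule.span F ({u} : Set (ι → F))).toAddSubgroup
          rw [natCard_submodule, finrank_span_singleton hu0, pow_one]

end CfsgLib.MinIndexOrth
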