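import Cfsg.Agent.MinIndexOrth.PlusCounts
import Cfsg.Agent.MinIndexOrth.EightFrame

/-! The least index of a proper subgroup of the orthogonal groups of plus type over at least four elements. -/

set_option autoImplicit false
set_option linter.unusedSectionVars false

namespace CfsgLib.MinIndexOrth

open Cfsg Cfsg.Geo CfsgLib.OrthGeo Module
open scoped Matrix MatrixGroups

section Arith

variable {q P v : ℕ}

/-- The inequalities on the number of points. -/
lemma plus_arith_points (hq : 4 ≤ q) (hP : q ^ 3 ≤ P) (hv : (q - 1) * v + 1 + P = q * P ^ 2 + q * P) :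
    v ≤ 2 * P ^ 2 ∧ ∀ C : ℕ, (q - 1) * (P ^ 2 - P) ≤ 2 * C → q * v ≤ 5 * C := by
  have hPP : P ≤ P ^ 2 := Nat.le_self_pow two_ne_zero P
  zify [show 1 ≤ q by omega] at hv
  have hq' : (4 : ℤ) ≤ q := by exact_mod_cast hq
  have hP64 : (64 : ℤ) ≤ P := by exact_mod_cast (Nat.pow_le_pow_left hq 3).trans hP
  have hup : ((q : ℤ) - 1) * v ≤ q * P * (P + 1) := by linarith
  have hbound : 2 * (q : ℤ) ^ 2 * (P + 1) ≤ 5 * ((q : ℤ) - 1) ^ 2 * (P - 1) := by
    nlinarith [mul_nonneg (show (0 : ℤ) ≤ P - 64 by linarith)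
      (show (0 : ℤ) ≤ 3 * (q : ℤ) ^ 2 - 10 * q + 5 by nlinarith)]
  refine ⟨?_, fun C hC => ?_⟩
  · have h : ((q : ℤ) - 1) * v ≤ ((q : ℤ) - 1) * (2 * P ^ 2) := by nlinarith
    exact_mod_cast le_of_mul_le_mul_left h (by linarith)
  · zify [show 1 ≤ q by omega, hPP] at hC
    have h : ((q : ℤ) - 1) * (2 * (q * v)) ≤ ((q : ℤ) - 1) * (2 * (5 * C)) :=
      calc ((q : ℤ) - 1) * (2 * (q * v)) = 2 * q * (((q : ℤ) - 1) * v) := by ring
        _ ≤ 2 * q * (q * P * (P + 1)) := mul_le_mul_of_nonneg_left hup (by linarith)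
        _ = P * (2 * (q : ℤ) ^ 2 * (P + 1)) := by ring
        _ ≤ P * (5 * ((q : ℤ) - 1) ^ 2 * (P - 1)) := mul_le_mul_of_nonneg_left hbound (by linarith)
        _ = 5 * ((q : ℤ) - 1) * (((q : ℤ) - 1) * ((P : ℤ) ^ 2 - P)) := by ring
        _ ≤ 5 * ((q : ℤ) - 1) * (2 * C) := mul_le_mul_of_nonneg_left hC (by linarith)
        _ = _ := by ring
    have h' := le_of_mul_le_mul_left h (by linarith)
    exact_mod_cast (show (q : ℤ) * v ≤ 5 * C by linarith)

/-- The inequalities for a totally singular annihilator. -/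
lemma plus_arith_singular {R N : ℕ} (hq : 4 ≤ q) (hR : q ^ 2 ≤ R) (hPR : P = q * R)
    (hv : (q - 1) * v + 1 + P = q * P ^ 2 + q * P) (hN : N + q + P = P ^ 2 + q * P) :
    q * v * (q * P) ≤ 2 * (N * ((q - 1) * R ^ 2 + (q - 1) * q ^ 2)) ∧
      (q ^ 3 ≤ R → q * v * ((q * P - q) * (q * P - q ^ 2)) ≤
        q * P * (N * ((q - 1) * R ^ 2 + (q - 1) * q ^ 2))) ∧ 0 < N := by
  subst hPR
  have hNle : (q * R) ^ 2 ≤ N := by
    have h1 : q + q * R ≤ q * (q * R) := by
      have : 2 * (q * R) ≤ q * (q * R) := Nat.mul_le_mul_right _ (by omega)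
      have : q ≤ q * R := Nat.le_mul_of_pos_right _ (by nlinarith)
      omega
    omega
  have hN0 : 0 < N := lt_of_lt_of_le (pow_pos (Nat.mul_pos (by omega) (by nlinarith)) 2) hNle
  set O := (q - 1) * R ^ 2 + (q - 1) * q ^ 2 with hO
  set D := (q * (q * R) - q) * (q * (q * R) - q ^ 2) with hD
  have hDle : D ≤ q * (q * R) * (q * (q * R)) := Nat.mul_le_mul (Nat.sub_le _ _) (Nat.sub_le _ _)
  have hOge : (q - 1) * R ^ 2 ≤ O := Nat.le_add_right _ _
  have hNO : (q * R) ^ 2 * ((q - 1) * R ^ 2) ≤ N * O := Nat.mul_le_mul hNle hOge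
  have hR16 : 16 ≤ R := (Nat.pow_le_pow_left hq 2).trans hR
  zify [show 1 ≤ q by omega] at hv hNO
  have hq' : (4 : ℤ) ≤ q := by exact_mod_cast hq
  have hR' : (16 : ℤ) ≤ R := by exact_mod_cast hR16
  have hP0 : (0 : ℤ) ≤ q * R := by positivity
  have hup : ((q : ℤ) - 1) * v ≤ q * (q * R) * (q * R + 1) := by linarith
  -- the key bound, with the factor `m` still free
  have key : ∀ m : ℤ, 0 ≤ m → (q : ℤ) * (q * R + 1) * q ^ 2 ≤ m * ((q : ℤ) - 1) ^ 2 * R ^ 2 →
      ((q : ℤ) - 1) * (q * v * (q * (q * R))) ≤ ((q : ℤ) - 1) * (m * (N * O)) := fun m hm hb =>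
    calc ((q : ℤ) - 1) * (q * v * (q * (q * R))) = q * (q * (q * R)) * (((q : ℤ) - 1) * v) := by ring
      _ ≤ q * (q * (q * R)) * (q * (q * R) * (q * R + 1)) :=
          mul_le_mul_of_nonneg_left hup (mul_nonneg (by linarith) (mul_nonneg (by linarith) hP0))
      _ = ((q : ℤ) * R) ^ 2 * (q * (q * R + 1) * q ^ 2) := by ring
      _ ≤ ((q : ℤ) * R) ^ 2 * (m * ((q : ℤ) - 1) ^ 2 * R ^ 2) := mul_le_mul_of_nonneg_left hb (sq_nonneg _)
      _ = ((q : ℤ) - 1) * m * (((q : ℤ) * R) ^ 2 * (((q : ℤ) - 1) * R ^ 2)) := by ring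
      _ ≤ ((q : ℤ) - 1) * m * (N * O) := mul_le_mul_of_nonneg_left hNO (mul_nonneg (by linarith) hm)
      _ = _ := by ring
  refine ⟨?_, fun hR3 => ?_, hN0⟩
  · have hRq : (q : ℤ) ^ 2 ≤ R := by exact_mod_cast hR
    have hb : (q : ℤ) * (q * R + 1) * q ^ 2 ≤ 2 * ((q : ℤ) - 1) ^ 2 * R ^ 2 := by
      have e1 : 65 * (q : ℤ) ^ 2 ≤ 128 * ((q : ℤ) - 1) ^ 2 := by nlinarith
      have e2 : 64 * (q * R + 1) ≤ 65 * (q * (R : ℤ)) := by nlinarith
      refine le_of_mul_le_mul_left ?_ (show (0 : ℤ) < 64 by norm_num)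
      calc 64 * ((q : ℤ) * (q * R + 1) * q ^ 2) = (q : ℤ) ^ 3 * (64 * (q * R + 1)) := by ring
        _ ≤ (q : ℤ) ^ 3 * (65 * (q * (R : ℤ))) := mul_le_mul_of_nonneg_left e2 (by positivity)
        _ = 65 * (q : ℤ) ^ 2 * ((q : ℤ) ^ 2 * R) := by ring
        _ ≤ 128 * ((q : ℤ) - 1) ^ 2 * ((q : ℤ) ^ 2 * R) := mul_le_mul_of_nonneg_right e1 (by positivity)
        _ ≤ 128 * ((q : ℤ) - 1) ^ 2 * (R * R) :=
            mul_le_mul_of_nonneg_left (mul_le_mul_of_nonneg_right hRq (by linarith)) (by positivity)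
        _ = _ := by ring
    exact_mod_cast le_of_mul_le_mul_left (key 2 (by norm_num) hb) (show (0 : ℤ) < q - 1 by linarith)
  · have hRq : (q : ℤ) ^ 3 ≤ R := by exact_mod_cast hR3
    have hb : (q : ℤ) * (q * R + 1) * q ^ 2 ≤ 1 * ((q : ℤ) - 1) ^ 2 * R ^ 2 := by
      have e1 : 65 * (q : ℤ) ≤ 64 * ((q : ℤ) - 1) ^ 2 := by nlinarith
      have e2 : 64 * (q * R + 1) ≤ 65 * (q * (R : ℤ)) := by nlinarith
      refine le_of_mul_le_mul_left ?_ (show (0 : ℤ) < 64 by norm_num)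
      calc 64 * ((q : ℤ) * (q * R + 1) * q ^ 2) = (q : ℤ) ^ 3 * (64 * (q * R + 1)) := by ring
        _ ≤ (q : ℤ) ^ 3 * (65 * (q * (R : ℤ))) := mul_le_mul_of_nonneg_left e2 (by positivity)
        _ = 65 * (q : ℤ) * ((q : ℤ) ^ 3 * R) := by ring
        _ ≤ 64 * ((q : ℤ) - 1) ^ 2 * ((q : ℤ) ^ 3 * R) := mul_le_mul_of_nonneg_right e1 (by positivity)
        _ ≤ 64 * ((q : ℤ) - 1) ^ 2 * (R * R) :=
            mul_le_mul_of_nonneg_left (mul_le_mul_of_nonneg_right hRq (by linarith)) (by positivity)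
        _ = _ := by ring
    have h := le_of_mul_le_mul_left (key 1 (by norm_num) hb) (show (0 : ℤ) < q - 1 by linarith)
    rw [one_mul] at h
    have h' : q * v * (q * (q * R)) ≤ N * O := by exact_mod_cast h
    calc q * v * D ≤ q * v * (q * (q * R) * (q * (q * R))) := Nat.mul_le_mul_left _ hDle
      _ = q * (q * R) * (q * v * (q * (q * R))) := by ring
      _ ≤ _ := Nat.mul_le_mul_left _ h'

end Arith

variable {ι : Type} [Fintype ι] [DecidableEq ι] {F : Type*} [Field F] [Finite F]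
variable {Q : (ι → F) → F}

/-- Plus type over at least four elements. -/
theorem plus_generic_big {hQ : IsNondegenerateQuadraticForm Q} {q k P : ℕ} (D : PlusData hQ q k P) (hq4 : 4 ≤ q)
    {v : ℕ} (hv : (q - 1) * v + 1 + P = q * P ^ 2 + q * P) {p : ι → F} (hp : p ≠ 0) (hQp : Q p = 0) :
    (∀ H : Subgroup (POmega F Q), H ≠ ⊤ → v ≤ H.index) ∧ ∃ H : Subgroup (POmega F Q), H.index = v := by
  classical
  have := Fintype.ofFinite F
  obtain ⟨hv2, hμ⟩ := plus_arith_points hq4 D.cube_le hv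
  have hn : 7 ≤ Fintype.card ι := by rw [D.dim]; omega
  have hv2' : v ≤ 2 * Nat.card F ^ (Fintype.card ι - 2) := by
    rw [D.size, D.dim, show 2 * k + 8 - 2 = (k + 3) * 2 by omega, pow_mul, ← D.hP]; exact hv2
  have hclass : ∀ r : ι → F, r ≠ 0 → (Nat.card F - 1) * v ≤ Nat.card {z // ClassOf Q r z} := by
    intro r hr
    rw [D.size]
    by_cases hQr : Q r = 0
    · have h := card_classOf_singular hQ hQr
      have := D.zeros
      omega
    · have h := (card_class_univ_ge hQ hQr (L := q * P ^ 2 - P) fun t ht => by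
        have := D.values t ht; omega).2
      rw [D.size] at h
      rw [card_classOf_nonsingular hQ hQr]
      have h3 := (Nat.mul_le_mul_right (q * P ^ 2 - P) (show 3 ≤ q - 1 by omega)).trans h
      have h4 : 8 * (q * P) ≤ q * P ^ 2 := by
        rw [sq, show q * (P * P) = P * (q * P) by ring]; exact Nat.mul_le_mul_right _ D.eight_le
      have h5 : P ≤ q * P := Nat.le_mul_of_pos_left _ (by omega)
      omega
  obtain ⟨r, hr, hr2⟩ : ∃ r : F, r ≠ 0 ∧ r ^ 2 ≠ 1 := by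
    by_contra h
    push Not at h
    have hsub : (Finset.univ : Finset F) ⊆ {0, 1, -1} := fun r _ => by
      by_cases hr : r = 0
      · simp [hr]
      · rcases sq_eq_one_iff.1 (h r hr) with e | e <;> simp [e]
    have h1 := (Finset.card_le_card hsub).trans Finset.card_le_three
    rw [Finset.card_univ, ← Nat.card_eq_fintype_card, D.size] at h1
    omega
  have hlow : ∀ K : Subgroup (omegaGL Q), K ≠ ⊤ → v ≤ K.index := by
    intro K hK
    have : Nontrivial (omegaGL Q ⧸ K) := QuotientGroup.nontrivial_iff.2 hK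
    refine card_ge hQ (X := omegaGL Q ⧸ K) hn (Or.inr (Or.inr (Or.inr ⟨r, hr, hr2⟩))) hv2' hclass fun hXv => ?_
    refine dichot_of hQ hn (Or.inr (by rw [D.dim]; omega)) hXv hv2' (fun u hu hu0 s hs => ⟨?_, fun hq2 => ?_⟩)
      (fun _ _ _ _ _ _ _ h3 _ => absurd h3 (by rw [D.size]; omega)) (fun x u hu hu0 hsing => Or.inr ?_)
    · rw [D.size]; exact hμ _ (D.perp_class hu hu0 hs).2
    · rw [D.size] at hq2; omega
    · obtain ⟨R, hR⟩ : ∃ R, R = q ^ (k + 2) := ⟨_, rfl⟩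
      have hPR : P = q * R := by rw [hR, D.hP]; ring
      obtain ⟨N, hN⟩ : ∃ N, N = Nat.card {z // singPerp hQ u z} := ⟨_, rfl⟩
      obtain ⟨hn1, hn2, hN0⟩ := plus_arith_singular hq4 (hR ▸ Nat.pow_le_pow_right (by omega) (by omega)) hPR hv
        (N := N) (hN ▸ D.singles hu hu0)
      have hO : (Nat.card F - 1) * Nat.card F ^ (Fintype.card ι - 4) + (Nat.card F - 1) * Nat.card F ^ 2 =
          (q - 1) * R ^ 2 + (q - 1) * q ^ 2 := by
        rw [D.size, D.dim, hR, ← pow_mul, show 2 * k + 8 - 4 = (k + 2) * 2 by omega]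
      have hM : Nat.card F ^ (k + 4) = q * P := by rw [D.size, D.hP]; ring
      rcases classify_singular hQ hn hXv D.witt hu hu0 hN.le
          (by rw [hO, hM, D.size]; exact hn1) hsing with h | ⟨hcard, hclosed, hts, h3⟩
      · exact h
      · exfalso
        by_cases hk : k = 0
        · subst hk
          have hP3 : P = q ^ 3 := D.hP
          have hq1 : (1 : ℤ) < q := by exact_mod_cast (show 1 < q by omega)
          refine no_big_eight (hQ := hQ) (q := q) (v := v) ⟨D.dim, D.size, hq4, hXv, ?_, fun u' hu' hu'0 => ?_,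
            fun u' z hu' hu'0 hz => ?_, fun u' hu' hu'0 s hs => ?_, ?_, D.witt⟩ hu hu0
            (x := x) ⟨by rw [hcard], hsing⟩
          · subst hP3
            zify [show 1 ≤ q by omega] at hv
            have h : ((q : ℤ) - 1) * v = ((q : ℤ) - 1) * (((q : ℤ) ^ 3 + q ^ 2 + q + 1) * (q ^ 3 + 1)) := by
              linear_combination hv
            exact_mod_cast mul_left_cancel₀ (sub_ne_zero.2 hq1.ne') h
          · rw [← hP3, D.singles hu' hu'0, hP3]; ring
          · rw [← hP3, D.pairs hu' hu'0 hz, hP3]; ring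
          · rw [← hP3, show q ^ 6 = P ^ 2 by rw [hP3]; ring]; exact (D.perp_class hu' hu'0 hs).1
          · have h0 := card_classOf_singular hQ (p := (0 : ι → F)) (q_zero hQ)
            have hZ := D.zeros
            have e : Nat.card {z : ι → F // Q z = 0 ∧ z ≠ 0} = Nat.card {z // ClassOf Q (0 : ι → F) z} :=
              Nat.card_congr (Equiv.subtypeEquivRight fun z => ⟨fun h => ⟨h.2, 1, one_ne_zero, by
                rw [q_zero hQ, mul_zero, h.1]⟩, fun ⟨h0, c, _, h⟩ => ⟨by rw [h, q_zero hQ, mul_zero], h0⟩⟩)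
            omega
        · exact not_max hQ hn hXv hu hu0 hN.le
            (by rw [hO, hM, D.size]; exact hn2 (hR ▸ Nat.pow_le_pow_right (by omega) (by omega)))
            hN0 hcard hclosed hts h3
  refine pomega_min_index hQ (by omega) hlow hp ?_
  have h := card_classOf_singular hQ hQp
  have := D.zeros
  rw [D.size]
  omega

theorem plus_min_index {K : Type*} [Field K] [Fintype K] {q : ℕ} (hF : Fintype.card K = q) (hq : 4 ≤ q) (m : ℕ)
    (hm : 4 ≤ m) :
    (∀ H : Subgroup (POmega K (quadFormPlus m K)), H ≠ ⊤ → (q ^ m - 1) * (q ^ (m - 1) + 1) / (q - 1) ≤ H.index) ∧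
      ∃ H : Subgroup (POmega K (quadFormPlus m K)), H.index = (q ^ m - 1) * (q ^ (m - 1) + 1) / (q - 1) := by
  obtain ⟨k, rfl⟩ : ∃ k, m = k + 4 := ⟨m - 4, by omega⟩
  rw [show k + 4 - 1 = k + 3 by omega]
  have hd : (q - 1) ∣ (q ^ (k + 4) - 1) * (q ^ (k + 3) + 1) :=
    Dvd.dvd.mul_right (Nat.sub_one_dvd_pow_sub_one q _) _
  refine plus_generic_big (plus_data hF k) hq ?_ (p := Pi.single (Sum.inl 0) 1) (by simp)
    (by simp [quadFormPlus])
  rw [Nat.mul_div_cancel' hd]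
  have h1 : 1 ≤ q ^ (k + 4) := Nat.one_le_pow _ _ (by omega)
  zify [h1]
  ring

end CfsgLib.MinIndexOrth
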