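import Cfsg.Agent.MinIndexOrth.Main
import Cfsg.Agent.MinIndexOrth.StdCount
import Cfsg.Agent.OrthGeo.Forms

/-! The numbers of vectors for the plus type. -/

set_option autoImplicit false
set_option linter.unusedSectionVars false

namespace CfsgLib.MinIndexOrth

open Cfsg Cfsg.Geo CfsgLib.OrthGeo Module
open scoped Matrix MatrixGroups

variable {ι : Type} [Fintype ι] [DecidableEq ι] {F : Type*} [Field F] [Finite F]
variable {Q : (ι → F) → F}

/-- Singular vectors perpendicular to two orthogonal singular vectors, outside their span. -/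
lemma card_pair_perp (hQ : IsNondegenerateQuadraticForm Q) (hn : 4 ≤ Fintype.card ι) {u z : ι → F}
    (hu : Q u = 0) (hu0 : u ≠ 0) (hz : singPerp hQ u z) :
    Nat.card {w // Q w = 0 ∧ w ∈ perp hQ (Submodule.span F {u} ⊔ Submodule.span F {z}) ∧
        w ∉ Submodule.span F {u} ⊔ Submodule.span F {z}} + Nat.card F ^ 2 +
        (Nat.card F - 1) * Nat.card F ^ (Fintype.card ι - 3) =
      Nat.card {w // bform hQ u w = 0 ∧ Q w = 0} := by
  classical
  have := Fintype.ofFinite F
  obtain ⟨hQz, huz, hzu⟩ := hz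
  set S := Submodule.span F {u} ⊔ Submodule.span F {z} with hS
  have hlt : Submodule.span F {u} < S := lt_of_le_not_ge le_sup_left fun h =>
    hzu (h (Submodule.mem_sup_right (Submodule.mem_span_singleton_self z)))
  have hS2 : finrank F S = 2 := by
    have h1 := Submodule.finrank_lt_finrank_of_lt hlt
    have h2 : finrank F S ≤ 2 := finrank_span_pair_le hQ u z
    rw [finrank_span_singleton hu0] at h1
    omega
  have hTd : finrank F (perp hQ S) = Fintype.card ι - 2 := by
    have := finrank_perp_add hQ S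
    omega
  have hmemS : ∀ w, w ∈ perp hQ S ↔ bform hQ u w = 0 ∧ bform hQ z w = 0 := fun w => mem_perp_pair hQ
  -- vectors perpendicular to `u` seeing `z` with a given value
  let Zs : F → Finset (ι → F) := fun β =>
    Finset.univ.filter fun w => (bform hQ u w = 0 ∧ Q w = 0) ∧ bform hQ z w = β
  have hlev : ∀ β : F, β ≠ 0 → (Zs β).card = Nat.card F ^ (Fintype.card ι - 3) := by
    intro β hβ
    obtain ⟨z₁, hz₁u, hz₁⟩ : ∃ w, bform hQ u w = 0 ∧ bform hQ z w ≠ 0 := by
      by_contra h
      push Not at h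
      have hle : perp hQ (Submodule.span F {u}) ≤ perp hQ S := fun w hw =>
        (hmemS w).2 ⟨(mem_perp_span_singleton hQ).1 hw, h w ((mem_perp_span_singleton hQ).1 hw)⟩
      have := Submodule.finrank_mono hle
      have h1 := finrank_perp_add hQ (Submodule.span F {u})
      rw [finrank_span_singleton hu0] at h1
      omega
    set z₀ := (β / bform hQ z z₁) • z₁ with hz₀
    have hzz₀ : bform hQ z z₀ = β := by rw [hz₀, map_smul, smul_eq_mul, div_mul_cancel₀ _ hz₁]
    have huz₀ : bform hQ u z₀ = 0 := by rw [hz₀, map_smul, hz₁u, smul_zero]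
    have h := card_slice hQ hQz (P := Submodule.span F {u}) ((mem_perp_span_singleton hQ).2 huz) z₀
      (hzz₀.symm ▸ hβ) 0
    rw [← hS, hTd, show Fintype.card ι - 2 = Fintype.card ι - 3 + 1 by omega, pow_succ] at h
    rw [← Nat.eq_of_mul_eq_mul_right Nat.card_pos h, Nat.card_eq_fintype_card, Fintype.card_subtype]
    congr 1
    ext w
    simp only [Zs, Finset.mem_filter, Finset.mem_univ, true_and, mem_perp_span_singleton hQ, map_sub, huz₀,
      sub_zero, hzz₀]
    tauto
  have hsum := Finset.card_eq_sum_card_fiberwise (f := fun w => bform hQ z w)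
    (s := Finset.univ.filter fun w : ι → F => bform hQ u w = 0 ∧ Q w = 0) (t := (Finset.univ : Finset F))
    (fun w _ => Finset.mem_univ _)
  have hfib : ∀ β : F, ((Finset.univ.filter fun w : ι → F => bform hQ u w = 0 ∧ Q w = 0).filter
      fun w => bform hQ z w = β) = Zs β := fun β => by
    simp only [Zs, Finset.filter_filter]
  rw [Finset.sum_congr rfl fun β _ => congrArg Finset.card (hfib β),
    ← Finset.add_sum_erase _ _ (Finset.mem_univ (0 : F)),
    Finset.sum_congr rfl (fun β hβ => hlev β (Finset.mem_erase.1 hβ).1), Finset.sum_const,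
    Finset.card_erase_of_mem (Finset.mem_univ _), Finset.card_univ, smul_eq_mul, ← Nat.card_eq_fintype_card] at hsum
  rw [Nat.card_eq_fintype_card (α := {w // bform hQ u w = 0 ∧ Q w = 0}), Fintype.card_subtype, hsum]
  congr 1
  -- the span itself is totally singular
  have hSsing : ∀ w ∈ S, Q w = 0 ∧ w ∈ perp hQ S := by
    intro w hw
    obtain ⟨_, h1, _, h2, rfl⟩ := Submodule.mem_sup.1 hw
    obtain ⟨r, rfl⟩ := Submodule.mem_span_singleton.1 h1
    obtain ⟨t, rfl⟩ := Submodule.mem_span_singleton.1 h2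
    refine ⟨by rw [q_add hQ, q_smul hQ, q_smul hQ, hu, hQz, map_smul, map_smul, LinearMap.smul_apply, huz]; simp,
      (hmemS _).2 ⟨?_, ?_⟩⟩
    · rw [map_add, map_smul, map_smul, huz, b_self_eq_zero hQ hu]; simp
    · rw [map_add, map_smul, map_smul, b_self_eq_zero hQ hQz, b_symm hQ z u, huz]; simp
  have hF2 : Nat.card F ^ 2 = (Finset.univ.filter fun w => w ∈ S).card := by
    rw [← Fintype.card_subtype, ← Nat.card_eq_fintype_card]
    exact (hS2 ▸ natCard_submodule S).symm
  rw [hF2, Nat.card_eq_fintype_card (α := {w // Q w = 0 ∧ _}), Fintype.card_subtype,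
    ← Finset.card_union_of_disjoint]
  · congr 1
    ext w
    simp only [Zs, Finset.mem_union, Finset.mem_filter, Finset.mem_univ, true_and]
    constructor
    · rintro (⟨h1, h2, -⟩ | h)
      · exact ⟨⟨((hmemS w).1 h2).1, h1⟩, ((hmemS w).1 h2).2⟩
      · obtain ⟨h1, h2⟩ := hSsing w h
        exact ⟨⟨((hmemS w).1 h2).1, h1⟩, ((hmemS w).1 h2).2⟩
    · rintro ⟨⟨h1, h2⟩, h3⟩
      by_cases h : w ∈ S
      · exact Or.inr h
      · exact Or.inl ⟨h2, (hmemS w).2 ⟨h1, h3⟩, h⟩
  · exact Finset.disjoint_left.2 fun w hw hw' => (Finset.mem_filter.1 hw).2.2.2 (Finset.mem_filter.1 hw').2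

/-- The counts for the plus type, with `P = q ^ (k + 3)`. -/
structure PlusData (hQ : IsNondegenerateQuadraticForm Q) (q k P : ℕ) : Prop where
  dim : Fintype.card ι = 2 * k + 8
  size : Nat.card F = q
  hP : P = q ^ (k + 3)
  witt : ∀ W : Submodule F (ι → F), IsTotallySingularQuad Q W → finrank F W ≤ k + 4
  zeros : Nat.card {z // Q z = 0} + P = q * P ^ 2 + q * P
  values : ∀ t : F, t ≠ 0 → Nat.card {z // Q z = t} + P = q * P ^ 2

section generic

variable {hQ : IsNondegenerateQuadraticForm Q} {q k P : ℕ} (D : PlusData hQ q k P)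
include D

lemma PlusData.q_ge : 2 ≤ q := D.size ▸ two_le_natCard

lemma PlusData.slice : (Nat.card F - 1) * Nat.card F ^ (Fintype.card ι - 2) = (q - 1) * P ^ 2 := by
  rw [D.size, D.dim, D.hP, ← pow_mul, show 2 * k + 8 - 2 = (k + 3) * 2 by omega]

lemma PlusData.split : q * P ^ 2 = (q - 1) * P ^ 2 + P ^ 2 := by
  have := D.q_ge
  rw [← Nat.succ_mul, show (q - 1).succ = q by omega]

lemma PlusData.cube_le : q ^ 3 ≤ P := D.hP ▸ Nat.pow_le_pow_right (by have := D.q_ge; omega) (by omega)

lemma PlusData.eight_le : 8 ≤ P := (Nat.pow_le_pow_left D.q_ge 3).trans D.cube_le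

lemma PlusData.singles {u : ι → F} (hu : Q u = 0) (hu0 : u ≠ 0) :
    Nat.card {z // singPerp hQ u z} + q + P = P ^ 2 + q * P := by
  have h := card_singPerp hQ hu hu0
  have hZ := D.zeros
  rw [D.slice, D.size] at h
  have := D.split
  omega

lemma PlusData.pairs {u z : ι → F} (hu : Q u = 0) (hu0 : u ≠ 0) (hz : singPerp hQ u z) :
    Nat.card {w // Q w = 0 ∧ w ∈ perp hQ (Submodule.span F {u} ⊔ Submodule.span F {z}) ∧
      w ∉ Submodule.span F {u} ⊔ Submodule.span F {z}} + q ^ 2 + P = q ^ (2 * k + 5) + q * P := by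
  have h := card_pair_perp hQ (by rw [D.dim]; omega) hu hu0 hz
  have h2 := card_level_perp hQ hu hu0 0
  have hZ := D.zeros
  rw [D.slice] at h2
  rw [D.size, D.dim, show 2 * k + 8 - 3 = 2 * k + 5 by omega] at h
  have := D.split
  have hsq : P ^ 2 = (q - 1) * q ^ (2 * k + 5) + q ^ (2 * k + 5) := by
    have := D.q_ge
    rw [← Nat.succ_mul, show (q - 1).succ = q by omega, ← pow_succ', D.hP, ← pow_mul]
    congr 1; omega
  omega

lemma PlusData.perp_class {u : ι → F} (hu : Q u = 0) (hu0 : u ≠ 0) {s : F} (hs : s ≠ 0) :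
    P ^ 2 ≤ Nat.card {z // bform hQ u z = 0 ∧ SameClass Q s z} + P ∧
      (q - 1) * (P ^ 2 - P) ≤ 2 * Nat.card {z // bform hQ u z = 0 ∧ SameClass Q s z} := by
  obtain ⟨h1, h2⟩ := card_class_perp_ge hQ hu hu0 hs (L := P ^ 2 - P) fun t ht => by
    rw [D.slice]
    have := D.values t ht
    have := D.split
    have : P ≤ P ^ 2 := Nat.le_self_pow two_ne_zero P
    omega
  rw [D.size] at h2
  exact ⟨by omega, h2⟩

end generic

variable {K : Type*} [Field K] [Fintype K]

/-- Each non-zero value is taken equally often. -/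
theorem card_plus_value (m : ℕ) {s : K} (hs : s ≠ 0) :
    Nat.card {v : Fin (m + 1) ⊕ Fin (m + 1) → K // Cfsg.quadFormPlus (m + 1) K v = s} + Fintype.card K ^ m =
      Fintype.card K ^ (2 * m + 1) := by
  have e : {v : Fin (m + 1) ⊕ Fin (m + 1) → K // Cfsg.quadFormPlus (m + 1) K v = s} ≃
      {p : (Fin (m + 1) → K × K) × Unit // (∑ i, (p.1 i).1 * (p.1 i).2) + (fun _ : Unit => -s) p.2 = 0} :=
    ((QuadZeros.pairEquiv (m + 1)).trans (Equiv.prodPUnit _).symm).subtypeEquiv fun v => by
      simp [Cfsg.quadFormPlus, QuadZeros.pairEquiv, ← sub_eq_add_neg, sub_eq_zero]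
  have h := QuadZeros.card_zeros_hyperbolic (fun _ : Unit => -s) (m + 1)
  rw [← Nat.card_congr e] at h
  simp [hs] at h
  apply Nat.eq_of_mul_eq_mul_left (Fintype.card_pos (α := K))
  linear_combination h

theorem plus_data {q : ℕ} (hF : Fintype.card K = q) (k : ℕ) :
    PlusData (OrthGeo.isNondegenerateQuadraticForm_quadFormPlus (F := K) (k + 4)) q k (q ^ (k + 3)) where
  dim := by simp; omega
  size := by rw [Nat.card_eq_fintype_card, hF]
  hP := rfl
  witt W hW := by
    have := two_mul_finrank_le (OrthGeo.isNondegenerateQuadraticForm_quadFormPlus (F := K) (k + 4)) hW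
    simp at this
    omega
  zeros := by
    have hq : 2 ≤ q := hF ▸ Fintype.one_lt_card
    rw [CfsgLib.QuadZeros.card_zeros_plus hF (k + 4) (by omega), show 2 * (k + 4) - 1 = 1 + (k + 3) * 2 by omega,
      pow_add, pow_one, pow_mul, show k + 4 - 1 = k + 3 by omega, show q ^ (k + 4) = q * q ^ (k + 3) by ring,
      Nat.sub_add_cancel (le_add_left (Nat.le_mul_of_pos_left _ (by omega)))]
  values t ht := by
    have h := card_plus_value (k + 3) ht
    rw [hF] at h
    rw [show q * (q ^ (k + 3)) ^ 2 = q ^ (2 * (k + 3) + 1) by ring]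
    exact h

end CfsgLib.MinIndexOrth
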