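import Cfsg.Agent.MinIndexOrth.Main

/-! Seven dimensions over three elements: annihilators with four dimensions containing a non-singular
vector. -/

set_option autoImplicit false
set_option linter.unusedSectionVars false

namespace CfsgLib.MinIndexOrth

open Cfsg.Geo CfsgLib.OrthGeo Module
open scoped Matrix MatrixGroups

variable {ι : Type} [Fintype ι] [DecidableEq ι] {F : Type*} [Field F] [Finite F]
variable {Q : (ι → F) → F}
variable (hQ : IsNondegenerateQuadraticForm Q)
variable {X : Type*} [MulAction (omegaGL Q) X] [Finite X]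

/-- A field with three elements consists of zero, one and minus one. -/
lemma zero_one_neg_one (h3 : Nat.card F = 3) (c : F) : c = 0 ∨ c = 1 ∨ c = -1 := by
  classical
  have := Fintype.ofFinite F
  have h2 : (2 : F) ≠ 0 := fun h => by
    have hc : ((3 : ℕ) : F) = 0 := by rw [← h3, Nat.card_eq_fintype_card]; exact Nat.cast_card_eq_zero F
    push_cast at hc
    exact one_ne_zero (show (1 : F) = 0 by linear_combination hc - h)
  by_contra h
  push Not at h
  have hne : (1 : F) ≠ -1 := fun e => h2 (by linear_combination e)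
  have hc : ({0, 1, -1, c} : Finset F).card = 4 := by
    rw [Finset.card_insert_of_notMem (by simp [h.1.symm]), Finset.card_insert_of_notMem (by simp [hne, h.2.1.symm]),
      Finset.card_insert_of_notMem (by simp [h.2.2.symm]), Finset.card_singleton]
  have := Finset.card_le_univ ({0, 1, -1, c} : Finset F)
  rw [hc, ← Nat.card_eq_fintype_card, h3] at this
  omega

lemma smul_mem_of_three (h3 : Nat.card F = 3) (T : AddSubgroup (ι → F)) {y : ι → F} (hy : y ∈ T) (c : F) :
    c • y ∈ T := by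
  rcases zero_one_neg_one h3 c with rfl | rfl | rfl
  · rw [zero_smul]; exact zero_mem _
  · rwa [one_smul]
  · rw [neg_one_smul]; exact neg_mem hy

include hQ

/-- Translates through `a` are few compared with the vectors of an invariant class. -/
lemma card_shifts_mul_le_class {u a : ι → F} (hu : Q u = 0) {x : X} (ha : a ∈ annW hQ u x) (P : (ι → F) → Prop)
    (hP : ∀ (c : F) (g : omegaGL Q), c ≠ 0 → ((g : GL ι F) : Matrix ι ι F) *ᵥ u = c • u →
      ∀ z, P (c⁻¹ • (((g : GL ι F) : Matrix ι ι F) *ᵥ z)) ↔ P z)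
    (htrans : ∀ z, P z → Move Q (Submodule.span F {u}) a z) :
    (shifts hQ u a x).card * Nat.card {z // P z} ≤
      (family hQ u x).card * Nat.card {z // z ∈ annW hQ u x ∧ P z} := by
  classical
  have := Fintype.ofFinite F
  set O := Finset.univ.filter P with hO
  have h1 : ∀ z ∈ O, (shifts hQ u a x).card ≤ ((family hQ u x).filter fun B => z ∈ B).card := by
    intro z hz
    obtain ⟨c, g, hc, hgu, hga⟩ := htrans z (Finset.mem_filter.1 hz).2
    have hgu' : ((g : GL ι F) : Matrix ι ι F) *ᵥ u = c • u := by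
      have := hgu u (Submodule.mem_span_singleton_self u)
      conv_rhs => rw [← this, smul_inv_smul₀ hc]
    refine Finset.card_le_card_of_injOn
      (fun B => B.map (scaleMove (Q := Q) c⁻¹ g).toAddMonoidHom) (fun B hB => ?_) (fun B _ C _ h => ?_)
    · obtain ⟨hBf, haB⟩ := shifts_subset hQ ha B hB
      exact Finset.mem_filter.2 ⟨family_map hQ hu hBf hc g hgu', a, haB, hga⟩
    · exact AddSubgroup.map_injective (scaleMove_injective hQ (inv_ne_zero hc) g) h
  rw [Nat.card_eq_fintype_card, Fintype.card_subtype, ← hO]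
  calc (shifts hQ u a x).card * O.card
      ≤ ∑ z ∈ O, ((family hQ u x).filter fun B => z ∈ B).card := by
        rw [mul_comm, ← smul_eq_mul]; exact Finset.card_nsmul_le_sum _ _ _ h1
    _ = ∑ B ∈ family hQ u x, (O.filter fun z => z ∈ B).card :=
        (Finset.sum_card_bipartiteAbove_eq_sum_card_bipartiteBelow (fun z (B : AddSubgroup (ι → F)) => z ∈ B))
    _ = _ := by
        rw [Finset.sum_congr rfl fun B hB => (?_ : (O.filter fun z => z ∈ B).card =
          Nat.card {z // z ∈ annW hQ u x ∧ P z}), Finset.sum_const, smul_eq_mul]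
        rw [← card_annW_smul_stab hQ hu hB P hP, Nat.card_eq_fintype_card, Fintype.card_subtype]
        congr 1
        ext z
        simp [hO, and_comm]

/-- No four-dimensional annihilator through a non-singular vector in seven dimensions over three elements. -/
theorem no_three_seven (h3 : Nat.card F = 3) (hn : Fintype.card ι = 7) (hX : Nat.card X ≤ 350)
    (hsingle : ∀ u : ι → F, Q u = 0 → u ≠ 0 → Nat.card {z // singPerp hQ u z} = 240)
    (hclass : ∀ u : ι → F, Q u = 0 → u ≠ 0 → ∀ s : F, s ≠ 0 →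
      216 ≤ Nat.card {z // bform hQ u z = 0 ∧ SameClass Q s z})
    (x : X) (u a : ι → F) (hu : Q u = 0) (hu0 : u ≠ 0) (haA : a ∈ annW hQ u x) (ha : Q a ≠ 0)
    (hU : Nat.card (annW hQ u x ⊔ (Submodule.span F {u} ⊔ Submodule.span F {a}).toAddSubgroup :
        AddSubgroup (ι → F)) = 81) : False := by
  classical
  have := Fintype.ofFinite F
  have h2 : (2 : F) ≠ 0 := fun h => by
    have hc : ((3 : ℕ) : F) = 0 := by rw [← h3, Nat.card_eq_fintype_card]; exact Nat.cast_card_eq_zero F
    push_cast at hc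
    exact one_ne_zero (show (1 : F) = 0 by linear_combination hc - h)
  have hua : bform hQ u a = 0 := b_eq_zero_of_mem_annW hQ hu haA
  set S := Submodule.span F {u} ⊔ Submodule.span F {a} with hS
  have huS : u ∈ S := Submodule.mem_sup_left (Submodule.mem_span_singleton_self u)
  set A := annW hQ u x with hA
  have hSA : S.toAddSubgroup ≤ A := fun z hz => by
    obtain ⟨_, hb₁, _, hb₂, rfl⟩ := Submodule.mem_sup.1 hz
    obtain ⟨t, rfl⟩ := Submodule.mem_span_singleton.1 hb₂
    exact add_mem (span_self_le_annW hQ u x hb₁) (smul_mem_of_three h3 A haA t)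
  rw [sup_eq_left.2 hSA] at hU
  set K := fixW hQ u x with hK
  have hAK : Nat.card A * Nat.card K = 3 ^ 7 := by
    rw [hA, hK, ← hn, ← h3]; exact card_annS_mul hQ (fixW hQ u x)
  have hKc : Nat.card K = 27 := by rw [hU] at hAK; omega
  have hperp : ∀ z ∈ K, ∀ w ∈ A, bform hQ z w = 0 := fun z hz w hw => eq_zero_of_chi fun c => by
    have h := hw (c • z) (smul_mem_of_three h3 K hz c)
    rwa [map_smul, LinearMap.smul_apply, smul_eq_mul, mul_comm] at h
  set M := (shifts hQ u a x).card with hM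
  set L := (family hQ u x).card with hL
  have hLb : L * 81 ≤ 1050 := by
    have h := card_family_mul_le hQ (x := x) (by omega) hu hu0
    rw [← hA, hU, h3, ← hL] at h
    omega
  set P := fun z => bform hQ u z = 0 ∧ SameClass Q (Q a) z with hP
  have hPinv : ∀ (c : F) (g : omegaGL Q), c ≠ 0 → ((g : GL ι F) : Matrix ι ι F) *ᵥ u = c • u →
      ∀ z, P (c⁻¹ • (((g : GL ι F) : Matrix ι ι F) *ᵥ z)) ↔ P z := by
    intro c g hc hg z
    have hgI := omegaGL_le g.2
    have hb := isometry_b hQ hgI u z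
    rw [hg, map_smul, LinearMap.smul_apply, smul_eq_mul] at hb
    simp only [hP, SameClass, map_smul, smul_eq_mul, q_smul hQ, mem_isometryGroup.1 hgI]
    constructor
    · rintro ⟨h1, d, hd, hz⟩
      refine ⟨by rw [← hb, (mul_eq_zero.1 h1).resolve_left (inv_ne_zero hc), mul_zero], c * d, mul_ne_zero hc hd, ?_⟩
      field_simp at hz
      linear_combination hz
    · rintro ⟨h1, d, hd, hz⟩
      rw [h1] at hb
      refine ⟨by rw [(mul_eq_zero.1 hb).resolve_left hc, mul_zero], c⁻¹ * d, mul_ne_zero (inv_ne_zero hc) hd, ?_⟩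
      rw [hz]; ring
  have hMc := card_shifts_mul_le_class hQ hu haA P hPinv fun z hz =>
    move_of_sameClass hQ (by omega) hu hu0 hua ha hz.1 hz.2
  have h216 : 216 ≤ Nat.card {z // P z} := hclass u hu hu0 _ ha
  rw [← hA, ← hM, ← hL] at hMc
  have hM4 : M ≤ 4 := by
    have h1 : Nat.card {z // z ∈ A ∧ P z} ≤ 81 := hU ▸ Nat.card_le_card_of_injective
      (fun z => (⟨z.1, z.2.1⟩ : A)) fun z w h => Subtype.ext (congrArg (fun p : A => (p : ι → F)) h)
    have h2' : M * 216 ≤ L * 81 := ((Nat.mul_le_mul_left M h216).trans hMc).trans (Nat.mul_le_mul_left L h1)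
    omega
  -- the fixed space is perpendicular to `a` and meets the pair in the line
  have hSu : ∀ z ∈ K, z ∈ S → z ∈ Submodule.span F {u} := fun z hz hzS => by
    obtain ⟨b, hb, _, hc, rfl⟩ := Submodule.mem_sup.1 hzS
    obtain ⟨t, rfl⟩ := Submodule.mem_span_singleton.1 hc
    obtain ⟨r, rfl⟩ := Submodule.mem_span_singleton.1 hb
    have h := hperp _ hz a haA
    rw [map_add, map_smul, map_smul, LinearMap.add_apply, LinearMap.smul_apply, LinearMap.smul_apply, hua,
      b_self hQ, smul_zero, zero_add, smul_eq_mul] at h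
    rw [(mul_eq_zero.1 h).resolve_right (mul_ne_zero h2 ha), zero_smul, add_zero]
    exact Submodule.smul_mem _ _ (Submodule.mem_span_singleton_self u)
  have hSucard : Nat.card (Submodule.span F ({u} : Set (ι → F))).toAddSubgroup = 3 := by
    rw [natCard_submodule, finrank_span_singleton hu0, pow_one, h3]
  have hSuK : (Submodule.span F ({u} : Set (ι → F))).toAddSubgroup ≤ K := span_self_le_fixW hQ hu x
  -- orbits of vectors of the fixed space
  have hcov : ∀ O : Finset (ι → F), (∀ z ∈ O, z ∉ S ∧ ∃ y ∈ K, Shift Q S y z) → O.card ≤ M * 24 := by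
    intro O hO
    have hc := card_cover_le hQ (fun B => annS hQ B) (x := x) (u := u) (a := a) (fun g hg => by
      show annS hQ (annW hQ u (g • x)) = (annS hQ (annW hQ u x)).map _
      rw [annS_annW, annS_annW, fixW_omMap hQ g (hg u huS)])
      (Submodule.span F ({u} : Set (ι → F))).toAddSubgroup (by show _ ≤ annS hQ (annW hQ u x); rw [annS_annW]; exact hSuK)
      (fun z hz => Submodule.mem_sup_left hz) O fun z hz => by
        obtain ⟨hzS, y, hy, hyz⟩ := hO z hz
        exact ⟨fun h => hzS (Submodule.mem_sup_left h), y, by show y ∈ annS hQ (annW hQ u x); rw [annS_annW]; exact hy, hyz⟩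
    rw [hSucard] at hc
    simp only [annS_annW, ← hK, hKc] at hc
    exact hc
  have horb : ∀ y ∈ K, y ∉ S → ∃ O : Finset (ι → F), 54 ≤ O.card ∧
      ∀ z ∈ O, z ∉ S ∧ Q z = Q y ∧ Shift Q S y z := fun y _ hyS => by
    obtain ⟨O, hO, hOz⟩ := exists_orbit hQ (by omega) (Or.inl h2) hu hua ha hyS
    rw [h3, hn] at hO
    exact ⟨O, hO, fun z hz => ⟨(hOz z hz).1, (hOz z hz).2.2.1, (hOz z hz).2.2.2⟩⟩
  obtain ⟨y₀, hy₀, hy₀S⟩ : ∃ y ∈ K, y ∉ S := by
    by_contra h
    push Not at h
    have := AddSubgroup.card_le_of_le (show K ≤ (Submodule.span F ({u} : Set (ι → F))).toAddSubgroup from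
      fun z hz => hSu z hz (h z hz))
    omega
  have hM3 : 3 ≤ M := by
    obtain ⟨O, hO, hOz⟩ := horb y₀ hy₀ hy₀S
    have := hcov O fun z hz => ⟨(hOz z hz).1, y₀, hy₀, (hOz z hz).2.2⟩
    omega
  have hval : ∀ y ∈ K, y ∉ S → Q y = Q y₀ := by
    intro y hy hyS
    by_contra hne
    obtain ⟨O, hO, hOz⟩ := horb y hy hyS
    obtain ⟨O', hO', hOz'⟩ := horb y₀ hy₀ hy₀S
    have hd : Disjoint O O' := Finset.disjoint_left.2 fun z hz hz' =>
      hne ((hOz z hz).2.1.symm.trans (hOz' z hz').2.1)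
    have := hcov (O ∪ O') fun z hz => by
      rcases Finset.mem_union.1 hz with hz | hz
      · exact ⟨(hOz z hz).1, y, hy, (hOz z hz).2.2⟩
      · exact ⟨(hOz' z hz).1, y₀, hy₀, (hOz' z hz).2.2⟩
    rw [Finset.card_union_of_disjoint hd] at this
    omega
  -- a vector independent of `u` and `y₀`
  obtain ⟨y₁, hy₁, hy₁S⟩ : ∃ y ∈ K, y ∉ Submodule.span F {u} ⊔ Submodule.span F {y₀} := by
    by_contra h
    push Not at h
    have := card_le_pow_two_of_le_pair hQ (u := u) (a := y₀) (T := K) h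
    rw [h3] at this
    omega
  have hnS : ∀ r t : F, ¬ (r = 0 ∧ t = 0) → r • y₁ + t • y₀ ∉ S := by
    intro r t hrt h
    have hm : r • y₁ + t • y₀ ∈ K := add_mem (smul_mem_of_three h3 K hy₁ r) (smul_mem_of_three h3 K hy₀ t)
    obtain ⟨c, hc⟩ := Submodule.mem_span_singleton.1 (hSu _ hm h)
    by_cases hr : r = 0
    · have ht : t ≠ 0 := fun h => hrt ⟨hr, h⟩
      rw [hr, zero_smul, zero_add] at hc
      refine hy₀S ?_
      rw [← inv_smul_smul₀ ht y₀, ← hc]
      exact Submodule.smul_mem _ _ (Submodule.smul_mem _ _ huS)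
    · refine hy₁S (Submodule.mem_sup.2 ⟨(r⁻¹ * c) • u, Submodule.smul_mem _ _ (Submodule.mem_span_singleton_self u),
        -(r⁻¹ * t) • y₀, Submodule.smul_mem _ _ (Submodule.mem_span_singleton_self y₀), ?_⟩)
      rw [← smul_smul, hc, neg_smul, smul_add, smul_smul, inv_mul_cancel₀ hr, one_smul, smul_smul]
      abel
  have e1 := hval (y₁ + y₀) (add_mem hy₁ hy₀) (by simpa using hnS 1 1 (by simp))
  have e2 := hval (y₁ - y₀) (sub_mem hy₁ hy₀) (by simpa [sub_eq_add_neg] using hnS 1 (-1) (by simp))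
  have e3 := hval y₁ hy₁ (by simpa using hnS 1 0 (by simp))
  rw [q_add hQ, e3] at e1
  rw [q_sub hQ, e3] at e2
  have hc0 : Q y₀ = 0 := (mul_eq_zero.1 (show 2 * Q y₀ = 0 by linear_combination e1 + e2)).resolve_left h2
  have hKsing : ∀ z ∈ K, Q z = 0 := fun z hz => by
    by_cases hzS : z ∈ S
    · obtain ⟨r, rfl⟩ := Submodule.mem_span_singleton.1 (hSu z hz hzS)
      rw [q_smul hQ, hu, mul_zero]
    · rw [hval z hz hzS, hc0]
  -- the annihilator is the fixed space together with the line of `a`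
  have hKA : K ≤ A := fun z hz w hw => by
    have h1 := hKsing w hw
    have h2' := hKsing z hz
    have h3' := hKsing _ (add_mem hw hz)
    rw [q_add hQ, h1, h2', zero_add, zero_add] at h3'
    rw [h3', AddChar.map_zero_eq_one]
  have hdec : ∀ z ∈ A, ∃ k ∈ K, ∃ t : F, z = k + t • a := by
    let φ : K × F → A := fun p => ⟨p.1.1 + p.2 • a, add_mem (hKA p.1.2) (smul_mem_of_three h3 A haA p.2)⟩
    have hinj : Function.Injective φ := by
      rintro ⟨⟨k, hk⟩, t⟩ ⟨⟨k', hk'⟩, t'⟩ h
      have h' : k + t • a = k' + t' • a := congrArg (fun p : A => (p : ι → F)) h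
      have hb := congrArg (fun z => bform hQ z a) h'
      simp only [map_add, map_smul, LinearMap.add_apply, LinearMap.smul_apply, hperp k hk a haA, hperp k' hk' a haA,
        b_self hQ, zero_add, smul_eq_mul] at hb
      obtain rfl := mul_right_cancel₀ (mul_ne_zero h2 ha) hb
      obtain rfl := add_right_cancel h'
      rfl
    have hb := hinj.bijective_of_nat_card_le (by rw [Nat.card_prod, hKc, h3, hU])
    intro z hz
    obtain ⟨⟨⟨k, hk⟩, t⟩, hp⟩ := hb.2 ⟨z, hz⟩
    exact ⟨k, hk, t, (congrArg (fun p : A => (p : ι → F)) hp).symm⟩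
  have hQA : ∀ k ∈ K, ∀ t : F, Q (k + t • a) = t ^ 2 * Q a := fun k hk t => by
    rw [q_add hQ, q_smul hQ, hKsing k hk, map_smul, hperp k hk a haA, smul_zero, zero_add, add_zero]
  have hc1 : Nat.card {z // z ∈ A ∧ singPerp hQ u z} + 3 ≤ 27 := by
    rw [← hSucard, ← hKc, ← Nat.card_sum]
    refine Nat.card_le_card_of_injective (Sum.elim
      (fun z => (⟨z.1, ?_⟩ : K)) (fun z => (⟨z.1, hSuK z.2⟩ : K))) ?_
    · obtain ⟨hzA, hzQ, -, -⟩ := z.2
      obtain ⟨k, hk, t, hzk⟩ := hdec _ hzA
      rw [hzk, hQA k hk t] at hzQ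
      rw [hzk, pow_eq_zero_iff two_ne_zero |>.1 ((mul_eq_zero.1 hzQ).resolve_right ha), zero_smul, add_zero]
      exact hk
    · rintro (z | z) (z' | z') h <;> simp only [Sum.elim_inl, Sum.elim_inr, Subtype.mk.injEq] at h
      · exact congrArg Sum.inl (Subtype.ext h)
      · exact absurd (h ▸ z'.2) z.2.2.2.2
      · exact absurd (h.symm ▸ z.2) z'.2.2.2.2
      · exact congrArg Sum.inr (Subtype.ext h)
  have hc2 : 24 ≤ Nat.card {z // z ∈ A ∧ singPerp hQ u z} := by
    have : 27 ≤ Nat.card {z // z ∈ A ∧ singPerp hQ u z} + 3 := by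
      rw [← hSucard, ← hKc, ← Nat.card_sum]
      refine Nat.card_le_card_of_surjective (Sum.elim (fun z => (⟨z.1, ?_⟩ : K)) (fun z => (⟨z.1, hSuK z.2⟩ : K))) ?_
      · obtain ⟨hzA, hzQ, -, -⟩ := z.2
        obtain ⟨k, hk, t, hzk⟩ := hdec _ hzA
        rw [hzk, hQA k hk t] at hzQ
        rw [hzk, pow_eq_zero_iff two_ne_zero |>.1 ((mul_eq_zero.1 hzQ).resolve_right ha), zero_smul, add_zero]
        exact hk
      · rintro ⟨z, hz⟩
        by_cases hm : z ∈ Submodule.span F {u}
        · exact ⟨Sum.inr ⟨z, hm⟩, rfl⟩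
        · exact ⟨Sum.inl ⟨z, hKA hz, hKsing z hz, hz.1, hm⟩, rfl⟩
    omega
  have hcls : Nat.card {z // z ∈ A ∧ P z} ≤ 54 := by
    have : Nat.card {z // z ∈ A ∧ P z} + Nat.card K ≤ Nat.card A := by
      rw [← Nat.card_sum]
      refine Nat.card_le_card_of_injective (Sum.elim (fun z => (⟨z.1, z.2.1⟩ : A)) (fun z => (⟨z.1, hKA z.2⟩ : A))) ?_
      rintro (z | z) (z' | z') h <;> simp only [Sum.elim_inl, Sum.elim_inr, Subtype.mk.injEq] at h
      · exact congrArg Sum.inl (Subtype.ext h)
      · obtain ⟨-, -, d, hd, hz⟩ := z.2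
        rw [h, hKsing _ z'.2] at hz
        exact absurd hz.symm (mul_ne_zero (pow_ne_zero _ hd) ha)
      · obtain ⟨-, -, d, hd, hz⟩ := z'.2
        rw [← h, hKsing _ z.2] at hz
        exact absurd hz.symm (mul_ne_zero (pow_ne_zero _ hd) ha)
      · exact congrArg Sum.inr (Subtype.ext h)
    omega
  -- the count of singular vectors
  have hdvd := dvd_family_mul hQ hu (x := x) (singPerp hQ u) (fun c g hc hg z => ?_) (fun z z' hz hz' =>
    (move_perp hQ (by omega) hu hu0 hz.2.1 hz'.2.1 hz.2.2 hz'.2.2 (hz.1.trans hz'.1.symm)).toMove)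
  · rw [hsingle u hu hu0, ← hA, ← hL, le_antisymm (show Nat.card {z // z ∈ A ∧ singPerp hQ u z} ≤ 24 by omega) hc2]
      at hdvd
    have h648 : 3 * 216 ≤ L * 54 := (Nat.mul_le_mul hM3 h216).trans (hMc.trans (Nat.mul_le_mul_left L hcls))
    omega
  · have hgI := omegaGL_le g.2
    have hb := isometry_b hQ hgI u z
    rw [hg, map_smul, LinearMap.smul_apply, smul_eq_mul] at hb
    have hspan : c⁻¹ • (((g : GL ι F) : Matrix ι ι F) *ᵥ z) ∈ Submodule.span F {u} ↔ z ∈ Submodule.span F {u} := by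
      rw [Submodule.mem_span_singleton, Submodule.mem_span_singleton]
      constructor
      · rintro ⟨r, hr⟩
        refine ⟨r, ?_⟩
        have := congrArg (fun y => ((((g : GL ι F)⁻¹ : GL ι F) : Matrix ι ι F) *ᵥ (c • y))) hr
        simp only [smul_inv_smul₀ hc, inv_mulVec_cancel] at this
        rw [← this, smul_comm c r u, Matrix.mulVec_smul, ← hg, inv_mulVec_cancel]
      · rintro ⟨r, rfl⟩
        exact ⟨r, by rw [Matrix.mulVec_smul, hg, smul_comm r c, inv_smul_smul₀ hc]⟩
    simp only [singPerp, q_smul hQ, mem_isometryGroup.1 hgI, hspan, map_smul, smul_eq_mul, mul_eq_zero,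
      pow_eq_zero_iff two_ne_zero, inv_eq_zero, hc, false_or]
    refine ⟨fun h => ⟨h.1, by rw [← hb, h.2.1, mul_zero], h.2.2⟩, fun h => ⟨h.1, ?_, h.2.2⟩⟩
    rw [h.2.1] at hb
    exact (mul_eq_zero.1 hb).resolve_left hc

end CfsgLib.MinIndexOrth
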