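import Cfsg.Agent.MinIndexOrth.PlusCounts
import Cfsg.Agent.MinIndexOrth.PairAll
import Cfsg.Agent.MinIndexOrth.ThreeSeven

/-! The least index of a proper subgroup of the orthogonal groups of plus type over two elements. -/

set_option autoImplicit false
set_option linter.unusedSectionVars false

namespace CfsgLib.MinIndexOrth

open Cfsg Cfsg.Geo CfsgLib.OrthGeo Module
open scoped Matrix MatrixGroups

variable {ι : Type} [Fintype ι] [DecidableEq ι] {F : Type*} [Field F] [Finite F]
variable {Q : (ι → F) → F}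

lemma zero_or_one_of_two (h2 : Nat.card F = 2) (c : F) : c = 0 ∨ c = 1 := by
  classical
  have := Fintype.ofFinite F
  by_contra h
  push Not at h
  have h1 := Finset.card_le_univ ({0, 1, c} : Finset F)
  rw [Finset.card_insert_of_notMem (by simp [h.1.symm]), Finset.card_insert_of_notMem (by simp [h.2.symm]),
    Finset.card_singleton, ← Nat.card_eq_fintype_card, h2] at h1
  omega

/-- Over two elements a group of vectors is a subspace. -/
lemma eq_span_of_two (h2 : Nat.card F = 2) (A : AddSubgroup (ι → F)) :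
    A = (Submodule.span F (A : Set (ι → F))).toAddSubgroup := by
  refine le_antisymm (fun z hz => Submodule.subset_span hz) fun z hz => ?_
  refine Submodule.span_induction (p := fun z _ => z ∈ A) (fun z hz => hz) (zero_mem A)
    (fun a b _ _ => add_mem) (fun c a _ ha => ?_) hz
  rcases zero_or_one_of_two h2 c with rfl | rfl
  · rw [zero_smul]; exact zero_mem A
  · rw [one_smul]; exact ha

/-- If the singular vectors of an annihilator lie on one line, it has at most eight elements. -/
lemma card_le_eight_of_two (hQ : IsNondegenerateQuadraticForm Q) (h2 : Nat.card F = 2) {u : ι → F}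
    (hu : Q u = 0) {A : AddSubgroup (ι → F)} (huA : u ∈ A) (hAu : ∀ z ∈ A, bform hQ u z = 0)
    (hA : ∀ z ∈ A, Q z = 0 → z ∈ Submodule.span F {u}) : Nat.card A ≤ 8 := by
  by_contra hbig
  push Not at hbig
  set W := Submodule.span F (A : Set (ι → F)) with hW
  have hWA : A = W.toAddSubgroup := eq_span_of_two h2 A
  have hWd : 4 ≤ finrank F W := by
    by_contra h
    have e : Nat.card A = 2 ^ finrank F W := by rw [hWA, natCard_submodule, h2]
    have := Nat.pow_le_pow_right (show 0 < 2 by norm_num) (show finrank F W ≤ 3 by omega)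
    omega
  have pick : ∀ S : Submodule F (ι → F), finrank F S ≤ 3 → ∃ w ∈ A, w ∉ S := fun S hS => by
    by_contra h
    push Not at h
    have := Submodule.finrank_mono (show W ≤ S from Submodule.span_le.2 h)
    omega
  obtain ⟨a, ha, haS⟩ := pick (Submodule.span F {u}) ((finrank_span_le_one hQ u).trans (by norm_num))
  obtain ⟨b, hb, hbS⟩ := pick _ ((finrank_span_pair_le hQ u a).trans (by norm_num))
  obtain ⟨c, hc, hcS⟩ := pick (Submodule.span F {u} ⊔ Submodule.span F {a} ⊔ Submodule.span F {b})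
    ((Submodule.finrank_add_le_finrank_add_finrank _ _).trans (by
      have := finrank_span_pair_le hQ u a
      have := finrank_span_le_one hQ b
      omega))
  have h20 : (2 : F) = 0 := by
    have := Fintype.ofFinite F
    have hcast : ((2 : ℕ) : F) = 0 := by rw [← h2, Nat.card_eq_fintype_card]; exact Nat.cast_card_eq_zero F
    exact_mod_cast hcast
  have hone : ∀ z ∈ A, z ∉ Submodule.span F {u} → Q z = 1 := fun z hz hzu =>
    (zero_or_one_of_two h2 (Q z)).resolve_left fun h => hzu (hA z hz h)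
  have hB : ∀ p r, p ∈ A → r ∈ A → p ∉ Submodule.span F {u} → r ∉ Submodule.span F {u} →
      p + r ∉ Submodule.span F {u} → bform hQ p r = 1 := fun p r hp hr n1 n2 n3 => by
    have h := hone _ (add_mem hp hr) n3
    rw [q_add hQ, hone p hp n1, hone r hr n2] at h
    linear_combination h - h20
  have hua := Submodule.mem_sup_left (T := Submodule.span F {a}) (Submodule.mem_span_singleton_self (R := F) u)
  have hle : Submodule.span F {u} ≤ Submodule.span F {u} ⊔ Submodule.span F {a} ⊔ Submodule.span F {b} :=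
    le_sup_left.trans le_sup_left
  have haab : a ∈ Submodule.span F {u} ⊔ Submodule.span F {a} ⊔ Submodule.span F {b} :=
    Submodule.mem_sup_left (Submodule.mem_sup_right (Submodule.mem_span_singleton_self a))
  have hbab : b ∈ Submodule.span F {u} ⊔ Submodule.span F {a} ⊔ Submodule.span F {b} :=
    Submodule.mem_sup_right (Submodule.mem_span_singleton_self b)
  have hbu : b ∉ Submodule.span F {u} := fun h => hbS (Submodule.mem_sup_left h)
  have hcu : c ∉ Submodule.span F {u} := fun h => hcS (hle h)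
  have hab : a + b ∉ Submodule.span F {u} := fun h => hbS (by
    have := Submodule.sub_mem _ (Submodule.mem_sup_left (T := Submodule.span F {a}) h)
      (Submodule.mem_sup_right (Submodule.mem_span_singleton_self a))
    rwa [add_sub_cancel_left] at this)
  have hac : a + c ∉ Submodule.span F {u} := fun h => hcS (by
    have := Submodule.sub_mem _ (hle h) haab
    rwa [add_sub_cancel_left] at this)
  have hbc : b + c ∉ Submodule.span F {u} := fun h => hcS (by
    have := Submodule.sub_mem _ (hle h) hbab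
    rwa [add_sub_cancel_left] at this)
  have habc : a + b + c ∉ Submodule.span F {u} := fun h => hcS (by
    have := Submodule.sub_mem _ (hle h) (Submodule.add_mem _ haab hbab)
    rwa [add_sub_cancel_left] at this)
  have h := hone _ (add_mem (add_mem ha hb) hc) habc
  rw [q_add hQ, q_add hQ, hone a ha haS, hone b hb hbu, hone c hc hcu, map_add, LinearMap.add_apply,
    hB a b ha hb haS hbu hab, hB a c ha hc haS hcu hac, hB b c hb hc hbu hcu hbc] at h
  exact one_ne_zero (show (1 : F) = 0 by linear_combination 3 * h20 - h)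

/-- Few translates share a nonsingular vector. -/
theorem plus_two_shifts {X : Type*} [MulAction (omegaGL Q) X] [Finite X] {hQ : IsNondegenerateQuadraticForm Q}
    {k P : ℕ} (D : PlusData hQ 2 k P) {v : ℕ} (hv : v + P = 2 * P ^ 2) (hXv : Nat.card X < v) {u a : ι → F}
    {x : X} (hu : Q u = 0) (hu0 : u ≠ 0) (haA : a ∈ annW hQ u x) (ha : Q a ≠ 0) :
    (shifts hQ u a x).card ≤ 3 := by
  classical
  have := Fintype.ofFinite F
  have hn : 7 ≤ Fintype.card ι := by rw [D.dim]; omega
  have h2 := D.size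
  let Pc : (ι → F) → Prop := fun z => bform hQ u z = 0 ∧ Q z = 1
  let Ps : (ι → F) → Prop := singPerp hQ u
  have hua : bform hQ u a = 0 := b_eq_zero_of_mem_annW hQ hu haA
  have hQa : Q a = 1 := (zero_or_one_of_two h2 _).resolve_left ha
  have hbg : ∀ (c : F) (g : omegaGL Q), c ≠ 0 → ((g : GL ι F) : Matrix ι ι F) *ᵥ u = c • u → ∀ z,
      (bform hQ u (c⁻¹ • (((g : GL ι F) : Matrix ι ι F) *ᵥ z)) = bform hQ u z ∧
        Q (c⁻¹ • (((g : GL ι F) : Matrix ι ι F) *ᵥ z)) = Q z) ∧
        (c⁻¹ • (((g : GL ι F) : Matrix ι ι F) *ᵥ z) ∈ Submodule.span F {u} ↔ z ∈ Submodule.span F {u}) := by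
    intro c g hc hgu z
    have hc1 : c = 1 := (zero_or_one_of_two h2 c).resolve_left hc
    subst hc1
    rw [one_smul] at hgu
    rw [inv_one, one_smul]
    refine ⟨⟨?_, mem_isometryGroup.1 (omegaGL_le g.2) z⟩, ?_⟩
    · conv_lhs => rw [← hgu, isometry_b hQ (omegaGL_le g.2)]
    · constructor <;> intro h <;> obtain ⟨r, hr⟩ := Submodule.mem_span_singleton.1 h <;>
        refine Submodule.mem_span_singleton.2 ⟨r, ?_⟩
      · have h' := congrArg ((((g : GL ι F)⁻¹ : GL ι F) : Matrix ι ι F) *ᵥ ·) hr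
        simp only [Matrix.mulVec_smul, inv_mulVec_cancel] at h'
        rwa [show (((g : GL ι F)⁻¹ : GL ι F) : Matrix ι ι F) *ᵥ u = u by
          conv_lhs => rw [← hgu, inv_mulVec_cancel]] at h'
      · rw [← hr, Matrix.mulVec_smul, hgu]
  have hPc : ∀ (c : F) (g : omegaGL Q), c ≠ 0 → ((g : GL ι F) : Matrix ι ι F) *ᵥ u = c • u → ∀ z,
      Pc (c⁻¹ • (((g : GL ι F) : Matrix ι ι F) *ᵥ z)) ↔ Pc z := fun c g hc hgu z => by
    obtain ⟨⟨e1, e2⟩, -⟩ := hbg c g hc hgu z
    simp only [Pc, e1, e2]
  have hPs : ∀ (c : F) (g : omegaGL Q), c ≠ 0 → ((g : GL ι F) : Matrix ι ι F) *ᵥ u = c • u → ∀ z,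
      Ps (c⁻¹ • (((g : GL ι F) : Matrix ι ι F) *ᵥ z)) ↔ Ps z := fun c g hc hgu z => by
    obtain ⟨⟨e1, e2⟩, e3⟩ := hbg c g hc hgu z
    simp only [Ps, singPerp, e1, e2, e3]
  have hb := card_shifts_mul_le_class hQ hu haA Pc hPc fun z hz =>
    move_of_sameClass hQ hn hu hu0 hua ha hz.1 ⟨1, one_ne_zero, by rw [hz.2, hQa]; ring⟩
  have hdvd := dvd_family_mul hQ hu (x := x) Ps hPs fun z z' hz hz' =>
    (move_perp hQ hn hu hu0 hz.2.1 hz'.2.1 hz.2.2 hz'.2.2 (hz.1.trans hz'.1.symm)).toMove
  have hC : P ^ 2 ≤ Nat.card {z // Pc z} + P := by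
    have h := card_level_perp hQ hu hu0 (1 : F)
    have hval := D.values 1 one_ne_zero
    rw [D.slice] at h
    show _ ≤ Nat.card {z // bform hQ u z = 0 ∧ Q z = 1} + P
    omega
  have hN := D.singles hu hu0
  have hL := card_family_mul_le hQ (x := x) (by omega) hu hu0
  rw [h2] at hL
  -- split the annihilator
  set A := annW hQ u x with hA
  have hS : (Submodule.span F {u}).toAddSubgroup ≤ A := span_self_le_annW hQ u x
  have hsplit : Nat.card A = 2 + Nat.card {z // z ∈ A ∧ Ps z} + Nat.card {z // z ∈ A ∧ Pc z} := by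
    have h1 : 2 = (Finset.univ.filter fun z : ι → F => z ∈ Submodule.span F {u}).card := by
      rw [← Fintype.card_subtype, ← Nat.card_eq_fintype_card]
      show 2 = Nat.card (Submodule.span F {u}).toAddSubgroup
      rw [natCard_submodule, finrank_span_singleton hu0, pow_one, h2]
    rw [Nat.card_eq_fintype_card, Nat.card_eq_fintype_card, Nat.card_eq_fintype_card, Fintype.card_subtype,
      Fintype.card_subtype, Fintype.card_subtype, h1, ← Finset.card_union_of_disjoint,
      ← Finset.card_union_of_disjoint]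
    · congr 1
      ext z
      simp only [Finset.mem_union, Finset.mem_filter, Finset.mem_univ, true_and, Pc, Ps, singPerp]
      constructor
      · intro hz
        by_cases hzu : z ∈ Submodule.span F {u}
        · exact Or.inl (Or.inl hzu)
        have hb0 := b_eq_zero_of_mem_annW hQ hu hz
        rcases zero_or_one_of_two h2 (Q z) with h | h
        · exact Or.inl (Or.inr ⟨hz, h, hb0, hzu⟩)
        · exact Or.inr ⟨hz, hb0, h⟩
      · rintro ((h | h) | h)
        · exact hS h
        · exact h.1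
        · exact h.1
    · refine Finset.disjoint_left.2 fun z hz hz' => ?_
      obtain ⟨-, -, h1⟩ := (Finset.mem_filter.1 hz').2
      rcases Finset.mem_union.1 hz with hz | hz
      · obtain ⟨r, rfl⟩ := Submodule.mem_span_singleton.1 (Finset.mem_filter.1 hz).2
        rw [q_smul hQ, hu, mul_zero] at h1
        exact zero_ne_one h1
      · rw [(Finset.mem_filter.1 hz).2.2.1] at h1
        exact zero_ne_one h1
    · exact Finset.disjoint_left.2 fun z hz hz' => (Finset.mem_filter.1 hz').2.2.2.2 (Finset.mem_filter.1 hz).2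
  by_contra hM
  push Not at hM
  have hM' := (Nat.mul_le_mul_right (Nat.card {z // Pc z}) hM).trans hb
  have hP8 := D.eight_le
  have hPP : 8 * P ≤ P ^ 2 := by rw [sq]; exact Nat.mul_le_mul_right _ hP8
  rw [hsplit, mul_add, mul_add] at hL
  set L := (family hQ u x).card with hLdef
  set s := Nat.card {z // z ∈ A ∧ Ps z} with hs
  set c := Nat.card {z // z ∈ A ∧ Pc z} with hc
  rcases Nat.eq_zero_or_pos s with hs0 | hs0
  · have h8 : Nat.card A ≤ 8 := card_le_eight_of_two hQ h2 hu (hS (Submodule.mem_span_singleton_self u))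
      (fun z hz => b_eq_zero_of_mem_annW hQ hu hz) fun z hz hz0 => by
        by_contra hzu
        have : Nonempty {z // z ∈ A ∧ Ps z} := ⟨⟨z, hz, hz0, b_eq_zero_of_mem_annW hQ hu hz, hzu⟩⟩
        have := Nat.card_pos (α := {z // z ∈ A ∧ Ps z})
        omega
    have hc6 : L * c ≤ L * 6 := Nat.mul_le_mul_left L (by omega)
    omega
  · have hL0 : 0 < L := Finset.card_pos.2 ⟨_, annW_mem_family hQ u x⟩
    have h := Nat.le_of_dvd (Nat.mul_pos hL0 hs0) hdvd
    have hN' : Nat.card {z // Ps z} = Nat.card {z // singPerp hQ u z} := rfl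
    omega

/-- Singular annihilators are small. -/
theorem plus_two_singular {X : Type*} [MulAction (omegaGL Q) X] [Finite X] {hQ : IsNondegenerateQuadraticForm Q}
    {k P : ℕ} (D : PlusData hQ 2 k P) {v : ℕ} (hv : v + P = 2 * P ^ 2) (hXv : Nat.card X < v) {u : ι → F}
    {x : X} (hu : Q u = 0) (hu0 : u ≠ 0) (hsing : ∀ a ∈ annW hQ u x, Q a = 0) :
    finrank F (spanA hQ u x) ≤ 2 := by
  classical
  by_contra h3
  push Not at h3
  have h2 := D.size
  have hts := spanA_totallySingular hQ hsing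
  have hclosed : annW hQ u x = (spanA hQ u x).toAddSubgroup := eq_span_of_two h2 _
  have hj := D.witt _ hts
  have hn : 7 ≤ Fintype.card ι := by rw [D.dim]; omega
  have hα : Nat.card (annW hQ u x) = 2 ^ finrank F (spanA hQ u x) := by rw [hclosed, natCard_submodule, h2]
  obtain ⟨α, hαe⟩ : ∃ α, Nat.card (annW hQ u x) = α := ⟨_, rfl⟩
  have hα8 : 8 ≤ α := by
    rw [← hαe, hα]; exact le_trans (by norm_num) (Nat.pow_le_pow_right (show 0 < 2 by norm_num) h3)
  have hαM : α ≤ 2 * P := by
    rw [← hαe, hα, D.hP, ← pow_succ']; exact Nat.pow_le_pow_right (by norm_num) hj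
  obtain ⟨O, hO⟩ : ∃ O, O + 4 + P = 2 ^ (2 * k + 5) + 2 * P := ⟨2 ^ (2 * k + 5) + 2 * P - 4 - P, by
    have := D.eight_le; have := Nat.one_le_pow (2 * k + 5) 2 (by norm_num); omega⟩
  have hpc := pair_count_all hQ hn hu hu0 hsing h3 _ (sq_le_card_inf hQ hu hu0 hclosed) O fun z hz => by
    have := D.pairs hu hu0 hz
    omega
  rw [h2, hαe] at hpc
  have hL := card_family_mul_le hQ (x := x) (by omega) hu hu0
  rw [h2, hαe] at hL
  have hN := D.singles hu hu0
  obtain ⟨N, hNe⟩ : ∃ N, Nat.card {z // singPerp hQ u z} = N := ⟨_, rfl⟩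
  rw [hNe] at hN hpc
  set L := (family hQ u x).card
  have hP2 : 2 * 2 ^ (2 * k + 5) = P ^ 2 := by rw [D.hP, ← pow_mul, ← pow_succ']; congr 1; omega
  have hlow : α * (N * O) ≤ 2 * Nat.card X * ((α - 2) * (α - 4)) :=
    calc α * (N * O) ≤ α * (L * ((α - 2) * (α - 2 ^ 2))) := Nat.mul_le_mul_left _ hpc
      _ = L * α * ((α - 2) * (α - 4)) := by ring
      _ ≤ _ := Nat.mul_le_mul_right _ hL
  have hP8 := D.eight_le
  zify [show 2 ≤ α by omega, show 4 ≤ α by omega] at hlow
  zify at hXv hv hN hO hP2 hα8 hαM hP8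
  have hNv : (N : ℤ) = (P + 2) * (P - 1) := by linear_combination hN
  have hOv : 2 * (O : ℤ) = (P + 4) * (P - 2) := by linear_combination 2 * hO + hP2
  have hpos : (0 : ℤ) < ((α : ℤ) - 2) * (α - 4) := mul_pos (by linarith) (by linarith)
  have h1 : (α : ℤ) * (N * O) < 2 * v * (((α : ℤ) - 2) * (α - 4)) :=
    lt_of_le_of_lt hlow (mul_lt_mul_of_pos_right (by linarith) hpos)
  have htop : 2 * (v : ℤ) * ((2 * P - 2) * (2 * P - 4)) ≤ 2 * P * (N * O) := by
    have e : 2 * (P : ℤ) * (N * O) = P * ((P + 2) * (P - 1)) * ((P + 4) * (P - 2)) := by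
      rw [← hNv, ← hOv]; ring
    have e' : (v : ℤ) = P * (2 * P - 1) := by linear_combination hv
    rw [e, e']
    have h0 : 0 ≤ (P : ℤ) * (P - 1) * (P - 2) * ((P - 2) * (P - 8)) :=
      mul_nonneg (mul_nonneg (mul_nonneg (by linarith) (by linarith)) (by linarith))
        (mul_nonneg (by linarith) (by linarith))
    linarith
  have hcross : ((α : ℤ) - 2) * (α - 4) * (2 * P) ≤ (2 * P - 2) * (2 * P - 4) * α := by
    have : 0 ≤ (2 * (P : ℤ) - α) * (2 * P * α - 8) := mul_nonneg (by linarith) (by nlinarith)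
    linarith
  have h2P : (0 : ℤ) < 2 * P := by linarith
  have hv0 : (0 : ℤ) ≤ 2 * v := by positivity
  refine lt_irrefl (2 * (P : ℤ) * ((α : ℤ) * (N * O))) ?_
  calc 2 * (P : ℤ) * ((α : ℤ) * (N * O)) < 2 * (P : ℤ) * (2 * v * (((α : ℤ) - 2) * (α - 4))) :=
        mul_lt_mul_of_pos_left h1 h2P
    _ = 2 * v * (((α : ℤ) - 2) * (α - 4) * (2 * P)) := by ring
    _ ≤ 2 * v * ((2 * P - 2) * (2 * P - 4) * α) := mul_le_mul_of_nonneg_left hcross hv0
    _ = (α : ℤ) * (2 * v * ((2 * P - 2) * (2 * P - 4))) := by ring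
    _ ≤ (α : ℤ) * (2 * P * (N * O)) := mul_le_mul_of_nonneg_left htop (by linarith)
    _ = _ := by ring

/-- Plus type over two elements. -/
theorem plus_generic_two {hQ : IsNondegenerateQuadraticForm Q} {k P : ℕ} (D : PlusData hQ 2 k P)
    {v : ℕ} (hv : v + P = 2 * P ^ 2) {p : ι → F} (hQp : Q p = 1) :
    (∀ H : Subgroup (POmega F Q), H ≠ ⊤ → v ≤ H.index) ∧ ∃ H : Subgroup (POmega F Q), H.index = v := by
  classical
  have := Fintype.ofFinite F
  have h2 := D.size
  have hn : 7 ≤ Fintype.card ι := by rw [D.dim]; omega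
  have hcl1 : ∀ r : ι → F, Q r = 1 → Nat.card {z // ClassOf Q r z} = v := by
    intro r hr
    rw [card_classOf_nonsingular hQ (by rw [hr]; exact one_ne_zero), hr]
    have e : Nat.card {z // SameClass Q 1 z} = Nat.card {z // Q z = 1} :=
      Nat.card_congr (Equiv.subtypeEquivRight fun z => ⟨fun ⟨c, hc, h⟩ => by
        rw [h, (zero_or_one_of_two h2 c).resolve_left hc]; ring, fun h => ⟨1, one_ne_zero, by rw [h]; ring⟩⟩)
    have := D.values 1 one_ne_zero
    omega
  have hclass : ∀ r : ι → F, r ≠ 0 → (Nat.card F - 1) * v ≤ Nat.card {z // ClassOf Q r z} := by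
    intro r hr
    rw [h2]
    rcases zero_or_one_of_two h2 (Q r) with h | h
    · have h' := card_classOf_singular hQ h
      have hZ := D.zeros
      have := D.eight_le
      omega
    · rw [hcl1 r h]; omega
  have hv2' : v ≤ 2 * Nat.card F ^ (Fintype.card ι - 2) := by
    rw [h2, D.dim, show 2 * k + 8 - 2 = (k + 3) * 2 by omega, pow_mul, ← D.hP]; omega
  have hlow : ∀ K : Subgroup (omegaGL Q), K ≠ ⊤ → v ≤ K.index := by
    intro K hK
    have : Nontrivial (omegaGL Q ⧸ K) := QuotientGroup.nontrivial_iff.2 hK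
    refine card_ge hQ (X := omegaGL Q ⧸ K) hn (Or.inr (Or.inr (Or.inl h2))) hv2' hclass fun hXv => ?_
    intro x u hu hu0
    by_cases h : ∀ a ∈ annW hQ u x, Q a = 0
    · exact Or.inr (plus_two_singular D hv hXv hu hu0 h)
    push Not at h
    obtain ⟨a, haA, ha⟩ := h
    have hM := plus_two_shifts D hv hXv hu hu0 haA ha
    exact classify_nonsingular hQ hn (Or.inr (by rw [D.dim]; omega)) (hXv.trans_le hv2') hu hu0 haA ha
      (by omega) (fun _ => hM) fun h3 => absurd h3 (by rw [h2]; omega)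
  refine pomega_min_index hQ (by omega) hlow (fun h => ?_) ((hcl1 p hQp).trans (by rw [h2]; omega))
  rw [h, q_zero hQ] at hQp
  exact zero_ne_one hQp

theorem plus_min_index_two {K : Type*} [Field K] [Fintype K] (hF : Fintype.card K = 2) (m : ℕ) (hm : 4 ≤ m) :
    (∀ H : Subgroup (POmega K (quadFormPlus m K)), H ≠ ⊤ → 2 ^ (m - 1) * (2 ^ m - 1) ≤ H.index) ∧
      ∃ H : Subgroup (POmega K (quadFormPlus m K)), H.index = 2 ^ (m - 1) * (2 ^ m - 1) := by
  obtain ⟨k, rfl⟩ : ∃ k, m = k + 4 := ⟨m - 4, by omega⟩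
  rw [show k + 4 - 1 = k + 3 by omega]
  refine plus_generic_two (plus_data hF k) ?_
    (p := Pi.single (Sum.inl 0) 1 + Pi.single (Sum.inr 0) 1) (by simp [quadFormPlus, Pi.single_apply])
  have h1 : 1 ≤ 2 ^ (k + 4) := Nat.one_le_pow _ _ (by norm_num)
  zify [h1]
  ring

end CfsgLib.MinIndexOrth
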