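import Cfsg.Agent.MinIndexOrth.Rule
import Cfsg.Agent.Classical.Orth.Omega

/-! Not all root groups act freely: otherwise each is regular, and lifts of commuting Levi elements to the
stabiliser of a point give a contradiction. -/

set_option autoImplicit false
set_option linter.unusedSectionVars false

namespace CfsgLib.MinIndexOrth

open Cfsg.Geo CfsgLib.OrthGeo Module
open scoped Matrix MatrixGroups

variable {ι : Type} [Fintype ι] [DecidableEq ι] {F : Type*} [Field F] [Finite F]
variable {Q : (ι → F) → F}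
variable (hQ : IsNondegenerateQuadraticForm Q)
include hQ

lemma refl_pair_mem_omega (hn : 5 ≤ Fintype.card ι) {a b : ι → F} (ha : Q a ≠ 0) (hb : Q b ≠ 0)
    (h : Q a = Q b) : reflection hQ ha * reflection hQ hb ∈ omegaGL Q :=
  ⟨_, Classical.Orth.refl_mul_refl_mem_omega hQ (fun hh => by omega) hb ha ⟨Q a, by rw [h]⟩, rfl⟩

lemma reflection_fix {a z : ι → F} (ha : Q a ≠ 0) (h : bform hQ a z = 0) :
    (reflection hQ ha : Matrix ι ι F) *ᵥ z = z := by
  rw [reflection_mulVec hQ, h]; simp

/-- A hyperbolic pair in the perp of a non-degenerate subspace. -/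
lemma exists_pair_in {P : Submodule F (ι → F)} (hP : ∀ z ∈ P, z ∈ perp hQ P → z = 0)
    (h : finrank F P + 3 ≤ Fintype.card ι) :
    ∃ e ∈ perp hQ P, ∃ f ∈ perp hQ P, Q e = 0 ∧ Q f = 0 ∧ bform hQ e f = 1 := by
  obtain ⟨e, he, he0, heQ⟩ := exists_singular hQ (S := perp hQ P) (by
    have := finrank_perp_add hQ P; omega)
  obtain ⟨f, hf, -, hef⟩ := exists_b_one_mem hQ (S := perp hQ P) (T := (⊥ : Submodule F (ι → F))) (v := e)
    (by rw [bot_sup_eq, perp_perp hQ]; exact fun h' => he0 (hP e h' he))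
  refine ⟨e, he, f - Q f • e, Submodule.sub_mem _ hf (Submodule.smul_mem _ _ he), heQ, ?_, ?_⟩
  · rw [q_sub hQ, q_smul hQ, heQ, map_smul, smul_eq_mul, b_symm hQ f e, hef]; ring
  · rw [map_sub, map_smul, b_self_eq_zero hQ heQ, hef, smul_zero, sub_zero]

variable {X : Type*} [MulAction (omegaGL Q) X]

/-- All root groups act freely. -/
def AllFree (X : Type*) [MulAction (omegaGL Q) X] : Prop :=
  ∀ (x : X) (u : ι → F), Q u = 0 → u ≠ 0 → fixW hQ u x ≤ (Submodule.span F {u}).toAddSubgroup

section regular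

variable (hn : 5 ≤ Fintype.card ι) (hM : AllFree hQ X)
  [Finite X] (hX : Nat.card X < 2 * Nat.card F ^ (Fintype.card ι - 2))
include hn hM hX

lemma exists_root_mul_mem {u : ι → F} (hu : Q u = 0) (hu0 : u ≠ 0) (x : X) (g : omegaGL Q) :
    ∃ (w : ι → F) (hw : bform hQ u w = 0), eichler hQ hu hw * (g : GL ι F) ∈ stabGL (Q := Q) x := by
  classical
  have := Fintype.ofFinite X
  have hfree : ∀ y : X, Nat.card (rootOrbit hQ hn hu y) = Nat.card F ^ (Fintype.card ι - 2) := by
    intro y
    have h1 := card_rootOrbit_mul_fixW hQ hn hu hu0 y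
    have h2 : fixW hQ u y = (Submodule.span F {u}).toAddSubgroup :=
      le_antisymm (hM y u hu hu0) (span_self_le_fixW hQ hu y)
    have h3 : Nat.card (Submodule.span F {u}).toAddSubgroup = Nat.card F := by
      show Nat.card (Submodule.span F ({u} : Set (ι → F))) = _
      rw [Module.natCard_eq_pow_finrank (K := F), finrank_span_singleton hu0, pow_one]
    have h4 : Nat.card F ^ (Fintype.card ι - 1) = Nat.card F ^ (Fintype.card ι - 2) * Nat.card F := by
      rw [← pow_succ]; congr 1; omega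
    rw [h2, h3, h4] at h1
    exact Nat.eq_of_mul_eq_mul_right Nat.card_pos h1
  have hmem : x ∈ rootOrbit hQ hn hu (g • x) := by
    by_contra hx
    have hdis : Disjoint (rootOrbit hQ hn hu x).toFinset (rootOrbit hQ hn hu (g • x)).toFinset := by
      refine Finset.disjoint_left.2 fun y hy hy' => hx ?_
      obtain ⟨a, rfl⟩ := Set.mem_toFinset.1 hy
      obtain ⟨b, hb⟩ := Set.mem_toFinset.1 hy'
      exact ⟨a⁻¹ * b, by
        show rootHom hQ hn hu (a⁻¹ * b) • (g • x) = x
        rw [map_mul, mul_smul]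
        show rootHom hQ hn hu a⁻¹ • (rootHom hQ hn hu b • g • x) = x
        rw [show rootHom hQ hn hu b • g • x = rootHom hQ hn hu a • x from hb, map_inv, inv_smul_smul]⟩
    have := Finset.card_le_univ ((rootOrbit hQ hn hu x).toFinset ∪ (rootOrbit hQ hn hu (g • x)).toFinset)
    rw [Finset.card_union_of_disjoint hdis, Set.toFinset_card, Set.toFinset_card,
      ← Nat.card_eq_fintype_card, ← Nat.card_eq_fintype_card, hfree, hfree,
      ← Nat.card_eq_fintype_card (α := X)] at this
    omega
  obtain ⟨a, ha⟩ := hmem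
  refine ⟨_, (mem_perp_span_singleton hQ).1 a.toAdd.2, ?_⟩
  refine mem_stabGL.2 ⟨mul_mem (eichler_mem_omega hQ hn hu _) g.2, ?_⟩
  show (rootHom hQ hn hu a * g) • x = x
  rw [mul_smul]; exact ha

omit hX in
/-- Lifts of commuting elements fixing `u` satisfy the crossed relation. -/
lemma crossed {u : ι → F} (hu : Q u = 0) (hu0 : u ≠ 0) {x : X} {g h : GL ι F} (hg : g ∈ omegaGL Q)
    (hh : h ∈ omegaGL Q) (hgu : (g : Matrix ι ι F) *ᵥ u = u) (hhu : (h : Matrix ι ι F) *ᵥ u = u)
    (hgh : g * h = h * g) {w s : ι → F} (hw : bform hQ u w = 0) (hs : bform hQ u s = 0)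
    (hkg : eichler hQ hu hw * g ∈ stabGL (Q := Q) x) (hkh : eichler hQ hu hs * h ∈ stabGL (Q := Q) x) :
    w + (g : Matrix ι ι F) *ᵥ s - (s + (h : Matrix ι ι F) *ᵥ w) ∈ Submodule.span F {u} := by
  have hgI := omegaGL_le hg
  have hhI := omegaGL_le hh
  have hgs : bform hQ u ((g : Matrix ι ι F) *ᵥ s) = 0 := by
    have := isometry_b hQ hgI u s; rw [hgu] at this; rw [this, hs]
  have hhw : bform hQ u ((h : Matrix ι ι F) *ᵥ w) = 0 := by
    have := isometry_b hQ hhI u w; rw [hhu] at this; rw [this, hw]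
  have ha : bform hQ u (w + (g : Matrix ι ι F) *ᵥ s) = 0 := by rw [map_add, hw, hgs, add_zero]
  have hb : bform hQ u (s + (h : Matrix ι ι F) *ᵥ w) = 0 := by rw [map_add, hs, hhw, add_zero]
  have hd : bform hQ u (w + (g : Matrix ι ι F) *ᵥ s - (s + (h : Matrix ι ι F) *ᵥ w)) = 0 := by
    rw [map_sub, ha, hb, sub_zero]
  have h1 : eichler hQ hu ha * (g * h) ∈ stabGL (Q := Q) x := by
    have := mul_mem hkg hkh
    rwa [mul_assoc, ← mul_assoc g, show g * eichler hQ hu hs = eichler hQ hu hgs * g by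
      rw [← conj_eichler hQ hgI hu hs hu hgs hgu rfl]; group, mul_assoc, ← mul_assoc (eichler hQ hu hw),
      eichler_mul hQ hu hw hgs ha] at this
  have h2 : eichler hQ hu hb * (g * h) ∈ stabGL (Q := Q) x := by
    have := mul_mem hkh hkg
    rwa [mul_assoc, ← mul_assoc h, show h * eichler hQ hu hw = eichler hQ hu hhw * h by
      rw [← conj_eichler hQ hhI hu hw hu hhw hhu rfl]; group, mul_assoc, ← mul_assoc (eichler hQ hu hs),
      eichler_mul hQ hu hs hhw hb, ← hgh] at this
  refine hM x u hu hu0 ((mem_fixW hQ hu).2 ⟨hd, eIn_of_mem hQ hu hd ?_⟩)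
  have h3 := mul_mem h1 (inv_mem h2)
  rw [mul_inv_rev, mul_assoc, mul_inv_cancel_left] at h3
  convert h3 using 1
  rw [eq_mul_inv_iff_mul_eq, eichler_mul hQ hu hd hb (by rw [sub_add_cancel, ha])]
  exact eichler_congr hQ hu _ _ (sub_add_cancel _ _)

end regular

section plusEight

variable [Finite X] (hn : 5 ≤ Fintype.card ι) (hM : AllFree hQ X)
  (hX : Nat.card X < 2 * Nat.card F ^ (Fintype.card ι - 2))
include hn hM hX

/-- A torus element rules out a lift with a singular vector. -/
lemma false_of_torus {x : X} {u w e e' y : ι → F} (hu : Q u = 0) (hy : Q y = 0) (hy0 : y ≠ 0) (he : Q e = 0)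
    (he' : Q e' = 0) (hee' : bform hQ e e' = 1) (hue : bform hQ u e = 0) (hue' : bform hQ u e' = 0)
    (hwe : bform hQ w e = 0) (hwe' : bform hQ w e' = 0) (hye : bform hQ y e = 0) (hye' : bform hQ y e' = 0)
    (huy : bform hQ u y = 0) (hwy : bform hQ w y = 0) (huw : bform hQ u w = 0)
    (hyne : bform hQ y (-e) = 0) (hk : eichler hQ hy hyne * eichler hQ hu huw ∈ stabGL (Q := Q) x)
    {r : F} (hr : r ≠ 0) (hr2 : r ^ 2 ≠ 1) : False := by
  have he'e : bform hQ e' e = 1 := by rw [b_symm hQ]; exact hee'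
  have hee := b_self_eq_zero hQ he
  have he'e' := b_self_eq_zero hQ he'
  set a := e + e' with ha
  set b := r • e + r⁻¹ • e' with hb
  have hQa : Q a = 1 := by rw [ha, q_add hQ, he, he', hee', zero_add, zero_add]
  have hQb : Q b = 1 := by
    rw [hb, q_add hQ, q_smul hQ, q_smul hQ, he, he', map_smul, map_smul, LinearMap.smul_apply, hee',
      smul_eq_mul, smul_eq_mul, mul_zero, mul_zero, zero_add, zero_add, mul_one]
    field_simp
  have ha0 : Q a ≠ 0 := hQa ▸ one_ne_zero
  have hb0 : Q b ≠ 0 := hQb ▸ one_ne_zero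
  set h := reflection hQ ha0 * reflection hQ hb0 with hh
  have hhΩ : h ∈ omegaGL Q := refl_pair_mem_omega hQ hn ha0 hb0 (hQa.trans hQb.symm)
  have hfix : ∀ z, bform hQ z e = 0 → bform hQ z e' = 0 → (h : Matrix ι ι F) *ᵥ z = z := fun z h1 h2 => by
    rw [b_symm hQ] at h1 h2
    rw [hh, Units.val_mul, ← Matrix.mulVec_mulVec,
      reflection_fix hQ hb0 (by simp [hb, map_add, map_smul, h1, h2, -bform_apply]),
      reflection_fix hQ ha0 (by simp [ha, map_add, h1, h2, -bform_apply])]
  have hhu := hfix u hue hue'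
  have hhw := hfix w hwe hwe'
  have hcomm : eichler hQ hu huw * h = h * eichler hQ hu huw := by
    have := conj_eichler hQ (omegaGL_le hhΩ) hu huw hu huw hhu hhw
    rw [mul_inv_eq_iff_eq_mul] at this
    exact this.symm
  obtain ⟨s, hs, hks⟩ := exists_root_mul_mem hQ hn hM hX hy hy0 x ⟨h, hhΩ⟩
  obtain ⟨t, ht⟩ := Submodule.mem_span_singleton.1 (crossed hQ hn hM hy hy0
    (eichler_mem_omega hQ hn hu huw) hhΩ
    (eichler_fix hQ hu huw huy hwy) (hfix y hye hye') hcomm hyne hs hk hks)
  have h1 := congrArg (bform hQ e') ht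
  have hhe : bform hQ e' ((h : Matrix ι ι F) *ᵥ e) = (r⁻¹) ^ 2 := by
    have hbe : bform hQ b e = r⁻¹ := by simp [hb, map_add, map_smul, hee, he'e, -bform_apply]
    rw [hh, Units.val_mul, ← Matrix.mulVec_mulVec, reflection_mulVec hQ hb0, reflection_mulVec hQ ha0,
      hQa, hQb, hbe]
    simp only [hb, ha, inv_one, one_mul, map_sub, map_add, map_smul, LinearMap.add_apply, hee, he'e', hee', he'e,
      smul_eq_mul]
    field_simp
    ring
  rw [Matrix.mulVec_neg, eichler_mulVec hQ hu huw s] at h1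
  simp only [map_sub, map_add, map_smul, map_neg, hhe, he'e, b_symm hQ e' y, hye', b_symm hQ e' u, hue',
    b_symm hQ e' w, hwe', smul_zero] at h1
  refine hr2 ?_
  have h2 : (r⁻¹) ^ 2 = 1 := by linear_combination -h1
  rw [inv_pow] at h2
  exact inv_eq_one.1 h2

/-- Over two elements three commuting lifts inside a totally singular subspace give a root element. -/
lemma false_of_two (h2F : ∀ c : F, c = 0 ∨ c = 1) {x : X} {u e y w v e' y' w' : ι → F}
    (hu : Q u = 0) (he : Q e = 0) (hy : Q y = 0) (hw : Q w = 0) (hu0 : u ≠ 0)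
    (hue : bform hQ u e = 0) (huy : bform hQ u y = 0) (huw : bform hQ u w = 0) (hey : bform hQ e y = 0)
    (hew : bform hQ e w = 0) (hyw : bform hQ y w = 0)
    (hD : ∀ z, bform hQ u z = 0 → bform hQ e z = 0 → bform hQ y z = 0 → bform hQ w z = 0 →
      ∃ a b c d : F, z = a • u + b • e + c • y + d • w)
    (hv : ∀ a b c d : F, bform hQ v (a • u + b • e + c • y + d • w) = a ∧
      bform hQ e' (a • u + b • e + c • y + d • w) = b ∧ bform hQ y' (a • u + b • e + c • y + d • w) = c ∧
      bform hQ w' (a • u + b • e + c • y + d • w) = d)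
    (hk : eichler hQ hu huw * eichler hQ he hey ∈ stabGL (Q := Q) x) : False := by
  classical
  have := Fintype.ofFinite F
  have h20 : (2 : F) = 0 := by
    rcases h2F 2 with h | h
    · exact h
    · exact absurd (show (1 : F) = 0 by linear_combination h) one_ne_zero
  have hsq : ∀ c : F, c * c = c := fun c => by rcases h2F c with rfl | rfl <;> ring
  set W : Submodule F (ι → F) := Submodule.span F {u} ⊔ Submodule.span F {e} ⊔
    (Submodule.span F {y} ⊔ Submodule.span F {w}) with hW
  have huW : u ∈ W := Submodule.mem_sup_left (Submodule.mem_sup_left (Submodule.mem_span_singleton_self u))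
  have heW : e ∈ W := Submodule.mem_sup_left (Submodule.mem_sup_right (Submodule.mem_span_singleton_self e))
  have hyW : y ∈ W := Submodule.mem_sup_right (Submodule.mem_sup_left (Submodule.mem_span_singleton_self y))
  have hwW : w ∈ W := Submodule.mem_sup_right (Submodule.mem_sup_right (Submodule.mem_span_singleton_self w))
  have hcomb : ∀ a b c d : F, a • u + b • e + c • y + d • w ∈ W := fun a b c d =>
    add_mem (add_mem (add_mem (W.smul_mem a huW) (W.smul_mem b heW)) (W.smul_mem c hyW)) (W.smul_mem d hwW)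
  have huu := b_self_eq_zero hQ hu
  have hee := b_self_eq_zero hQ he
  have hyy := b_self_eq_zero hQ hy
  have hww := b_self_eq_zero hQ hw
  have hperp : ∀ z, z ∈ W → Q z = 0 ∧ bform hQ u z = 0 ∧ bform hQ e z = 0 ∧ bform hQ y z = 0 ∧
      bform hQ w z = 0 := fun z hz => by
    obtain ⟨_, h₁, _, h₂, rfl⟩ := Submodule.mem_sup.1 hz
    obtain ⟨_, hu₁, _, he₁, rfl⟩ := Submodule.mem_sup.1 h₁
    obtain ⟨_, hy₁, _, hw₁, rfl⟩ := Submodule.mem_sup.1 h₂
    obtain ⟨a, rfl⟩ := Submodule.mem_span_singleton.1 hu₁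
    obtain ⟨b, rfl⟩ := Submodule.mem_span_singleton.1 he₁
    obtain ⟨c, rfl⟩ := Submodule.mem_span_singleton.1 hy₁
    obtain ⟨d, rfl⟩ := Submodule.mem_span_singleton.1 hw₁
    simp [q_add hQ, q_smul hQ, hu, he, hy, hw, map_add, map_smul, huu, hee, hyy, hww, hue, huy, huw, hey, hew,
      hyw, b_symm hQ e u, b_symm hQ y u, b_symm hQ w u, b_symm hQ y e, b_symm hQ w e, b_symm hQ w y,
      -bform_apply]
  -- the action of a root element inside the subspace
  have act : ∀ (p s : ι → F) (hp : Q p = 0) (hps : bform hQ p s = 0), Q s = 0 → ∀ z,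
      (eichler hQ hp hps : Matrix ι ι F) *ᵥ z = z + bform hQ s z • p - bform hQ p z • s := by
    intro p s hp hps hs z
    rw [eichler_mulVec hQ, hs, zero_mul, zero_smul, sub_zero]
  have hy0 : y ≠ 0 := fun h => by
    have := (hv 0 0 1 0).2.2.1
    rw [h] at this
    simp [-bform_apply] at this
  -- the other two lifts
  have hgu : ∀ (p s : ι → F) (hp : Q p = 0) (hps : bform hQ p s = 0), p ∈ W → s ∈ W → ∀ z ∈ W,
      (eichler hQ hp hps : Matrix ι ι F) *ᵥ z = z := by
    intro p s hp hps hpW hsW z hz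
    obtain ⟨-, -, -, -, -⟩ := hperp z hz
    have hb : ∀ r ∈ W, bform hQ r z = 0 := fun r hr => by
      have h1 := (hperp _ (W.add_mem hr hz)).1
      rw [q_add hQ, (hperp r hr).1, (hperp z hz).1, zero_add, zero_add] at h1
      exact h1
    rw [act p s hp hps (hperp s hsW).1, hb s hsW, hb p hpW, zero_smul, zero_smul, add_zero, sub_zero]
  have hcommW : ∀ (p s p' s' : ι → F) (hp : Q p = 0) (hps : bform hQ p s = 0) (hp' : Q p' = 0)
      (hps' : bform hQ p' s' = 0), p ∈ W → s ∈ W → p' ∈ W → s' ∈ W →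
      eichler hQ hp hps * eichler hQ hp' hps' = eichler hQ hp' hps' * eichler hQ hp hps := by
    intro p s p' s' hp hps hp' hps' hpW hsW hp'W hs'W
    have := conj_eichler hQ (eichler_mem_isometryGroup hQ hp hps) hp' hps' hp' hps'
      (hgu p s hp hps hpW hsW p' hp'W) (hgu p s hp hps hpW hsW s' hs'W)
    rwa [mul_inv_eq_iff_eq_mul] at this
  obtain ⟨s, hs, hks⟩ := exists_root_mul_mem hQ hn hM hX hu hu0 x
    ⟨eichler hQ he hew, eichler_mem_omega hQ hn he hew⟩
  obtain ⟨t, ht, hkt⟩ := exists_root_mul_mem hQ hn hM hX hu hu0 x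
    ⟨eichler hQ hy hyw, eichler_mem_omega hQ hn hy hyw⟩
  have c1 := crossed hQ hn hM hu hu0 (eichler_mem_omega hQ hn he hey) (eichler_mem_omega hQ hn he hew)
    (hgu e y he hey heW hyW u huW) (hgu e w he hew heW hwW u huW) (hcommW e y e w he hey he hew heW hyW heW hwW)
    huw hs hk hks
  have c2 := crossed hQ hn hM hu hu0 (eichler_mem_omega hQ hn he hey) (eichler_mem_omega hQ hn hy hyw)
    (hgu e y he hey heW hyW u huW) (hgu y w hy hyw hyW hwW u huW) (hcommW e y y w he hey hy hyw heW hyW hyW hwW)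
    huw ht hk hkt
  have c3 := crossed hQ hn hM hu hu0 (eichler_mem_omega hQ hn he hew) (eichler_mem_omega hQ hn hy hyw)
    (hgu e w he hew heW hwW u huW) (hgu y w hy hyw hyW hwW u huW) (hcommW e w y w he hew hy hyw heW hwW hyW hwW)
    hs ht hks hkt
  rw [hgu e w he hew heW hwW w hwW, act e y he hey hy] at c1
  rw [hgu y w hy hyw hyW hwW w hwW, act e y he hey hy] at c2
  rw [act e w he hew hw, act y w hy hyw hw] at c3
  obtain ⟨r₁, e₁⟩ := Submodule.mem_span_singleton.1 c1
  obtain ⟨r₂, e₂⟩ := Submodule.mem_span_singleton.1 c2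
  obtain ⟨r₃, e₃⟩ := Submodule.mem_span_singleton.1 c3
  have e₁' : r₁ • u = (0 : F) • u + bform hQ y s • e + (-bform hQ e s) • y + (0 : F) • w := by
    linear_combination (norm := module) e₁
  have e₂' : r₂ • u = (0 : F) • u + bform hQ y t • e + (-bform hQ e t) • y + (0 : F) • w := by
    linear_combination (norm := module) e₂
  have e₃' : r₃ • u = (0 : F) • u + bform hQ w t • e + (-bform hQ w s) • y +
      (bform hQ y s - bform hQ e t) • w := by
    linear_combination (norm := module) e₃
  have hru : ∀ (r : F) (d : ι → F), r • u = d → bform hQ e' d = 0 ∧ bform hQ y' d = 0 := fun r d h => by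
    have h1 := hv r 0 0 0
    simp only [zero_smul, add_zero, h] at h1
    exact ⟨h1.2.1, h1.2.2.1⟩
  obtain ⟨a1, b1⟩ := hru _ _ e₁'
  obtain ⟨a2, b2⟩ := hru _ _ e₂'
  obtain ⟨a3, b3⟩ := hru _ _ e₃'
  rw [(hv _ _ _ _).2.1] at a1 a2 a3
  rw [(hv _ _ _ _).2.2.1, neg_eq_zero] at b1 b2 b3
  obtain ⟨s0, sa, sb, sc, hse⟩ := hD s hs b1 a1 b3
  obtain ⟨t0, ta, tb, tc, hte⟩ := hD t ht b2 a2 a3
  have hsW : s ∈ W := hse ▸ hcomb _ _ _ _
  have htW : t ∈ W := hte ▸ hcomb _ _ _ _
  -- a non-trivial combination whose form is decomposable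
  obtain ⟨l, m, n, hlmn, hzero⟩ : ∃ l m n : F, ¬ (l = 0 ∧ m = 0 ∧ n = 0) ∧
      l * (l + m * sc + n * tc) + n * (m * sa + n * ta) + m * (m * sb + n * tb) = 0 := by
    rcases h2F sa with rfl | rfl <;> rcases h2F sb with rfl | rfl <;> rcases h2F sc with rfl | rfl <;>
      rcases h2F ta with rfl | rfl <;> rcases h2F tb with rfl | rfl <;> rcases h2F tc with rfl | rfl
    all_goals first
      | exact ⟨1, 0, 0, by simp, by linear_combination (0 : F) * h20⟩
      | exact ⟨0, 1, 0, by simp, by linear_combination (0 : F) * h20⟩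
      | exact ⟨0, 0, 1, by simp, by linear_combination (0 : F) * h20⟩
      | exact ⟨1, 1, 0, by simp, by linear_combination (1 : F) * h20⟩
      | exact ⟨1, 0, 1, by simp, by linear_combination (1 : F) * h20⟩
      | exact ⟨0, 1, 1, by simp, by linear_combination (1 : F) * h20⟩
      | exact ⟨1, 1, 1, by simp, by linear_combination (1 : F) * h20⟩
      | exact ⟨1, 1, 1, by simp, by linear_combination (2 : F) * h20⟩
      | exact ⟨0, 1, 1, by simp, by linear_combination (2 : F) * h20⟩
      | exact ⟨1, 1, 1, by simp, by linear_combination (3 : F) * h20⟩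
  set A := m * sa + n * ta with hA
  set B := m * sb + n * tb with hB
  set C := l + m * sc + n * tc with hC
  -- the product fixing the point
  have hel : ∃ k ∈ stabGL (Q := Q) x, ∀ z, (k : Matrix ι ι F) *ᵥ z = z +
      ((bform hQ e z • u - bform hQ u z • e) * (fun _ => A) + (bform hQ y z • u - bform hQ u z • y) * (fun _ => B) +
      (bform hQ w z • u - bform hQ u z • w) * (fun _ => C) + (bform hQ y z • e - bform hQ e z • y) * (fun _ => l) +
      (bform hQ w z • e - bform hQ e z • w) * (fun _ => m) + (bform hQ w z • y - bform hQ y z • w) * (fun _ => n)) := by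
    have hpw : ∀ (k : GL ι F) (D : (ι → F) → (ι → F)), k ∈ stabGL (Q := Q) x →
        (∀ z, (k : Matrix ι ι F) *ᵥ z = z + D z) → ∀ c : F,
        ∃ k' ∈ stabGL (Q := Q) x, ∀ z, (k' : Matrix ι ι F) *ᵥ z = z + c • D z := fun k D hk hkD c => by
      rcases h2F c with rfl | rfl
      · exact ⟨1, one_mem _, fun z => by simp⟩
      · exact ⟨k, hk, fun z => by rw [hkD, one_smul]⟩
    have hact2 : ∀ (p r q : ι → F) (hp : Q p = 0) (hpr : bform hQ p r = 0) (hr : bform hQ u q = 0),
        p ∈ W → r ∈ W → q ∈ W → ∀ z, ((eichler hQ hu hr * eichler hQ hp hpr : GL ι F) : Matrix ι ι F) *ᵥ z =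
          z + (bform hQ r z • p - bform hQ p z • r + (bform hQ q z • u - bform hQ u z • q)) := by
      intro p r q hp hpr hr hpW hrW hqW z
      rw [Units.val_mul, ← Matrix.mulVec_mulVec, act p r hp hpr (hperp r hrW).1, Matrix.mulVec_sub, Matrix.mulVec_add,
        Matrix.mulVec_smul, Matrix.mulVec_smul, hgu u q hu hr huW hqW p hpW, hgu u q hu hr huW hqW r hrW,
        act u q hu hr (hperp q hqW).1]
      abel
    obtain ⟨k₁, hk₁, e1⟩ := hpw _ _ hk (hact2 e y w he hey huw heW hyW hwW) l
    obtain ⟨k₂, hk₂, e2⟩ := hpw _ _ hks (hact2 e w s he hew hs heW hwW hsW) m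
    obtain ⟨k₃, hk₃, e3⟩ := hpw _ _ hkt (hact2 y w t hy hyw ht hyW hwW htW) n
    have hfixD : ∀ (k : GL ι F) (D : (ι → F) → (ι → F)), (∀ z, (k : Matrix ι ι F) *ᵥ z = z + D z) →
        ∀ z, D z = 0 → (k : Matrix ι ι F) *ᵥ z = z := fun k D h z hz => by rw [h, hz, add_zero]
    have hDW : ∀ (p r q : ι → F), p ∈ W → r ∈ W → q ∈ W → ∀ z ∈ W,
        bform hQ r z • p - bform hQ p z • r + (bform hQ q z • u - bform hQ u z • q) = 0 := by
      intro p r q hp hr hq z hz
      have hb : ∀ d ∈ W, bform hQ d z = 0 := fun d hd => by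
        have h1 := (hperp _ (W.add_mem hd hz)).1
        rw [q_add hQ, (hperp d hd).1, (hperp z hz).1, zero_add, zero_add] at h1
        exact h1
      rw [hb r hr, hb p hp, hb q hq, hb u huW]; simp
    have hin : ∀ (p r q : ι → F), p ∈ W → r ∈ W → q ∈ W → ∀ z : ι → F,
        bform hQ r z • p - bform hQ p z • r + (bform hQ q z • u - bform hQ u z • q) ∈ W := fun p r q hp hr hq z =>
      add_mem (sub_mem (W.smul_mem _ hp) (W.smul_mem _ hr)) (sub_mem (W.smul_mem _ huW) (W.smul_mem _ hq))
    refine ⟨k₁ * (k₂ * k₃), mul_mem hk₁ (mul_mem hk₂ hk₃), fun z => ?_⟩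
    have f1 : ∀ z ∈ W, (k₁ : Matrix ι ι F) *ᵥ z = z := fun z hz => by
      rw [e1, hDW e y w heW hyW hwW z hz, smul_zero, add_zero]
    have f2 : ∀ z ∈ W, (k₂ : Matrix ι ι F) *ᵥ z = z := fun z hz => by
      rw [e2, hDW e w s heW hwW hsW z hz, smul_zero, add_zero]
    simp only [Units.val_mul, ← Matrix.mulVec_mulVec]
    rw [e3, Matrix.mulVec_add, e2, f2 _ (W.smul_mem _ (hin y w t hyW hwW htW z)), Matrix.mulVec_add,
      Matrix.mulVec_add, e1, f1 _ (W.smul_mem _ (hin e w s heW hwW hsW z)),
      f1 _ (W.smul_mem _ (hin y w t hyW hwW htW z)), hse, hte, hA, hB, hC]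
    funext i
    simp only [map_add, map_smul, LinearMap.add_apply, LinearMap.smul_apply, Pi.add_apply, Pi.sub_apply,
      Pi.smul_apply, Pi.mul_apply, smul_eq_mul]
    ring
  -- a root element with the same action
  obtain ⟨k, hkx, hkz⟩ := hel
  have hroot : ∀ (p r : ι → F), p ∈ W → r ∈ W → (∀ z, bform hQ r z • p - bform hQ p z • r =
      (bform hQ e z • u - bform hQ u z • e) * (fun _ => A) + (bform hQ y z • u - bform hQ u z • y) * (fun _ => B) +
      (bform hQ w z • u - bform hQ u z • w) * (fun _ => C) + (bform hQ y z • e - bform hQ e z • y) * (fun _ => l) +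
      (bform hQ w z • e - bform hQ e z • w) * (fun _ => m) + (bform hQ w z • y - bform hQ y z • w) * (fun _ => n)) →
      p ≠ 0 → r ∉ Submodule.span F {p} → False := by
    intro p r hpW hrW heq hp0 hrp
    have hp := (hperp p hpW).1
    have hr := (hperp r hrW).1
    have hpr : bform hQ p r = 0 := by
      have h1 := (hperp _ (W.add_mem hpW hrW)).1
      rwa [q_add hQ, hp, hr, zero_add, zero_add] at h1
    refine hrp (hM x p hp hp0 ((mem_fixW hQ hp).2 ⟨hpr, eIn_of_mem hQ hp hpr ?_⟩))
    convert hkx using 1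
    exact gl_ext fun z => by rw [act p r hp hpr hr, add_sub_assoc, heq, hkz]
  have coord : ∀ a b c d a' b' c' d' r : F, a' • u + b' • e + c' • y + d' • w = r • (a • u + b • e + c • y + d • w) →
      a' = r * a ∧ b' = r * b ∧ c' = r * c ∧ d' = r * d := by
    intro a b c d a' b' c' d' r h
    obtain ⟨x1, x2, x3, x4⟩ := hv a b c d
    obtain ⟨z1, z2, z3, z4⟩ := hv a' b' c' d'
    rw [h, map_smul] at z1 z2 z3 z4
    rw [x1] at z1; rw [x2] at z2; rw [x3] at z3; rw [x4] at z4
    exact ⟨z1.symm, z2.symm, z3.symm, z4.symm⟩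
  rcases h2F l with rfl | rfl
  · rcases h2F m with rfl | rfl
    · have hn1 : n = 1 := (h2F n).resolve_left fun h => hlmn ⟨rfl, rfl, h⟩
      subst hn1
      have hA0 : A = 0 := by linear_combination hzero
      refine hroot (C • u + (0 : F) • e + (1 : F) • y + (0 : F) • w) ((-B) • u + (0 : F) • e + (0 : F) • y + (1 : F) • w)
        (hcomb _ _ _ _) (hcomb _ _ _ _) (fun z => ?_) (fun h => ?_) (fun h => ?_)
      · funext i
        simp only [hA0, map_add, map_smul, LinearMap.add_apply, LinearMap.smul_apply, Pi.add_apply, Pi.sub_apply,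
          Pi.smul_apply, Pi.mul_apply, smul_eq_mul]
        ring
      · have := (hv C 0 1 0).2.2.1
        rw [h, map_zero] at this
        exact zero_ne_one this
      · obtain ⟨r, hr⟩ := Submodule.mem_span_singleton.1 h
        obtain ⟨-, -, -, h4⟩ := coord _ _ _ _ _ _ _ _ r hr.symm
        rw [mul_zero] at h4
        exact one_ne_zero h4
    · refine hroot (C • u + (1 : F) • e + n • y + (0 : F) • w) ((-A) • u + (0 : F) • e + (0 : F) • y + (1 : F) • w)
        (hcomb _ _ _ _) (hcomb _ _ _ _) (fun z => ?_) (fun h => ?_) (fun h => ?_)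
      · funext i
        simp only [map_add, map_smul, LinearMap.add_apply, LinearMap.smul_apply, Pi.add_apply, Pi.sub_apply,
          Pi.smul_apply, Pi.mul_apply, smul_eq_mul]
        linear_combination (bform hQ y z * u i - bform hQ u z * y i) *
          (-hzero + n * A * h20)
      · have := (hv C 1 n 0).2.1
        rw [h, map_zero] at this
        exact zero_ne_one this
      · obtain ⟨r, hr⟩ := Submodule.mem_span_singleton.1 h
        obtain ⟨-, -, -, h4⟩ := coord _ _ _ _ _ _ _ _ r hr.symm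
        rw [mul_zero] at h4
        exact one_ne_zero h4
  · refine hroot (B • u + (1 : F) • e + (0 : F) • y + (-n) • w) ((-A) • u + (0 : F) • e + (1 : F) • y + m • w)
      (hcomb _ _ _ _) (hcomb _ _ _ _) (fun z => ?_) (fun h => ?_) (fun h => ?_)
    · funext i
      simp only [map_add, map_smul, LinearMap.add_apply, LinearMap.smul_apply, Pi.add_apply, Pi.sub_apply,
        Pi.smul_apply, Pi.mul_apply, smul_eq_mul]
      linear_combination (bform hQ w z * u i - bform hQ u z * w i) *
        (-hzero + m * B * h20)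
    · have := (hv B 1 0 (-n)).2.1
      rw [h, map_zero] at this
      exact zero_ne_one this
    · obtain ⟨r, hr⟩ := Submodule.mem_span_singleton.1 h
      obtain ⟨-, -, h3, -⟩ := coord _ _ _ _ _ _ _ _ r hr.symm
      rw [mul_zero] at h3
      exact one_ne_zero h3

end plusEight

/-- Not all root groups act freely on a small set. -/
theorem not_allFree [Finite X] [Nonempty X] (hn : 7 ≤ Fintype.card ι)
    (hwitt : 9 ≤ Fintype.card ι ∨ (∀ W : Submodule F (ι → F), IsTotallySingularQuad Q W → finrank F W ≤ 3) ∨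
      Nat.card F = 2 ∨ ∃ r : F, r ≠ 0 ∧ r ^ 2 ≠ 1)
    (hX : Nat.card X < 2 * Nat.card F ^ (Fintype.card ι - 2)) : ¬ AllFree hQ X := by
  intro hM
  have hn5 : 5 ≤ Fintype.card ι := by omega
  obtain ⟨u, -, v, -, hu, hv, huv⟩ := exists_pair_in hQ (P := (⊥ : Submodule F (ι → F)))
    (fun z hz _ => (Submodule.mem_bot F).1 hz) (by rw [finrank_bot]; omega)
  have huu := b_self_eq_zero hQ hu
  have hvv := b_self_eq_zero hQ hv
  have hvu : bform hQ v u = 1 := by rw [b_symm hQ]; exact huv
  have hu0 : u ≠ 0 := by rintro rfl; rw [map_zero, LinearMap.zero_apply] at huv; exact zero_ne_one huv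
  set P₁ := Submodule.span F {u} ⊔ Submodule.span F {v} with hP₁
  have hP₁d : finrank F P₁ ≤ 2 := finrank_span_pair_le hQ u v
  obtain ⟨e, heP, e', he'P, he, he', hee'⟩ := exists_pair_in hQ (P := P₁) (fun z hz hz' => by
    obtain ⟨_, ha, _, hb, rfl⟩ := Submodule.mem_sup.1 hz
    obtain ⟨r, rfl⟩ := Submodule.mem_span_singleton.1 ha
    obtain ⟨d, rfl⟩ := Submodule.mem_span_singleton.1 hb
    obtain ⟨h1, h2⟩ := (mem_perp_pair hQ).1 hz'
    simp [map_add, map_smul, huu, hvv, huv, hvu, -bform_apply] at h1 h2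
    simp [h1, h2]) (by omega)
  obtain ⟨hue, hve⟩ := (mem_perp_pair hQ).1 heP
  obtain ⟨hue', hve'⟩ := (mem_perp_pair hQ).1 he'P
  have hee := b_self_eq_zero hQ he
  have he'e' := b_self_eq_zero hQ he'
  have he'e : bform hQ e' e = 1 := by rw [b_symm hQ]; exact hee'
  have heu : bform hQ e u = 0 := by rw [b_symm hQ]; exact hue
  have hev : bform hQ e v = 0 := by rw [b_symm hQ]; exact hve
  have he'u : bform hQ e' u = 0 := by rw [b_symm hQ]; exact hue'
  have he'v : bform hQ e' v = 0 := by rw [b_symm hQ]; exact hve'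
  have he0 : e ≠ 0 := by rintro rfl; rw [map_zero, LinearMap.zero_apply] at hee'; exact zero_ne_one hee'
  set P₂ := P₁ ⊔ (Submodule.span F {e} ⊔ Submodule.span F {e'}) with hP₂
  have hmem₂ : ∀ z, z ∈ perp hQ P₂ ↔
      (bform hQ u z = 0 ∧ bform hQ v z = 0) ∧ bform hQ e z = 0 ∧ bform hQ e' z = 0 := fun z => by
    rw [hP₂, perp_sup hQ, Submodule.mem_inf, mem_perp_pair hQ, mem_perp_pair hQ]
  obtain ⟨y, hyP, y', hy'P, hy, hy', hyy'⟩ := exists_pair_in hQ (P := P₂) (fun z hz hz' => by
    obtain ⟨_, hp, _, hq, rfl⟩ := Submodule.mem_sup.1 hz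
    obtain ⟨_, ha, _, hb, rfl⟩ := Submodule.mem_sup.1 hp
    obtain ⟨r, rfl⟩ := Submodule.mem_span_singleton.1 ha
    obtain ⟨d, rfl⟩ := Submodule.mem_span_singleton.1 hb
    obtain ⟨_, ha', _, hb', rfl⟩ := Submodule.mem_sup.1 hq
    obtain ⟨r', rfl⟩ := Submodule.mem_span_singleton.1 ha'
    obtain ⟨d', rfl⟩ := Submodule.mem_span_singleton.1 hb'
    obtain ⟨⟨h1, h2⟩, h3, h4⟩ := (hmem₂ _).1 hz'
    simp [map_add, map_smul, huu, hvv, huv, hvu, hue, hue', hve, hve', heu, hev, he'u, he'v, hee, he'e',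
      hee', he'e, -bform_apply] at h1 h2 h3 h4
    simp [h1, h2, h3, h4]) (by
      have h1 := Submodule.finrank_add_le_finrank_add_finrank P₁ (Submodule.span F {e} ⊔ Submodule.span F {e'})
      have h2 := finrank_span_pair_le hQ e e'
      rw [← hP₂] at h1
      omega)
  obtain ⟨⟨huy, hvy⟩, hey, he'y⟩ := (hmem₂ _).1 hyP
  obtain ⟨⟨huy', hvy'⟩, hey', he'y'⟩ := (hmem₂ _).1 hy'P
  have hyy := b_self_eq_zero hQ hy
  have hy'y'' := b_self_eq_zero hQ hy'
  have hy'y : bform hQ y' y = 1 := by rw [b_symm hQ]; exact hyy'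
  have hyu : bform hQ y u = 0 := by rw [b_symm hQ]; exact huy
  have hy'u : bform hQ y' u = 0 := by rw [b_symm hQ]; exact huy'
  have hyv : bform hQ y v = 0 := by rw [b_symm hQ]; exact hvy
  have hy'v : bform hQ y' v = 0 := by rw [b_symm hQ]; exact hvy'
  have hye : bform hQ y e = 0 := by rw [b_symm hQ]; exact hey
  have hye' : bform hQ y e' = 0 := by rw [b_symm hQ]; exact he'y
  have hy'e : bform hQ y' e = 0 := by rw [b_symm hQ]; exact hey'
  have hy'e' : bform hQ y' e' = 0 := by rw [b_symm hQ]; exact he'y'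
  have hy0 : y ≠ 0 := by rintro rfl; rw [map_zero, LinearMap.zero_apply] at hyy'; exact zero_ne_one hyy'
  -- the lift of `E(e, y)`
  obtain ⟨x⟩ := ‹Nonempty X›
  set g := eichler hQ he hey with hgdef
  have hgΩ : g ∈ omegaGL Q := eichler_mem_omega hQ hn5 he hey
  have hgI := omegaGL_le hgΩ
  have hgact : ∀ z, (g : Matrix ι ι F) *ᵥ z = z + bform hQ y z • e - bform hQ e z • y := fun z => by
    rw [hgdef, eichler_mulVec hQ, hy]; simp
  have hgu : (g : Matrix ι ι F) *ᵥ u = u := eichler_fix hQ he hey heu hyu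
  obtain ⟨w₀, hw₀, hk₀⟩ := exists_root_mul_mem hQ hn5 hM hX hu hu0 x ⟨g, hgΩ⟩
  change eichler hQ hu hw₀ * g ∈ stabGL (Q := Q) x at hk₀
  have hkill : ∀ (a b : ι → F) (ha : Q a = 0) (hab : bform hQ a b = 0) (hau : bform hQ a u = 0)
      (hbu : bform hQ b u = 0) (c : ι → F), bform hQ c u = 0 → bform hQ c e = 0 → bform hQ c y = 0 →
      g * eichler hQ ha hab = eichler hQ ha hab * g →
      bform hQ c ((eichler hQ ha hab : Matrix ι ι F) *ᵥ w₀ - w₀) = 0 := by
    intro a b ha hab hau hbu c hcu hce hcy hcomm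
    set h := eichler hQ ha hab with hhdef
    have hhu : (h : Matrix ι ι F) *ᵥ u = u := eichler_fix hQ ha hab hau hbu
    obtain ⟨s, hs, hks⟩ := exists_root_mul_mem hQ hn5 hM hX hu hu0 x ⟨h, eichler_mem_omega hQ hn5 ha hab⟩
    obtain ⟨r, hr⟩ := Submodule.mem_span_singleton.1 (crossed hQ hn5 hM hu hu0 hgΩ
      (eichler_mem_omega hQ hn5 ha hab) hgu hhu hcomm hw₀ hs hk₀ hks)
    have := congrArg (bform hQ c) hr
    rw [hgact s] at this
    simp [map_sub, map_add, map_smul, hcu, hce, hcy, -bform_apply] at this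
    rw [map_sub]
    linear_combination this
  have hcomm₁ : g * eichler hQ he hey' = eichler hQ he hey' * g := by
    have h1 : bform hQ e (y + y') = 0 := by rw [map_add, hey, hey', add_zero]
    have h2 : bform hQ e (y' + y) = 0 := by rw [map_add, hey, hey', add_zero]
    rw [hgdef, eichler_mul hQ he hey hey' h1, eichler_mul hQ he hey' hey h2]
    exact eichler_congr hQ he _ _ (add_comm _ _)
  have hcomm₂ : g * eichler hQ hy hye' = eichler hQ hy hye' * g := by
    have h0 : bform hQ y (-e) = 0 := by rw [map_neg, hye, neg_zero]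
    have hg' : g = eichler hQ hy h0 := Units.ext (eichlerMat_swap hQ he hy)
    have h1 : bform hQ y (-e + e') = 0 := by rw [map_add, h0, hye', add_zero]
    have h2 : bform hQ y (e' + -e) = 0 := by rw [map_add, h0, hye', add_zero]
    rw [hg', eichler_mul hQ hy h0 hye' h1, eichler_mul hQ hy hye' h0 h2]
    exact eichler_congr hQ hy _ _ (add_comm _ _)
  have hew₀ : bform hQ e w₀ = 0 := by
    -- paired against `y - (y component)`
    obtain ⟨s, hs, hks⟩ := exists_root_mul_mem hQ hn5 hM hX hu hu0 x ⟨_, eichler_mem_omega hQ hn5 he hey'⟩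
    obtain ⟨r, hr⟩ := Submodule.mem_span_singleton.1 (crossed hQ hn5 hM hu hu0 hgΩ
      (eichler_mem_omega hQ hn5 he hey') hgu (eichler_fix hQ he hey' heu hy'u) hcomm₁ hw₀ hs hk₀ hks)
    have := congrArg (bform hQ y) hr
    rw [hgact s, eichler_mulVec hQ he hey' w₀, hy'] at this
    simp [map_sub, map_add, map_smul, hyu, hye, hyy, hyy', -bform_apply] at this
    linear_combination -this
  have hyw₀ : bform hQ y w₀ = 0 := by
    obtain ⟨s, hs, hks⟩ := exists_root_mul_mem hQ hn5 hM hX hu hu0 x ⟨_, eichler_mem_omega hQ hn5 hy hye'⟩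
    obtain ⟨r, hr⟩ := Submodule.mem_span_singleton.1 (crossed hQ hn5 hM hu hu0 hgΩ
      (eichler_mem_omega hQ hn5 hy hye') hgu (eichler_fix hQ hy hye' hyu he'u) hcomm₂ hw₀ hs hk₀ hks)
    have := congrArg (bform hQ e) hr
    rw [hgact s, eichler_mulVec hQ hy hye' w₀, he'] at this
    simp [map_sub, map_add, map_smul, heu, hee, hey, hee', -bform_apply] at this
    linear_combination -this
  -- move the point so that the lift has its vector perpendicular to all six
  set α := bform hQ e' w₀ with hα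
  set β := bform hQ y' w₀ with hβ
  set z₀ := -β • e' + α • y' with hz₀
  have huz₀ : bform hQ u z₀ = 0 := by
    rw [hz₀, map_add, map_smul, map_smul, hue', huy', smul_zero, smul_zero, add_zero]
  set t : omegaGL Q := ⟨eichler hQ hu huz₀, eichler_mem_omega hQ hn5 hu huz₀⟩ with htdef
  set x₁ := t • x with hx₁
  set w := w₀ - α • e - β • y - bform hQ v w₀ • u with hwdef
  have hcu : ∀ c : F, bform hQ u (c • u) = 0 := fun c => by rw [map_smul, huu, smul_zero]
  have huw : bform hQ u w = 0 := by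
    simp only [hwdef, map_sub, map_smul, hw₀, hue, huy, huu, smul_zero, sub_zero]
  have hk : eichler hQ hu huw * g ∈ stabGL (Q := Q) x₁ := by
    have hgz : bform hQ u ((g : Matrix ι ι F) *ᵥ (-z₀)) = 0 := by
      have := isometry_b hQ hgI u (-z₀); rw [hgu] at this; rw [this, map_neg, huz₀, neg_zero]
    have h1 := conj_mem_stabGL t hk₀
    have hzn : bform hQ u (-z₀) = 0 := by rw [map_neg, huz₀, neg_zero]
    have hinv : ((t : GL ι F))⁻¹ = eichler hQ hu hzn := Units.ext rfl
    rw [hinv, htdef] at h1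
    change eichler hQ hu huz₀ * (eichler hQ hu hw₀ * g) * eichler hQ hu hzn ∈ _ at h1
    rw [mul_assoc, mul_assoc (eichler hQ hu hw₀),
      show g * eichler hQ hu hzn = eichler hQ hu hgz * g by
        rw [← conj_eichler hQ hgI hu hzn hu hgz hgu rfl]; group,
      ← mul_assoc (eichler hQ hu hw₀), eichler_mul hQ hu hw₀ hgz (by rw [map_add, hw₀, hgz, add_zero]),
      ← mul_assoc, eichler_mul hQ hu huz₀ _ (by rw [map_add (bform hQ u) z₀, huz₀, map_add (bform hQ u) w₀, hw₀, hgz, add_zero, add_zero])] at h1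
    convert h1 using 2
    refine Units.ext ?_
    show eichlerMat Q u w = eichlerMat Q u (z₀ + (w₀ + (g : Matrix ι ι F) *ᵥ (-z₀)))
    have : z₀ + (w₀ + (g : Matrix ι ι F) *ᵥ (-z₀)) = w + bform hQ v w₀ • u := by
      rw [hgact, hwdef]
      simp only [hz₀, map_neg, map_add, map_smul, hye', hyy', hee', hey', smul_eq_mul]
      module
    rw [this, eichlerMat_add_smul hQ hu huw]
  have hvw : bform hQ v w = 0 := by
    simp only [hwdef, map_sub, map_smul, hve, hvy, hvu, smul_eq_mul]; ring
  have hew : bform hQ e w = 0 := by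
    simp only [hwdef, map_sub, map_smul, hew₀, hee, hey, heu, smul_zero, sub_zero]
  have he'w : bform hQ e' w = 0 := by
    simp only [hwdef, map_sub, map_smul, ← hα, he'e, he'y, he'u, smul_eq_mul, mul_one, mul_zero, sub_self,
      sub_zero]
  have hyw : bform hQ y w = 0 := by
    simp only [hwdef, map_sub, map_smul, hyw₀, hye, hyy, hyu, smul_zero, sub_zero]
  have hy'w : bform hQ y' w = 0 := by
    simp only [hwdef, map_sub, map_smul, ← hβ, hy'e, hy'y, hy'u, smul_eq_mul, mul_one, mul_zero, sub_zero,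
      sub_self]
  by_cases hw0 : w = 0
  · have hE : eichler hQ hu huw = 1 := Units.ext (by
      show eichlerMat Q u w = 1
      rw [hw0, eichlerMat_zero hQ])
    rw [hE, one_mul] at hk
    obtain ⟨c, hc⟩ := Submodule.mem_span_singleton.1 (hM x₁ e he he0
      ((mem_fixW hQ he).2 ⟨hey, eIn_of_mem hQ he hey hk⟩))
    have := congrArg (bform hQ y') hc
    rw [map_smul, hy'e, hy'y, smul_zero] at this
    exact zero_ne_one this
  -- the view from `y`
  set k := eichler hQ hu huw with hkdef
  have hwu : bform hQ w u = 0 := by rw [b_symm hQ]; exact huw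
  have hwe : bform hQ w e = 0 := by rw [b_symm hQ]; exact hew
  have hwy : bform hQ w y = 0 := by rw [b_symm hQ]; exact hyw
  have hky : (k : Matrix ι ι F) *ᵥ y = y := eichler_fix hQ hu huw huy hwy
  have hke : (k : Matrix ι ι F) *ᵥ e = e := eichler_fix hQ hu huw hue hwe
  have hyne : bform hQ y (-e) = 0 := by rw [map_neg, hye, neg_zero]
  have hky₁ : eichler hQ hy hyne * k ∈ stabGL (Q := Q) x₁ := by
    have hg' : g = eichler hQ hy hyne := Units.ext (eichlerMat_swap hQ he hy)
    have hc : k * g * k⁻¹ = g :=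
      conj_eichler hQ (eichler_mem_isometryGroup hQ hu huw) he hey he hey hke hky
    rw [← hg', ← mul_inv_eq_iff_eq_mul.1 hc]
    exact hk
  suffices hh : ∃ h ∈ omegaGL Q, (h : Matrix ι ι F) *ᵥ y = y ∧ k * h = h * k ∧
      bform hQ e ((h : Matrix ι ι F) *ᵥ e) ≠ 0 by
    obtain ⟨h, hhΩ, hhy, hkh, hhe⟩ := hh
    obtain ⟨s, hs, hks⟩ := exists_root_mul_mem hQ hn5 hM hX hy hy0 x₁ ⟨h, hhΩ⟩
    obtain ⟨r, hr⟩ := Submodule.mem_span_singleton.1 (crossed hQ hn5 hM hy hy0
      (eichler_mem_omega hQ hn5 hu huw) hhΩ hky hhy hkh hyne hs hky₁ hks)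
    have h1 := congrArg (bform hQ e) hr
    rw [Matrix.mulVec_neg, eichler_mulVec hQ hu huw s] at h1
    simp [map_sub, map_add, map_smul, map_neg, hey, hee, heu, hew, -bform_apply] at h1
    exact hhe h1.symm
  by_cases hc : ∃ c : ι → F, (bform hQ c u = 0 ∧ bform hQ c w = 0) ∧ (bform hQ c e = 0 ∧ bform hQ c e' = 0) ∧
      bform hQ c y = 0 ∧ Q c ≠ 0
  · obtain ⟨c, ⟨hcu', hcw⟩, ⟨hce, hce'⟩, hcy, hQc⟩ := hc
    set b := e + Q c • e' with hb
    have hQb : Q b = Q c := by rw [hb, q_add hQ, q_smul hQ, he, he', map_smul, hee', smul_eq_mul]; ring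
    have hQb0 : Q b ≠ 0 := hQb ▸ hQc
    set h := reflection hQ hQb0 * reflection hQ hQc with hh
    have hhΩ : h ∈ omegaGL Q := refl_pair_mem_omega hQ hn5 hQb0 hQc hQb
    have hfix : ∀ z, bform hQ b z = 0 → bform hQ c z = 0 → (h : Matrix ι ι F) *ᵥ z = z := fun z h1 h2 => by
      rw [hh, Units.val_mul, ← Matrix.mulVec_mulVec, reflection_fix hQ hQc h2, reflection_fix hQ hQb0 h1]
    have hbz : ∀ z, bform hQ e z = 0 → bform hQ e' z = 0 → bform hQ b z = 0 := fun z h1 h2 => by
      rw [hb, map_add, LinearMap.add_apply, map_smul, LinearMap.smul_apply, h1, h2, smul_zero, add_zero]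
    have hhu := hfix u (hbz u heu he'u) hcu'
    have hhw := hfix w (hbz w hew he'w) hcw
    refine ⟨h, hhΩ, hfix y (hbz y hey he'y) hcy, ?_, ?_⟩
    · have := conj_eichler hQ (omegaGL_le hhΩ) hu huw hu huw hhu hhw
      rw [← hkdef, mul_inv_eq_iff_eq_mul] at this
      exact this.symm
    · rw [hh, Units.val_mul, ← Matrix.mulVec_mulVec, reflection_fix hQ hQc hce, reflection_mulVec hQ hQb0,
        hQb, show bform hQ b e = Q c by rw [hb, map_add, LinearMap.add_apply, map_smul, LinearMap.smul_apply,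
          hee, he'e, smul_eq_mul, mul_one, zero_add], inv_mul_cancel₀ hQc, one_smul, hb]
      simp [map_sub, map_add, map_smul, hee, hee', hQc, -bform_apply]
  push Not at hc
  by_cases hQw : Q w = 0
  · exfalso
    set P := P₂ ⊔ (Submodule.span F {y} ⊔ Submodule.span F {w}) with hP
    set D := perp hQ P with hD
    have hDts : ∀ z ∈ D, Q z = 0 := fun z hz => by
      rw [hD, hP, perp_sup hQ, Submodule.mem_inf, hmem₂, mem_perp_pair hQ] at hz
      obtain ⟨⟨⟨h1, -⟩, h3, h4⟩, h5, h6⟩ := hz
      exact hc z ⟨by rw [b_symm hQ]; exact h1, by rw [b_symm hQ]; exact h6⟩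
        ⟨by rw [b_symm hQ]; exact h3, by rw [b_symm hQ]; exact h4⟩ (by rw [b_symm hQ]; exact h5)
    have hdimP : finrank F P ≤ 6 := by
      have h1 := Submodule.finrank_add_le_finrank_add_finrank P₁ (Submodule.span F {e} ⊔ Submodule.span F {e'})
      have h2 := finrank_span_pair_le hQ e e'
      have h3 := Submodule.finrank_add_le_finrank_add_finrank P₂ (Submodule.span F {y} ⊔ Submodule.span F {w})
      have h4 := finrank_span_pair_le hQ y w
      rw [← hP₂] at h1; rw [← hP] at h3
      omega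
    have hDdim : Fintype.card ι ≤ finrank F D + 6 := by
      have := finrank_perp_add hQ P
      rw [← hD] at this
      omega
    set E3 := Submodule.span F {u} ⊔ (Submodule.span F {e} ⊔ Submodule.span F {w}) with hE3
    -- `D` together with `u` and `e` is totally singular
    have hdec : ∀ z ∈ E3, ∃ r d m : F, z = r • u + (d • e + m • w) := by
      intro z hz
      obtain ⟨_, ha, _, hb, rfl⟩ := Submodule.mem_sup.1 hz
      obtain ⟨r, rfl⟩ := Submodule.mem_span_singleton.1 ha
      obtain ⟨_, ha', _, hb', rfl⟩ := Submodule.mem_sup.1 hb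
      obtain ⟨d, rfl⟩ := Submodule.mem_span_singleton.1 ha'
      obtain ⟨m, rfl⟩ := Submodule.mem_span_singleton.1 hb'
      exact ⟨r, d, m, rfl⟩
    have hts : IsTotallySingularQuad Q (E3 ⊔ D) := by
      intro z hz
      obtain ⟨a, ha, d', hd', rfl⟩ := Submodule.mem_sup.1 hz
      obtain ⟨r, d, m, rfl⟩ := hdec a ha
      have hz' := hd'
      rw [hD, hP, perp_sup hQ, Submodule.mem_inf, hmem₂, mem_perp_pair hQ] at hz'
      obtain ⟨⟨⟨h1, -⟩, h3, -⟩, -, h6⟩ := hz'
      simp only [q_add hQ, q_smul hQ, hu, he, hQw, hDts d' hd', map_add, map_smul, LinearMap.add_apply,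
        LinearMap.smul_apply, hue, huw, hew, h1, h3, h6, smul_eq_mul]
      ring
    have hlt : finrank F D + 2 ≤ finrank F ↥(E3 ⊔ D) := by
      have hue2 : D < D ⊔ Submodule.span F {u} := lt_of_le_not_ge le_sup_left fun hle => by
        have h' := hle (Submodule.mem_sup_right (Submodule.mem_span_singleton_self u))
        rw [hD, hP, perp_sup hQ, Submodule.mem_inf, hmem₂] at h'
        rw [hvu] at h'
        exact one_ne_zero h'.1.1.2
      have he2 : D ⊔ Submodule.span F {u} < E3 ⊔ D := by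
        refine lt_of_le_not_ge (sup_le le_sup_right (le_trans le_sup_left le_sup_left)) fun hle => ?_
        obtain ⟨a, ha, _, hb, heq⟩ := Submodule.mem_sup.1 (hle (Submodule.mem_sup_left (Submodule.mem_sup_right
          (Submodule.mem_sup_left (Submodule.mem_span_singleton_self e)))))
        obtain ⟨r, rfl⟩ := Submodule.mem_span_singleton.1 hb
        rw [hD, hP, perp_sup hQ, Submodule.mem_inf, hmem₂] at ha
        have := congrArg (bform hQ e') heq
        rw [map_add, map_smul, ha.1.2.2, he'u, he'e, smul_zero, add_zero] at this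
        exact zero_ne_one this
      have := Submodule.finrank_lt_finrank_of_lt hue2
      have := Submodule.finrank_lt_finrank_of_lt he2
      omega
    have h2n := two_mul_finrank_le hQ hts
    have hbound : Fintype.card ι ≤ 8 := by omega
    set W4 := Submodule.span F {u} ⊔ Submodule.span F {e} ⊔ (Submodule.span F {y} ⊔ Submodule.span F {w}) with hW4
    have hcombo : ∀ z ∈ W4, ∃ a b c d : F, z = a • u + b • e + c • y + d • w := by
      intro z hz
      obtain ⟨_, hp, _, hq, rfl⟩ := Submodule.mem_sup.1 hz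
      obtain ⟨_, ha, _, hb, rfl⟩ := Submodule.mem_sup.1 hp
      obtain ⟨r, rfl⟩ := Submodule.mem_span_singleton.1 ha
      obtain ⟨d, rfl⟩ := Submodule.mem_span_singleton.1 hb
      obtain ⟨_, ha', _, hb', rfl⟩ := Submodule.mem_sup.1 hq
      obtain ⟨r', rfl⟩ := Submodule.mem_span_singleton.1 ha'
      obtain ⟨d', rfl⟩ := Submodule.mem_span_singleton.1 hb'
      exact ⟨r, d, r', d', by abel⟩
    have hW4ts : IsTotallySingularQuad Q W4 := by
      intro z hz
      obtain ⟨a, b, c, d, rfl⟩ := hcombo z hz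
      simp only [q_add hQ, q_smul hQ, hu, he, hy, hQw, map_add, map_smul, LinearMap.add_apply,
        LinearMap.smul_apply, hue, huy, huw, hey, hew, hyw, smul_eq_mul]
      ring
    have hW4d : 4 ≤ finrank F W4 := by
      have hli : LinearIndependent F ![u, e, y, w] := by
        rw [Fintype.linearIndependent_iff]
        intro f hf
        simp only [Fin.sum_univ_four, Matrix.cons_val_zero, Matrix.cons_val_one, Matrix.cons_val] at hf
        have f0 := congrArg (bform hQ v) hf
        have f1 := congrArg (bform hQ e') hf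
        have f2 := congrArg (bform hQ y') hf
        simp [map_add, map_smul, hvu, hve, hvy, hvw, he'u, he'e, he'y, he'w, hy'u, hy'e, hy'y, hy'w,
          -bform_apply] at f0 f1 f2
        have f3 : f 3 = 0 := by
          rw [f0, f1, f2] at hf
          simpa [hw0] using hf
        intro i; fin_cases i <;> assumption
      have hle : Submodule.span F (Set.range ![u, e, y, w]) ≤ W4 := by
        refine Submodule.span_le.2 ?_
        rintro _ ⟨i, rfl⟩
        fin_cases i
        · exact Submodule.mem_sup_left (Submodule.mem_sup_left (Submodule.mem_span_singleton_self _))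
        · exact Submodule.mem_sup_left (Submodule.mem_sup_right (Submodule.mem_span_singleton_self _))
        · exact Submodule.mem_sup_right (Submodule.mem_sup_left (Submodule.mem_span_singleton_self _))
        · exact Submodule.mem_sup_right (Submodule.mem_sup_right (Submodule.mem_span_singleton_self _))
      have := Submodule.finrank_mono hle
      rwa [finrank_span_eq_card hli, Fintype.card_fin] at this
    rcases hwitt with h9 | hW3 | hq2 | ⟨r, hr, hr2⟩
    · omega
    · have := hW3 W4 hW4ts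
      omega
    · -- two elements
      have h01 : ∀ c : F, c = 0 ∨ c = 1 := fun c => by
        classical
        have := Fintype.ofFinite F
        by_contra h
        push Not at h
        have hc : ({0, 1, c} : Finset F).card = 3 := by
          rw [Finset.card_insert_of_notMem (by simp [h.1.symm]), Finset.card_insert_of_notMem (by simp [h.2.symm]),
            Finset.card_singleton]
        have := Finset.card_le_univ ({0, 1, c} : Finset F)
        rw [hc, ← Nat.card_eq_fintype_card, hq2] at this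
        omega
      obtain ⟨w', hw'P, -, hw'w⟩ := exists_b_one_mem hQ
        (S := perp hQ (Submodule.span F {u} ⊔ Submodule.span F {e} ⊔ Submodule.span F {y}))
        (T := (⊥ : Submodule F (ι → F))) (v := w) (by
          rw [bot_sup_eq, perp_perp hQ]
          intro h
          obtain ⟨_, hp, _, hb', heq⟩ := Submodule.mem_sup.1 h
          obtain ⟨_, ha, _, hb, rfl⟩ := Submodule.mem_sup.1 hp
          obtain ⟨r, rfl⟩ := Submodule.mem_span_singleton.1 ha
          obtain ⟨d, rfl⟩ := Submodule.mem_span_singleton.1 hb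
          obtain ⟨t, rfl⟩ := Submodule.mem_span_singleton.1 hb'
          have f0 := congrArg (bform hQ v) heq
          have f1 := congrArg (bform hQ e') heq
          have f2 := congrArg (bform hQ y') heq
          simp [map_add, map_smul, hvu, hve, hvy, hvw, he'u, he'e, he'y, he'w, hy'u, hy'e, hy'y, hy'w,
            -bform_apply] at f0 f1 f2
          exact hw0 (by rw [← heq, f0, f1, f2]; simp))
      rw [perp_sup hQ, Submodule.mem_inf, mem_perp_pair hQ, mem_perp_span_singleton hQ] at hw'P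
      obtain ⟨⟨hw'u, hw'e⟩, hw'y⟩ := hw'P
      rw [b_symm hQ] at hw'u hw'e hw'y
      have hw'w' : bform hQ w' w = 1 := by
        first
          | exact hw'w
          | (rw [b_symm hQ]; exact hw'w)
      refine false_of_two hQ hn5 hM hX h01 (v := v) (e' := e') (y' := y') (w' := w') hu he hy hQw hu0 hue huy huw
        hey hew hyw (fun z h1 h2 h3 h4 => hcombo z ?_) (fun a b c d => ?_) hk
      · have hperp : perp hQ W4 = W4 := by
          refine (Submodule.eq_of_le_of_finrank_le (le_perp_self hQ hW4ts) ?_).symm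
          have := finrank_perp_add hQ W4
          omega
        rw [← hperp, hW4, perp_sup hQ, Submodule.mem_inf, mem_perp_pair hQ, mem_perp_pair hQ]
        exact ⟨⟨h1, h2⟩, h3, h4⟩
      · simp [map_add, map_smul, hvu, hve, hvy, hvw, he'u, he'e, he'y, he'w, hy'u, hy'e, hy'y, hy'w,
          hw'u, hw'e, hw'y, hw'w', -bform_apply]
    · exact false_of_torus hQ hn5 hM hX hu hy hy0 he he' hee' hue hue' hwe (by rw [b_symm hQ]; exact he'w) hye hye'
        huy hwy huw hyne hky₁ hr hr2
  · -- `w` is non-singular and the characteristic is odd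
    have h2 : (2 : F) ≠ 0 := fun h2 => hQw (hc w ⟨hwu, by rw [b_self hQ, h2, zero_mul]⟩
      ⟨hwe, by rw [b_symm hQ]; exact he'w⟩ hwy)
    set κ := -Q w with hκ
    have hκ0 : κ ≠ 0 := neg_ne_zero.2 hQw
    set b := e + κ • e' with hb
    set p₁ := u + κ • v with hp₁
    set p₂ := u - κ • v with hp₂
    have hQb : Q b = κ := by rw [hb, q_add hQ, q_smul hQ, he, he', map_smul, hee', smul_eq_mul]; ring
    have hQ₁ : Q p₁ = κ := by rw [hp₁, q_add hQ, q_smul hQ, hu, hv, map_smul, huv, smul_eq_mul]; ring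
    have hQ₂ : Q p₂ = Q w := by
      rw [hp₂, q_sub hQ, q_smul hQ, hu, hv, map_smul, huv, smul_eq_mul, hκ]; ring
    have hb0 : Q b ≠ 0 := hQb ▸ hκ0
    have h₁0 : Q p₁ ≠ 0 := hQ₁ ▸ hκ0
    have h₂0 : Q p₂ ≠ 0 := hQ₂ ▸ hQw
    set h := (reflection hQ hb0 * reflection hQ h₁0) * (reflection hQ hQw * reflection hQ h₂0) with hh
    have hhΩ : h ∈ omegaGL Q := mul_mem (refl_pair_mem_omega hQ hn5 hb0 h₁0 (hQb.trans hQ₁.symm))
      (refl_pair_mem_omega hQ hn5 hQw h₂0 hQ₂.symm)
    have hact : ∀ z, (h : Matrix ι ι F) *ᵥ z = (reflection hQ hb0 : Matrix ι ι F) *ᵥ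
        ((reflection hQ h₁0 : Matrix ι ι F) *ᵥ ((reflection hQ hQw : Matrix ι ι F) *ᵥ
          ((reflection hQ h₂0 : Matrix ι ι F) *ᵥ z))) := fun z => by
      simp only [hh, Units.val_mul, ← Matrix.mulVec_mulVec]
    have hww : bform hQ w w = 2 * Q w := b_self hQ w
    have hwv : bform hQ w v = 0 := by rw [b_symm hQ]; exact hvw
    have hwe' : bform hQ w e' = 0 := by rw [b_symm hQ]; exact he'w
    have hhu : (h : Matrix ι ι F) *ᵥ u = -u := by
      have e2 : (reflection hQ h₂0 : Matrix ι ι F) *ᵥ u = κ • v := by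
        rw [reflection_mulVec hQ, hQ₂, show bform hQ p₂ u = Q w by
          simp only [hp₂, map_sub, map_smul, LinearMap.sub_apply, LinearMap.smul_apply, huu, hvu, hκ,
            smul_eq_mul]
          ring, inv_mul_cancel₀ hQw, one_smul, hp₂]
        module
      have e1 : (reflection hQ h₁0 : Matrix ι ι F) *ᵥ (κ • v) = -u := by
        rw [reflection_mulVec hQ, hQ₁, show bform hQ p₁ (κ • v) = κ by
          simp only [hp₁, map_add, map_smul, LinearMap.add_apply, LinearMap.smul_apply, huv, hvv, smul_eq_mul]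
          ring, inv_mul_cancel₀ hκ0, one_smul, hp₁]
        module
      rw [hact, e2, reflection_fix hQ hQw (by rw [map_smul, hwv, smul_zero]), e1,
        reflection_fix hQ hb0 (by simp [hb, map_add, map_neg, map_smul, heu, he'u, -bform_apply])]
    have hhw : (h : Matrix ι ι F) *ᵥ w = -w := by
      rw [hact, reflection_fix hQ h₂0 (by simp [hp₂, map_sub, map_smul, huw, hvw, -bform_apply]),
        reflection_mulVec hQ hQw w, hww, show w - ((Q w)⁻¹ * (2 * Q w)) • w = -w by
          rw [show (Q w)⁻¹ * (2 * Q w) = 2 by field_simp]; module,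
        reflection_fix hQ h₁0 (by simp [hp₁, map_add, map_neg, map_smul, huw, hvw, -bform_apply]),
        reflection_fix hQ hb0 (by simp [hb, map_add, map_neg, map_smul, hew, he'w, -bform_apply])]
    refine ⟨h, hhΩ, ?_, ?_, ?_⟩
    · rw [hact, reflection_fix hQ h₂0 (by simp [hp₂, map_sub, map_smul, huy, hvy, -bform_apply]),
        reflection_fix hQ hQw hwy,
        reflection_fix hQ h₁0 (by simp [hp₁, map_add, map_smul, huy, hvy, -bform_apply]),
        reflection_fix hQ hb0 (by simp [hb, map_add, map_smul, hey, he'y, -bform_apply])]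
    · have hnu : Q (-u) = 0 := by rw [q_neg hQ, hu]
      have hnw : bform hQ (-u) (-w) = 0 := by simp [map_neg, huw, -bform_apply]
      have := conj_eichler hQ (omegaGL_le hhΩ) hu huw hnu hnw hhu hhw
      have hkk : eichler hQ hnu hnw = k := Units.ext (by
        show eichlerMat Q (-u) (-w) = eichlerMat Q u w
        rw [← neg_one_smul F u, eichlerMat_smul_left hQ, neg_one_smul, neg_neg])
      rw [hkk, ← hkdef, mul_inv_eq_iff_eq_mul] at this
      exact this.symm
    · rw [hact, reflection_fix hQ h₂0 (by simp [hp₂, map_sub, map_smul, hue, hve, -bform_apply]),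
        reflection_fix hQ hQw hwe,
        reflection_fix hQ h₁0 (by simp [hp₁, map_add, map_smul, hue, hve, -bform_apply]),
        reflection_mulVec hQ hb0, hQb, show bform hQ b e = κ by
          simp [hb, map_add, map_smul, hee, he'e, -bform_apply], inv_mul_cancel₀ hκ0, one_smul, hb]
      simp [map_sub, map_add, map_smul, hee, hee', hκ0, -bform_apply]

end CfsgLib.MinIndexOrth
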