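import Cfsg.Agent.MinIndexOrth.Action

/-! If every root group either moves a point freely or fixes it up to a two-dimensional space, and one
does not move it freely, then the stabiliser of the point fixes a line. -/

set_option autoImplicit false
set_option linter.unusedSectionVars false

namespace CfsgLib.MinIndexOrth

open Cfsg.Geo CfsgLib.OrthGeo Module
open scoped Matrix MatrixGroups

variable {ι : Type} [Fintype ι] [DecidableEq ι] {F : Type*} [Field F] [Finite F]
variable {Q : (ι → F) → F}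
variable {X : Type*} [MulAction (omegaGL Q) X]
variable (hQ : IsNondegenerateQuadraticForm Q)
include hQ

/-- The span of the annihilator of the fixed root elements. -/
noncomputable def spanA (u : ι → F) (x : X) : Submodule F (ι → F) :=
  Submodule.span F (annW hQ u x : Set (ι → F))

lemma self_mem_spanA (u : ι → F) (x : X) : u ∈ spanA hQ u x :=
  Submodule.subset_span (by simpa using self_mem_annW hQ (u := u) 1 x)

lemma span_le_spanA (u : ι → F) (x : X) : Submodule.span F {u} ≤ spanA hQ u x :=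
  (Submodule.span_singleton_le_iff_mem _ _).2 (self_mem_spanA hQ u x)

lemma spanA_le_perp {u : ι → F} (hu : Q u = 0) (x : X) : spanA hQ u x ≤ perp hQ (Submodule.span F {u}) :=
  span_annS_le_perp hQ (span_self_le_fixW hQ hu x)

lemma perp_spanA_le (u : ι → F) (x : X) : (perp hQ (spanA hQ u x)).toAddSubgroup ≤ fixW hQ u x :=
  perp_span_annS_le hQ _

lemma self_mem_perp_spanA {u : ι → F} (hu : Q u = 0) (x : X) : u ∈ perp hQ (spanA hQ u x) := by
  intro a ha
  rw [b_symm hQ]
  exact (mem_perp_span_singleton hQ).1 (spanA_le_perp hQ hu x ha)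

/-- A line in the fixed space gives the line of `u` in the fixed space of its direction. -/
lemma line_symm {u w : ι → F} (hu : Q u = 0) (hw : Q w = 0) {x : X}
    (h : ∀ c : F, c • w ∈ fixW hQ u x) (c : F) : c • u ∈ fixW hQ w x := by
  by_cases hc : c = 0
  · rw [hc, zero_smul]; exact zero_mem _
  · rw [← mem_fixW_smul_left hQ hw hc]
    exact fixW_symm hQ hu (by rw [q_smul hQ, hw, mul_zero]) (h c)

lemma mem_perp_spanA_of_line {u w : ι → F} {x : X} (h : ∀ c : F, c • w ∈ fixW hQ u x) :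
    w ∈ perp hQ (spanA hQ u x) := by
  have h1 : spanA hQ u x ≤ perp hQ (Submodule.span F {w}) := span_annS_le_perp hQ fun y hy => by
    obtain ⟨c, rfl⟩ := Submodule.mem_span_singleton.1 hy
    exact h c
  intro a ha
  rw [b_symm hQ]
  exact (mem_perp_span_singleton hQ).1 (h1 ha)

lemma annW_stab {u a : ι → F} {x : X} {g : GL ι F} (hg : g ∈ stabGL (Q := Q) x) (ha : a ∈ annW hQ u x) :
    (g : Matrix ι ι F) *ᵥ a ∈ annW hQ ((g : Matrix ι ι F) *ᵥ u) x := by
  intro w hw
  rw [← mulVec_inv_cancel g w] at hw ⊢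
  rw [isometry_b hQ (stabGL_le_isometry x hg)]
  exact ha _ ((mem_fixW_stab hQ hg).1 hw)

lemma spanA_stab {u : ι → F} {x : X} {g : GL ι F} (hg : g ∈ stabGL (Q := Q) x) {y : ι → F}
    (hy : y ∈ spanA hQ u x) : (g : Matrix ι ι F) *ᵥ y ∈ spanA hQ ((g : Matrix ι ι F) *ᵥ u) x := by
  have h : spanA hQ u x ≤ (spanA hQ ((g : Matrix ι ι F) *ᵥ u) x).comap
      (Matrix.mulVecLin (g : Matrix ι ι F)) :=
    Submodule.span_le.2 fun a ha => Submodule.subset_span (annW_stab hQ hg ha)
  exact h hy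

lemma spanA_smul {u : ι → F} (hu : Q u = 0) {c : F} (hc : c ≠ 0) (x : X) :
    spanA hQ (c • u) x ≤ spanA hQ u x := by
  refine Submodule.span_le.2 fun a ha => ?_
  have h : c⁻¹ • a ∈ spanA hQ u x := Submodule.subset_span fun w hw => by
    rw [map_smul, ← LinearMap.smul_apply, ← map_smul]
    refine ha _ ((mem_fixW_smul_left hQ hu hc).2 ?_)
    rwa [smul_inv_smul₀ hc]
  have h' := Submodule.smul_mem _ c h
  rwa [smul_inv_smul₀ hc] at h'

/-- The hypothesis on all root groups: free, or fixed up to a space of dimension two. -/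
def Dichot (X : Type*) [MulAction (omegaGL Q) X] : Prop :=
  ∀ (x : X) (u : ι → F), Q u = 0 → u ≠ 0 →
    fixW hQ u x ≤ (Submodule.span F {u}).toAddSubgroup ∨ finrank F (spanA hQ u x) ≤ 2

/-- The root group is not free at the point. -/
def IsFlat (u : ι → F) (x : X) : Prop := Q u = 0 ∧ u ≠ 0 ∧ finrank F (spanA hQ u x) ≤ 2

lemma rule {u w : ι → F} {x : X} (hD : Dichot hQ X) (hu : IsFlat hQ u x) (hw : Q w = 0)
    (hwP : w ∈ perp hQ (spanA hQ u x)) (hwS : w ∉ spanA hQ u x) :
    IsFlat hQ w x ∧ u ∈ perp hQ (spanA hQ w x) ∧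
      spanA hQ u x ≤ Submodule.span F {u} ⊔ spanA hQ w x := by
  obtain ⟨hu, hu0, -⟩ := hu
  have huw : bform hQ u w = 0 := hwP u (self_mem_spanA hQ u x)
  have hw0 : w ≠ 0 := fun h => hwS (h ▸ zero_mem _)
  have hline : ∀ c : F, c • w ∈ fixW hQ u x := fun c =>
    perp_spanA_le hQ u x (Submodule.smul_mem (perp hQ (spanA hQ u x)) c hwP)
  have hline' := line_symm hQ hu hw hline
  have huP := mem_perp_spanA_of_line hQ hline'
  have hflat : IsFlat hQ w x := by
    refine ⟨hw, hw0, (hD x w hw hw0).resolve_left fun h => hwS ?_⟩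
    have h1 := h (by simpa using hline' 1)
    obtain ⟨c, hc⟩ := Submodule.mem_span_singleton.1 (show u ∈ Submodule.span F {w} from h1)
    have hc0 : c ≠ 0 := by rintro rfl; exact hu0 (by rw [← hc, zero_smul])
    exact (Submodule.smul_mem_iff _ hc0).1 (hc.symm ▸ self_mem_spanA hQ u x)
  refine ⟨hflat, huP, ?_⟩
  rw [← perp_perp hQ (Submodule.span F {u} ⊔ spanA hQ w x)]
  refine span_annS_le_perp hQ fun t ht => ?_
  replace ht : t ∈ perp hQ (Submodule.span F {u} ⊔ spanA hQ w x) := ht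
  rw [perp_sup hQ, Submodule.mem_inf, mem_perp_span_singleton hQ] at ht
  obtain ⟨hut, htS⟩ := ht
  have hwt : bform hQ w t = 0 := htS w (self_mem_spanA hQ w x)
  obtain ⟨z, hz, hzw⟩ : ∃ z ∈ perp hQ (spanA hQ u x), bform hQ z w = 1 := by
    obtain ⟨z, hz, hzw⟩ := exists_mem_b_ne_zero hQ (S := perp hQ (spanA hQ u x)) (v := w)
      (by rwa [perp_perp hQ])
    exact ⟨_, Submodule.smul_mem _ _ hz, by
      rw [map_smul, LinearMap.smul_apply, smul_eq_mul]; exact inv_mul_cancel₀ hzw⟩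
  have huz : bform hQ u z = 0 := hz u (self_mem_spanA hQ u x)
  set g := eichler hQ hu huz with hgdef
  have hg : g ∈ stabGL (Q := Q) x := ((mem_fixW hQ hu).1 (perp_spanA_le hQ u x hz)).2.mem hQ hu huz
  have hgw : (g : Matrix ι ι F) *ᵥ w = w + u := by
    rw [hgdef, eichler_mulVec hQ, hzw, huw]; module
  have hgt : (g : Matrix ι ι F) *ᵥ t = t + bform hQ z t • u := by
    rw [hgdef, eichler_mulVec hQ, hut]; module
  have hwu : Q (w + u) = 0 := by rw [q_add hQ, hu, hw, b_symm hQ, huw]; ring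
  have hline2 : ∀ c : F, c • (w + u) ∈ fixW hQ u x := fun c => perp_spanA_le hQ u x
    (Submodule.smul_mem (perp hQ (spanA hQ u x)) c (Submodule.add_mem _ hwP (self_mem_perp_spanA hQ hu x)))
  have h1 : t + bform hQ z t • u ∈ fixW hQ (w + u) x := by
    rw [← hgw, ← hgt]
    exact (mem_fixW_stab hQ hg).2 (perp_spanA_le hQ w x htS)
  have h2 : t ∈ fixW hQ (w + u) x := by
    simpa using sub_mem h1 (line_symm hQ hu hwu hline2 (bform hQ z t))
  refine (mem_fixW hQ hu).2 ⟨hut, ?_⟩
  obtain ⟨g1, hg1, e1⟩ := ((mem_fixW hQ hwu).1 h2).2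
  obtain ⟨g2, hg2, e2⟩ := ((mem_fixW hQ hu).1 (hline (-Q t))).2
  obtain ⟨g3, hg3, e3⟩ := ((mem_fixW hQ hw).1 (perp_spanA_le hQ w x htS)).2
  refine ⟨g1 * g2 * g3⁻¹, mul_mem (mul_mem hg1 hg2) (inv_mem hg3), ?_⟩
  have e : g1 * g2 = eichler hQ hu hut * g3 := by
    refine gl_ext fun y => ?_
    rw [Units.val_mul, Units.val_mul, e1, e2, e3, ← Matrix.mulVec_mulVec, ← Matrix.mulVec_mulVec,
      eichler_mulVec hQ, eichlerMat_mulVec hQ, eichlerMat_mulVec hQ, eichlerMat_mulVec hQ]
    simp only [map_add, map_sub, map_smul, LinearMap.add_apply, LinearMap.smul_apply, q_smul hQ, hw,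
      smul_eq_mul, b_self_eq_zero hQ hu, b_self_eq_zero hQ hw, b_self hQ t, b_symm hQ w u, b_symm hQ t u, b_symm hQ t w,
      huw, hut, hwt]
    module
  rw [e, mul_inv_cancel_right]
  rfl

variable {x : X}

lemma finrank_spanA_singleton {u : ι → F} (hu0 : u ≠ 0) : 1 ≤ finrank F (spanA hQ u x) := by
  have h := Submodule.finrank_mono (span_le_spanA hQ u x)
  rwa [finrank_span_singleton hu0] at h

omit [DecidableEq ι] [Finite F] hQ in
lemma pair_eq_of_le {S : Submodule F (ι → F)} (hS : finrank F S ≤ 2) {a b : ι → F} (ha : a ∈ S) (hb : b ∈ S)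
    (ha0 : a ≠ 0) (hab : b ∉ Submodule.span F {a}) : Submodule.span F {a} ⊔ Submodule.span F {b} = S := by
  refine Submodule.eq_of_le_of_finrank_le
    (sup_le ((Submodule.span_singleton_le_iff_mem _ _).2 ha) ((Submodule.span_singleton_le_iff_mem _ _).2 hb)) ?_
  have hlt : Submodule.span F {a} < Submodule.span F {a} ⊔ Submodule.span F {b} :=
    lt_of_le_not_ge le_sup_left fun h =>
      hab (h (Submodule.mem_sup_right (Submodule.mem_span_singleton_self b)))
  have := Submodule.finrank_lt_finrank_of_lt hlt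
  rw [finrank_span_singleton ha0] at this
  omega

/-- The root group fixes the point entirely. -/
def IsFull (u : ι → F) (x : X) : Prop := Q u = 0 ∧ u ≠ 0 ∧ spanA hQ u x ≤ Submodule.span F {u}

lemma IsFull.flat {u : ι → F} (h : IsFull hQ u x) : IsFlat hQ u x :=
  ⟨h.1, h.2.1, (Submodule.finrank_mono h.2.2).trans (by rw [finrank_span_singleton h.2.1]; norm_num)⟩

lemma IsFull.mem_fixW' {u w : ι → F} (h : IsFull hQ u x) (hw : bform hQ u w = 0) : w ∈ fixW hQ u x :=
  perp_spanA_le hQ u x (perp_anti hQ h.2.2 ((mem_perp_span_singleton hQ).2 hw))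

lemma IsFull.stab {u : ι → F} (h : IsFull hQ u x) {g : GL ι F} (hg : g ∈ stabGL (Q := Q) x) :
    IsFull hQ ((g : Matrix ι ι F) *ᵥ u) x := by
  have hgI := stabGL_le_isometry x hg
  refine ⟨by rw [mem_isometryGroup.1 hgI, h.1],
    fun h0 => h.2.1 (by simpa [inv_mulVec_cancel] using congrArg (((g⁻¹ : GL ι F) : Matrix ι ι F) *ᵥ ·) h0),
    fun y hy => ?_⟩
  have h1 := spanA_stab hQ (inv_mem hg) hy
  rw [inv_mulVec_cancel] at h1
  obtain ⟨c, hc⟩ := Submodule.mem_span_singleton.1 (h.2.2 h1)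
  refine Submodule.mem_span_singleton.2 ⟨c, ?_⟩
  rw [← Matrix.mulVec_smul, hc, mulVec_inv_cancel]

variable (hD : Dichot hQ X)
include hD

/-- A singular vector perpendicular to a full one is full or its space contains that one. -/
lemma full_or_mem {u w : ι → F} (hu : IsFull hQ u x) (hw : Q w = 0) (huw : bform hQ u w = 0)
    (hwu : w ∉ Submodule.span F {u}) :
    IsFlat hQ w x ∧ (IsFull hQ w x ∨ spanA hQ w x = Submodule.span F {u} ⊔ Submodule.span F {w}) := by
  have hwP : w ∈ perp hQ (spanA hQ u x) := perp_anti hQ hu.2.2 ((mem_perp_span_singleton hQ).2 huw)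
  obtain ⟨hfl, huP, -⟩ := rule hQ hD hu.flat hw hwP fun h => hwu (hu.2.2 h)
  refine ⟨hfl, ?_⟩
  by_cases h : u ∈ spanA hQ w x
  · exact Or.inr (pair_eq_of_le hfl.2.2 h (self_mem_spanA hQ w x) hu.2.1 hwu).symm
  refine Or.inl ⟨hw, hfl.2.1, fun y hy => ?_⟩
  obtain ⟨-, -, h3⟩ := rule hQ hD hfl hu.1 huP h
  obtain ⟨_, ha, b, hb, rfl⟩ := Submodule.mem_sup.1 (h3 hy)
  obtain ⟨c, rfl⟩ := Submodule.mem_span_singleton.1 (hu.2.2 hb)
  obtain ⟨d, rfl⟩ := Submodule.mem_span_singleton.1 ha
  by_cases hc : c = 0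
  · rw [hc, zero_smul, add_zero]; exact ha
  refine absurd ((Submodule.smul_mem_iff _ hc).1 ?_) h
  have := Submodule.sub_mem _ hy (Submodule.smul_mem _ d (self_mem_spanA hQ w x))
  simpa using this

lemma full_of_pair {u u' w : ι → F} (hu : IsFull hQ u x) (hu' : IsFull hQ u' x)
    (hw : Q w = 0) (huw : bform hQ u w = 0) (hu'w : bform hQ u' w = 0)
    (hind : u' ∉ Submodule.span F {u}) (hwu : w ∉ Submodule.span F {u} ⊔ Submodule.span F {u'}) :
    IsFull hQ w x := by
  have h1 : w ∉ Submodule.span F {u} := fun h => hwu (Submodule.mem_sup_left h)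
  have h1' : w ∉ Submodule.span F {u'} := fun h => hwu (Submodule.mem_sup_right h)
  rcases (full_or_mem hQ hD hu hw huw h1).2 with h | h
  · exact h
  rcases (full_or_mem hQ hD hu' hw hu'w h1').2 with h' | h'
  · exact h'
  exfalso
  have hmem : u' ∈ Submodule.span F {u} ⊔ Submodule.span F {w} := by
    rw [← h, h']; exact Submodule.mem_sup_left (Submodule.mem_span_singleton_self _)
  obtain ⟨_, ha, _, hb, e⟩ := Submodule.mem_sup.1 hmem
  obtain ⟨c, rfl⟩ := Submodule.mem_span_singleton.1 ha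
  obtain ⟨d, rfl⟩ := Submodule.mem_span_singleton.1 hb
  have hd : d ≠ 0 := by
    rintro rfl
    exact hind (Submodule.mem_span_singleton.2 ⟨c, by rw [← e, zero_smul, add_zero]⟩)
  refine hwu ((Submodule.smul_mem_iff _ hd).1 ?_)
  rw [eq_sub_of_add_eq' e]
  exact Submodule.sub_mem _ (Submodule.mem_sup_right (Submodule.mem_span_singleton_self _))
    (Submodule.mem_sup_left (Submodule.smul_mem _ _ (Submodule.mem_span_singleton_self _)))

lemma full_of_perp (hn : 7 ≤ Fintype.card ι) {u u' w : ι → F} (hu : IsFull hQ u x) (hu' : IsFull hQ u' x)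
    (huu' : bform hQ u u' = 0) (hind : u' ∉ Submodule.span F {u}) (hw : Q w = 0) (huw : bform hQ u w = 0)
    (hwu : w ∉ Submodule.span F {u}) : IsFull hQ w x := by
  have hpair := finrank_span_pair_le hQ u u'
  by_cases hu'w : bform hQ u' w = 0
  · by_cases hin : w ∈ Submodule.span F {u} ⊔ Submodule.span F {u'}
    swap
    · exact full_of_pair hQ hD hu hu' hw huw hu'w hind hin
    obtain ⟨c, hcT, hcQ, -, hcP⟩ := exists_singular_avoid hQ
      (T := perp hQ (Submodule.span F {u} ⊔ Submodule.span F {u'}))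
      (P := Submodule.span F {u} ⊔ Submodule.span F {u'}) (by
        have := finrank_perp_add hQ (Submodule.span F {u} ⊔ Submodule.span F {u'})
        omega)
    obtain ⟨huc, hu'c⟩ := (mem_perp_pair hQ).1 hcT
    have hcfull := full_of_pair hQ hD hu hu' hcQ huc hu'c hind hcP
    have hcu : c ∉ Submodule.span F {u} := fun h => hcP (Submodule.mem_sup_left h)
    refine full_of_pair hQ hD hu hcfull hw huw ?_ hcu fun h => ?_
    · rw [b_symm hQ]; exact hcT w hin
    · obtain ⟨_, ha, _, hb, e⟩ := Submodule.mem_sup.1 h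
      obtain ⟨r, rfl⟩ := Submodule.mem_span_singleton.1 ha
      obtain ⟨d, rfl⟩ := Submodule.mem_span_singleton.1 hb
      have hd : d ≠ 0 := by
        rintro rfl
        exact hwu (Submodule.mem_span_singleton.2 ⟨r, by rw [← e, zero_smul, add_zero]⟩)
      refine hcP ((Submodule.smul_mem_iff _ hd).1 ?_)
      rw [eq_sub_of_add_eq' e]
      exact Submodule.sub_mem _ hin (Submodule.mem_sup_left (Submodule.smul_mem _ _ (Submodule.mem_span_singleton_self _)))
  · obtain ⟨c, hcT, hcQ, -, hcP⟩ := exists_singular_avoid hQ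
      (T := perp hQ (Submodule.span F {u} ⊔ Submodule.span F {u'} ⊔ Submodule.span F {w}))
      (P := Submodule.span F {u}) (by
        have := finrank_perp_add hQ (Submodule.span F {u} ⊔ Submodule.span F {u'} ⊔ Submodule.span F {w})
        have := Submodule.finrank_add_le_finrank_add_finrank
          (Submodule.span F {u} ⊔ Submodule.span F {u'}) (Submodule.span F {w})
        have h4 : ∀ y : ι → F, finrank F (Submodule.span F ({y} : Set (ι → F))) ≤ 1 := fun y =>
          (finrank_span_le_card _).trans (by simp)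
        have := h4 u
        have := h4 w
        omega)
    rw [perp_sup hQ, Submodule.mem_inf, mem_perp_pair hQ, mem_perp_span_singleton hQ] at hcT
    obtain ⟨⟨huc, hu'c⟩, hwc⟩ := hcT
    have hcfull : IsFull hQ c x := by
      refine full_of_pair hQ hD hu hu' hcQ huc hu'c hind fun h => ?_
      obtain ⟨_, ha, _, hb, e⟩ := Submodule.mem_sup.1 h
      obtain ⟨r, rfl⟩ := Submodule.mem_span_singleton.1 ha
      obtain ⟨d, rfl⟩ := Submodule.mem_span_singleton.1 hb
      rw [← e, map_add, map_smul, map_smul, b_symm hQ w u, huw, b_symm hQ w u', smul_zero, zero_add,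
        smul_eq_mul, mul_eq_zero] at hwc
      refine hcP (Submodule.mem_span_singleton.2 ⟨r, ?_⟩)
      rw [← e, hwc.resolve_right hu'w, zero_smul, add_zero]
    refine full_of_pair hQ hD hu hcfull hw huw (by rw [b_symm hQ]; exact hwc) hcP fun h => ?_
    obtain ⟨_, ha, _, hb, e⟩ := Submodule.mem_sup.1 h
    obtain ⟨r, rfl⟩ := Submodule.mem_span_singleton.1 ha
    obtain ⟨d, rfl⟩ := Submodule.mem_span_singleton.1 hb
    refine hu'w ?_
    rw [← e, map_add, map_smul, map_smul, b_symm hQ u' u, huu', hu'c, smul_zero, smul_zero, add_zero]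

/-- Two orthogonal full vectors force the whole group to fix the point. -/
lemma omega_le_of_full_pair (hn : 7 ≤ Fintype.card ι) {u u' : ι → F} (hu : IsFull hQ u x)
    (hu' : IsFull hQ u' x) (huu' : bform hQ u u' = 0) (hind : u' ∉ Submodule.span F {u}) :
    omegaGL Q ≤ stabGL (Q := Q) x := by
  have hall : ∀ v, Q v = 0 → v ≠ 0 → bform hQ u v ≠ 0 ∨ v ∉ Submodule.span F {u} → IsFull hQ v x := by
    intro v hv _ hcase
    by_cases huv : bform hQ u v = 0
    · exact full_of_perp hQ hD hn hu hu' huu' hind hv huv (hcase.resolve_left (fun h => h huv))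
    obtain ⟨c, hcT, hcQ, -, hcu⟩ := exists_singular_avoid hQ
      (T := perp hQ (Submodule.span F {u} ⊔ Submodule.span F {v})) (P := Submodule.span F {u}) (by
        have := finrank_perp_add hQ (Submodule.span F {u} ⊔ Submodule.span F {v})
        have := finrank_span_pair_le hQ u v
        have : finrank F (Submodule.span F ({u} : Set (ι → F))) ≤ 1 := (finrank_span_le_card _).trans (by simp)
        omega)
    obtain ⟨huc, hvc⟩ := (mem_perp_pair hQ).1 hcT
    have hcfull := full_of_perp hQ hD hn hu hu' huu' hind hcQ huc hcu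
    refine full_of_perp hQ hD hn hcfull hu (by rw [b_symm hQ]; exact huc) ?_ hv
      (by rw [b_symm hQ]; exact hvc) ?_
    · intro h
      obtain ⟨r, hr⟩ := Submodule.mem_span_singleton.1 h
      have hr0 : r ≠ 0 := by rintro rfl; exact hu.2.1 (by rw [← hr, zero_smul])
      exact hcu (Submodule.mem_span_singleton.2 ⟨r⁻¹, by rw [← hr, inv_smul_smul₀ hr0]⟩)
    · intro h
      obtain ⟨r, hr⟩ := Submodule.mem_span_singleton.1 h
      exact huv (by rw [← hr, map_smul, huc, smul_zero])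
  refine omega_le_of_root_vectors hQ (by omega) (stabGL_le_isometry x) {z | Q z = 0 ∧ z ≠ 0}
    (fun z hz => ⟨hz.1, fun w hzw => ?_⟩) fun v hv hv0 => ?_
  · have hzfull : IsFull hQ z x := by
      by_cases hzu : z ∈ Submodule.span F {u}
      · obtain ⟨r, hr⟩ := Submodule.mem_span_singleton.1 hzu
        have hr0 : r ≠ 0 := by rintro rfl; exact hz.2 (by rw [← hr, zero_smul])
        refine ⟨hz.1, hz.2, ?_⟩
        rw [← hr, Submodule.span_singleton_smul_eq (IsUnit.mk0 r hr0)]
        exact (spanA_smul hQ hu.1 hr0 x).trans hu.2.2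
      · exact hall z hz.1 hz.2 (Or.inr hzu)
    exact ((mem_fixW hQ hz.1).1 (hzfull.mem_fixW' hQ hzw)).2
  · obtain ⟨z, hz, hvz⟩ := exists_partner hQ hv hv0
    have hz0 : z ≠ 0 := by rintro rfl; rw [map_zero] at hvz; exact zero_ne_one hvz
    have hzv : bform hQ z v ≠ 0 := by rw [b_symm hQ, hvz]; exact one_ne_zero
    exact ⟨z, ⟨hz, hz0⟩, v, ⟨hv, hv0⟩, hzv, hzv⟩

omit hD in
/-- A common non-orthogonal singular vector in the perp of a small space. -/
lemma exists_common_nonperp (hn : 7 ≤ Fintype.card ι) {S : Submodule F (ι → F)} (hS : finrank F S ≤ 2)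
    {w₁ w₂ : ι → F} (h₁ : Q w₁ = 0) (h₂ : Q w₂ = 0) (hT₁ : w₁ ∈ perp hQ S) (hT₂ : w₂ ∈ perp hQ S)
    (hn₁ : w₁ ∉ S) (hn₂ : w₂ ∉ S) :
    ∃ z ∈ perp hQ S, Q z = 0 ∧ z ∉ S ∧ bform hQ z w₁ ≠ 0 ∧ bform hQ z w₂ ≠ 0 := by
  have houtside : ∀ z : ι → F, bform hQ z w₁ ≠ 0 → z ∉ S := fun z hz h => hz (hT₁ z h)
  by_cases hb : bform hQ w₁ w₂ = 0
  · obtain ⟨y, hy, hy₁, hy₂⟩ : ∃ y ∈ perp hQ S, bform hQ y w₁ = 1 ∧ bform hQ y w₂ ≠ 0 := by
      by_cases hdep : w₂ ∈ Submodule.span F {w₁} ⊔ S
      · obtain ⟨y, hy, hyw⟩ := exists_mem_b_ne_zero hQ (S := perp hQ S) (v := w₁) (by rwa [perp_perp hQ])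
        obtain ⟨_, ha, s, hs, e⟩ := Submodule.mem_sup.1 hdep
        obtain ⟨c, rfl⟩ := Submodule.mem_span_singleton.1 ha
        have hc : c ≠ 0 := by rintro rfl; exact hn₂ (by rw [← e, zero_smul, zero_add]; exact hs)
        refine ⟨(bform hQ y w₁)⁻¹ • y, Submodule.smul_mem _ _ hy,
          by rw [map_smul, LinearMap.smul_apply, smul_eq_mul]; exact inv_mul_cancel₀ hyw, ?_⟩
        rw [← e, map_smul, LinearMap.smul_apply, map_add, map_smul, b_symm hQ y s, hy s hs, add_zero,
          smul_eq_mul, smul_eq_mul, mul_comm c, ← mul_assoc, inv_mul_cancel₀ hyw, one_mul]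
        exact hc
      · have hdep' : w₁ ∉ Submodule.span F {w₂} ⊔ perp hQ (perp hQ S) := by
          rw [perp_perp hQ]
          intro h
          obtain ⟨_, ha, s, hs, e⟩ := Submodule.mem_sup.1 h
          obtain ⟨c, rfl⟩ := Submodule.mem_span_singleton.1 ha
          have hc : c ≠ 0 := by rintro rfl; exact hn₁ (by rw [← e, zero_smul, zero_add]; exact hs)
          refine hdep ((Submodule.smul_mem_iff _ hc).1 ?_)
          rw [eq_sub_of_add_eq e]
          exact Submodule.sub_mem _ (Submodule.mem_sup_left (Submodule.mem_span_singleton_self _))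
            (Submodule.mem_sup_right hs)
        obtain ⟨y₁, hy₁, hy₁P, hy₁b⟩ := exists_b_one_mem hQ hdep'
        obtain ⟨y₂, hy₂, hy₂P, hy₂b⟩ := exists_b_one_mem hQ (S := perp hQ S) (T := Submodule.span F {w₁})
          (v := w₂) (by rwa [perp_perp hQ])
        rw [mem_perp_span_singleton hQ] at hy₁P hy₂P
        refine ⟨y₁ + y₂, Submodule.add_mem _ hy₁ hy₂, ?_, ?_⟩
        · rw [b_symm hQ, map_add, hy₁b, hy₂P, add_zero]
        · rw [b_symm hQ, map_add, hy₁P, hy₂b, zero_add]; exact one_ne_zero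
    refine ⟨y - Q y • w₁, Submodule.sub_mem _ hy (Submodule.smul_mem _ _ hT₁), ?_, ?_, ?_, ?_⟩
    · rw [q_sub hQ, q_smul hQ, h₁, map_smul, hy₁, smul_eq_mul]; ring
    · refine houtside _ ?_
      simp [map_sub, map_smul, hy₁, b_self_eq_zero hQ h₁, -bform_apply]
    · simp [map_sub, map_smul, hy₁, b_self_eq_zero hQ h₁, -bform_apply]
    · simp [map_sub, map_smul, hb, hy₂, -bform_apply]
  · obtain ⟨s, hs, hQs⟩ : ∃ s ∈ perp hQ S ⊓ perp hQ (Submodule.span F {w₁} ⊔ Submodule.span F {w₂}),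
        Q s ≠ 0 := by
      by_contra hall
      push Not at hall
      set D := perp hQ S ⊓ perp hQ (Submodule.span F {w₁} ⊔ Submodule.span F {w₂}) with hDdef
      have h1 : IsTotallySingularQuad Q (D ⊔ Submodule.span F {w₁}) := by
        intro z hz
        obtain ⟨d, hd, _, hb', rfl⟩ := Submodule.mem_sup.1 hz
        obtain ⟨c, rfl⟩ := Submodule.mem_span_singleton.1 hb'
        rw [q_add hQ, q_smul hQ, hall d hd, h₁, map_smul, b_symm hQ d w₁, ((mem_perp_pair hQ).1 hd.2).1,
          smul_zero]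
        ring
      have h2 : D < D ⊔ Submodule.span F {w₁} := lt_of_le_not_ge le_sup_left fun h => by
        have := h (Submodule.mem_sup_right (Submodule.mem_span_singleton_self w₁))
        exact hb (by rw [b_symm hQ]; exact ((mem_perp_pair hQ).1 this.2).2)
      have h3 := two_mul_finrank_le hQ h1
      have h4 := Submodule.finrank_lt_finrank_of_lt h2
      have h5 := finrank_le_inf_perp hQ (perp hQ S) (Submodule.span F {w₁} ⊔ Submodule.span F {w₂})
      have h6 := finrank_span_pair_le hQ w₁ w₂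
      have h7 := finrank_perp_add hQ S
      rw [← hDdef] at h5
      omega
    obtain ⟨hs₁, hs₂⟩ := (mem_perp_pair hQ).1 hs.2
    set β := -Q s / bform hQ w₁ w₂ with hβ
    have hβ0 : β ≠ 0 := div_ne_zero (neg_ne_zero.2 hQs) hb
    have e1 : bform hQ (w₁ + β • w₂ + s) w₁ = β * bform hQ w₁ w₂ := by
      simp only [map_add, map_smul, LinearMap.add_apply, LinearMap.smul_apply, b_self_eq_zero hQ h₁,
        b_symm hQ w₂ w₁, b_symm hQ s w₁, hs₁, smul_eq_mul]
      ring
    have e2 : bform hQ (w₁ + β • w₂ + s) w₂ = bform hQ w₁ w₂ := by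
      simp only [map_add, map_smul, LinearMap.add_apply, LinearMap.smul_apply, b_self_eq_zero hQ h₂,
        b_symm hQ s w₂, hs₂, smul_eq_mul]
      ring
    refine ⟨w₁ + β • w₂ + s, Submodule.add_mem _ (Submodule.add_mem _ hT₁ (Submodule.smul_mem _ _ hT₂)) hs.1,
      ?_, houtside _ ?_, ?_, ?_⟩
    · simp only [q_add hQ, q_smul hQ, h₁, h₂, map_add, map_smul, LinearMap.add_apply, LinearMap.smul_apply,
        hs₁, hs₂, smul_eq_mul]
      rw [hβ, div_mul_cancel₀ _ hb]
      ring
    · rw [e1]; exact mul_ne_zero hβ0 hb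
    · rw [e1]; exact mul_ne_zero hβ0 hb
    · rw [e2]; exact hb

omit hD in
/-- Singular vectors of the perp of a small space detect the vectors outside the space. -/
lemma exists_detect (hn : 7 ≤ Fintype.card ι) {S : Submodule F (ι → F)} (hS : finrank F S ≤ 2) {y : ι → F}
    (hy : y ∈ perp hQ S) (hyS : y ∉ S) :
    ∃ w ∈ perp hQ S, Q w = 0 ∧ w ∉ S ∧ bform hQ w y ≠ 0 := by
  obtain ⟨w₀, hw₀, hw₀Q, -, hw₀S⟩ := exists_singular_avoid hQ (T := perp hQ S) (P := S) (by
    have := finrank_perp_add hQ S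
    omega)
  have houtside : ∀ w : ι → F, bform hQ w y ≠ 0 → w ∉ S := fun w hw h => hw (hy w h)
  by_cases h0 : bform hQ w₀ y = 0
  swap
  · exact ⟨w₀, hw₀, hw₀Q, hw₀S, h0⟩
  obtain ⟨p, hp, hpQ, hpw⟩ : ∃ p ∈ perp hQ S, Q p = 0 ∧ bform hQ w₀ p = 1 := by
    obtain ⟨p, hp, -, hpw⟩ := exists_b_one_mem hQ (S := perp hQ S) (T := (⊥ : Submodule F (ι → F))) (v := w₀)
      (by rwa [bot_sup_eq, perp_perp hQ])
    refine ⟨p - Q p • w₀, Submodule.sub_mem _ hp (Submodule.smul_mem _ _ hw₀), ?_, ?_⟩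
    · rw [q_sub hQ, q_smul hQ, hw₀Q, map_smul, smul_eq_mul, b_symm hQ p w₀, hpw]; ring
    · rw [map_sub, map_smul, b_self_eq_zero hQ hw₀Q, hpw, smul_zero, sub_zero]
  by_cases h1 : bform hQ p y = 0
  swap
  · exact ⟨p, hp, hpQ, houtside p h1, h1⟩
  obtain ⟨z, hz, hzy⟩ := exists_mem_b_ne_zero hQ (S := perp hQ S) (v := y) (by rwa [perp_perp hQ])
  set z' := z - bform hQ p z • w₀ - bform hQ w₀ z • p with hz'
  have e0 : bform hQ w₀ z' = 0 := by
    simp only [hz', map_sub, map_smul, b_self_eq_zero hQ hw₀Q, hpw, smul_eq_mul]; ring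
  have e1 : bform hQ p z' = 0 := by
    simp only [hz', map_sub, map_smul, b_self_eq_zero hQ hpQ, b_symm hQ p w₀, hpw, smul_eq_mul]; ring
  have ey : bform hQ z' y = bform hQ z y := by
    simp only [hz', map_sub, map_smul, LinearMap.sub_apply, LinearMap.smul_apply, h0, h1, smul_eq_mul]; ring
  have hwy : bform hQ (z' + w₀ - Q z' • p) y = bform hQ z y := by
    simp only [map_sub, map_add, map_smul, LinearMap.sub_apply, LinearMap.add_apply, LinearMap.smul_apply,
      h0, h1, ey, smul_eq_mul]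
    ring
  refine ⟨z' + w₀ - Q z' • p, Submodule.sub_mem _ (Submodule.add_mem _ ?_ hw₀) (Submodule.smul_mem _ _ hp),
    ?_, houtside _ (by rw [hwy]; exact hzy), by rw [hwy]; exact hzy⟩
  · exact Submodule.sub_mem _ (Submodule.sub_mem _ hz (Submodule.smul_mem _ _ hw₀)) (Submodule.smul_mem _ _ hp)
  · simp only [q_sub hQ, q_add hQ, q_smul hQ, hw₀Q, hpQ, map_add, map_smul, LinearMap.add_apply,
      b_symm hQ z' w₀, b_symm hQ z' p, e0, e1, hpw, smul_eq_mul]
    ring

/-- Without full vectors all the neighbours of `u` share a second direction. -/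
lemma exists_axis (hn : 7 ≤ Fintype.card ι) (hnf : ∀ v, ¬ IsFull hQ v x) {u : ι → F} (hu : IsFlat hQ u x) :
    ∃ p ∈ spanA hQ u x, p ∉ Submodule.span F {u} ∧
      ∀ w ∈ perp hQ (spanA hQ u x), Q w = 0 → w ∉ spanA hQ u x →
        u ∉ spanA hQ w x ∧ p ∈ spanA hQ w x := by
  set S := spanA hQ u x with hSdef
  have huS : u ∈ S := self_mem_spanA hQ u x
  have hnot : ∀ w ∈ perp hQ S, Q w = 0 → w ∉ S → u ∉ spanA hQ w x := by
    intro w hwP hw hwS h
    obtain ⟨hfl, -, hle⟩ := rule hQ hD hu hw hwP hwS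
    have hsup : Submodule.span F {u} ⊔ spanA hQ w x = spanA hQ w x :=
      sup_eq_right.2 ((Submodule.span_singleton_le_iff_mem _ _).2 h)
    rw [hsup] at hle
    have h2 : 2 ≤ finrank F S := by
      by_contra hlt
      refine hnf u ⟨hu.1, hu.2.1, le_of_eq (Submodule.eq_of_le_of_finrank_le
        (span_le_spanA hQ u x) ?_).symm⟩
      rw [finrank_span_singleton hu.2.1]; rw [← hSdef]; omega
    refine hwS (?_ : w ∈ spanA hQ u x)
    rw [Submodule.eq_of_le_of_finrank_le hle (le_trans hfl.2.2 h2)]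
    exact self_mem_spanA hQ w x
  have hline : ∀ w ∈ perp hQ S, Q w = 0 → w ∉ S → ∃ p ∈ S, p ∈ spanA hQ w x ∧ p ∉ Submodule.span F {u} := by
    intro w hwP hw hwS
    obtain ⟨hfl, huP, hle⟩ := rule hQ hD hu hw hwP hwS
    obtain ⟨a, haS, hau⟩ := SetLike.not_le_iff_exists.1 (fun h => hnf u ⟨hu.1, hu.2.1, h⟩)
    obtain ⟨_, hb, p, hp, rfl⟩ := Submodule.mem_sup.1 (hle haS)
    refine ⟨p, ?_, hp, fun h => hau (Submodule.add_mem _ hb h)⟩
    have := Submodule.sub_mem S haS (span_le_spanA hQ u x hb)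
    simpa using this
  obtain ⟨w₀, hw₀P, hw₀Q, -, hw₀S⟩ := exists_singular_avoid hQ (T := perp hQ S) (P := S) (by
    have := finrank_perp_add hQ S
    have := hu.2.2
    rw [← hSdef] at this
    omega)
  obtain ⟨p, hpS, hp₀, hpu⟩ := hline w₀ hw₀P hw₀Q hw₀S
  refine ⟨p, hpS, hpu, fun w hwP hw hwS => ⟨hnot w hwP hw hwS, ?_⟩⟩
  obtain ⟨z, hzP, hzQ, hzS, hz₀, hzw⟩ := exists_common_nonperp hQ hn hu.2.2 hw₀Q hw hw₀P hwP hw₀S hwS
  obtain ⟨hzfl, huPz, -⟩ := rule hQ hD hu hzQ hzP hzS
  have hSz : spanA hQ z x ≤ Submodule.span F {z} ⊔ S :=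
    (rule hQ hD hzfl hu.1 huPz (hnot z hzP hzQ hzS)).2.2
  obtain ⟨hd, he⟩ := exists_eichler_map hQ hzQ (v := (bform hQ z w₀)⁻¹ • w₀) (v' := (bform hQ z w)⁻¹ • w)
    (by rw [q_smul hQ, hw₀Q, mul_zero]) (by rw [q_smul hQ, hw, mul_zero])
    (by rw [map_smul, smul_eq_mul, inv_mul_cancel₀ hz₀]) (by rw [map_smul, smul_eq_mul, inv_mul_cancel₀ hzw])
  set d := (bform hQ z w₀)⁻¹ • w₀ - (bform hQ z w)⁻¹ • w with hddef
  have hdS : d ∈ perp hQ S := Submodule.sub_mem _ (Submodule.smul_mem _ _ hw₀P) (Submodule.smul_mem _ _ hwP)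
  have hdfix : d ∈ fixW hQ z x := by
    refine perp_spanA_le hQ z x (perp_anti hQ hSz ?_)
    rw [perp_sup hQ, Submodule.mem_inf, mem_perp_span_singleton hQ]
    exact ⟨hd, hdS⟩
  have hg := ((mem_fixW hQ hzQ).1 hdfix).2.mem hQ hzQ hd
  have hgp : (eichler hQ hzQ hd : Matrix ι ι F) *ᵥ p = p :=
    eichler_fix hQ hzQ hd (by rw [b_symm hQ]; exact hzP p hpS) (by rw [b_symm hQ]; exact hdS p hpS)
  have h1 : p ∈ spanA hQ ((bform hQ z w₀)⁻¹ • w₀) x := by
    have := spanA_smul hQ (u := (bform hQ z w₀)⁻¹ • w₀) (by rw [q_smul hQ, hw₀Q, mul_zero]) hz₀ x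
    rw [smul_inv_smul₀ hz₀] at this
    exact this hp₀
  have h2 := spanA_stab hQ hg h1
  rw [hgp, he] at h2
  exact spanA_smul hQ hw (inv_ne_zero hzw) x h2

/-- The stabiliser fixes a line unless all root groups are free or it is everything. -/
theorem exists_fixed_line (hn : 7 ≤ Fintype.card ι) {u₀ : ι → F} (hu₀ : IsFlat hQ u₀ x)
    (hne : ¬ omegaGL Q ≤ stabGL (Q := Q) x) :
    ∃ p : ι → F, p ≠ 0 ∧ ∀ g ∈ stabGL (Q := Q) x, (g : Matrix ι ι F) *ᵥ p ∈ Submodule.span F {p} := by
  by_cases hf : ∃ u, IsFull hQ u x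
  · obtain ⟨u, hu⟩ := hf
    refine ⟨u, hu.2.1, fun g hg => ?_⟩
    by_contra hne'
    set u' := (g : Matrix ι ι F) *ᵥ u with hu'def
    have hu' : IsFull hQ u' x := hu.stab hQ hg
    by_cases huu' : bform hQ u u' = 0
    · exact hne (omega_le_of_full_pair hQ hD hn hu hu' huu' hne')
    obtain ⟨w, hwT, hwQ, hw0, -⟩ := exists_singular_avoid hQ
      (T := perp hQ (Submodule.span F {u} ⊔ Submodule.span F {u'})) (P := (⊥ : Submodule F (ι → F))) (by
        have := finrank_perp_add hQ (Submodule.span F {u} ⊔ Submodule.span F {u'})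
        have := finrank_span_pair_le hQ u u'
        rw [finrank_bot]
        omega)
    obtain ⟨huw, hu'w⟩ := (mem_perp_pair hQ).1 hwT
    have hwu : w ∉ Submodule.span F {u} := by
      intro h
      obtain ⟨c, hc⟩ := Submodule.mem_span_singleton.1 h
      rw [← hc, map_smul, smul_eq_mul, b_symm hQ u' u, mul_eq_zero] at hu'w
      exact hw0 (by rw [← hc, hu'w.resolve_right huu', zero_smul])
    have hwu' : w ∉ Submodule.span F {u'} := by
      intro h
      obtain ⟨c, hc⟩ := Submodule.mem_span_singleton.1 h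
      rw [← hc, map_smul, smul_eq_mul, mul_eq_zero] at huw
      exact hw0 (by rw [← hc, huw.resolve_right huu', zero_smul])
    have huw' : bform hQ w u = 0 := by rw [b_symm hQ]; exact huw
    rcases (full_or_mem hQ hD hu hwQ huw hwu).2 with h | h
    · refine hne (omega_le_of_full_pair hQ hD hn hu h huw hwu)
    rcases (full_or_mem hQ hD hu' hwQ hu'w hwu').2 with h' | h'
    · exact hne (omega_le_of_full_pair hQ hD hn hu' h' hu'w hwu')
    have hmem : u' ∈ Submodule.span F {u} ⊔ Submodule.span F {w} := by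
      rw [← h, h']; exact Submodule.mem_sup_left (Submodule.mem_span_singleton_self _)
    obtain ⟨_, ha, _, hb, e⟩ := Submodule.mem_sup.1 hmem
    obtain ⟨r, rfl⟩ := Submodule.mem_span_singleton.1 ha
    obtain ⟨d, rfl⟩ := Submodule.mem_span_singleton.1 hb
    refine huu' ?_
    rw [← e, map_add, map_smul, map_smul, b_self_eq_zero hQ hu.1, huw, smul_zero, smul_zero, add_zero]
  push Not at hf
  obtain ⟨p, hpS, hpu, hp⟩ := exists_axis hQ hD hn hf hu₀
  have hu₀u : bform hQ u₀ p = 0 := (mem_perp_span_singleton hQ).1 (spanA_le_perp hQ hu₀.1 x hpS)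
  have hp0 : p ≠ 0 := fun h => hpu (h ▸ zero_mem _)
  have hSeq : Submodule.span F {u₀} ⊔ Submodule.span F {p} = spanA hQ u₀ x :=
    pair_eq_of_le hu₀.2.2 (self_mem_spanA hQ u₀ x) hpS hu₀.2.1 hpu
  have hQp : Q p ≠ 0 := by
    intro hQp
    have hpperp : p ∈ perp hQ (spanA hQ u₀ x) := by
      rw [← hSeq, mem_perp_pair hQ]
      exact ⟨hu₀u, b_self_eq_zero hQ hQp⟩
    have hl : ∀ c : F, c • p ∈ fixW hQ u₀ x := fun c =>
      perp_spanA_le hQ u₀ x (Submodule.smul_mem (perp hQ (spanA hQ u₀ x)) c hpperp)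
    have hl' := line_symm hQ hu₀.1 hQp hl
    have hpfl : IsFlat hQ p x := by
      refine ⟨hQp, hp0, (hD x p hQp hp0).resolve_left fun h => hpu ?_⟩
      obtain ⟨c, hc⟩ := Submodule.mem_span_singleton.1
        (show u₀ ∈ Submodule.span F {p} from h (by simpa using hl' 1))
      have hc0 : c ≠ 0 := by rintro rfl; exact hu₀.2.1 (by rw [← hc, zero_smul])
      exact Submodule.mem_span_singleton.2 ⟨c⁻¹, by rw [← hc, inv_smul_smul₀ hc0]⟩
    have hperp : ∀ w ∈ perp hQ (spanA hQ u₀ x), Q w = 0 → w ∉ spanA hQ u₀ x →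
        w ∈ perp hQ (spanA hQ p x) := by
      intro w hwP hw hwS
      obtain ⟨hnu, hpw⟩ := hp w hwP hw hwS
      obtain ⟨hwfl, -, -⟩ := rule hQ hD hu₀ hw hwP hwS
      have hwp : p ∉ Submodule.span F {w} := fun h => by
        obtain ⟨c, hc⟩ := Submodule.mem_span_singleton.1 h
        have hc0 : c ≠ 0 := by rintro rfl; exact hp0 (by rw [← hc, zero_smul])
        exact hwS ((Submodule.smul_mem_iff _ hc0).1 (hc.symm ▸ hpS))
      have hSw : Submodule.span F {w} ⊔ Submodule.span F {p} = spanA hQ w x :=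
        pair_eq_of_le hwfl.2.2 (self_mem_spanA hQ w x) hpw hwfl.2.1 hwp
      have hpP : p ∈ perp hQ (spanA hQ w x) := by
        rw [← hSw, mem_perp_pair hQ]
        exact ⟨by rw [b_symm hQ]; exact hwP p hpS, b_self_eq_zero hQ hQp⟩
      exact mem_perp_spanA_of_line hQ (line_symm hQ hw hQp fun c =>
        perp_spanA_le hQ w x (Submodule.smul_mem (perp hQ (spanA hQ w x)) c hpP))
    have hle : spanA hQ p x ≤ spanA hQ u₀ x := by
      intro y hy
      by_contra hyS
      have hyP : y ∈ perp hQ (spanA hQ u₀ x) := by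
        rw [← hSeq, mem_perp_pair hQ]
        exact ⟨by rw [b_symm hQ]; exact mem_perp_spanA_of_line hQ hl' y hy,
          (mem_perp_span_singleton hQ).1 (spanA_le_perp hQ hQp x hy)⟩
      obtain ⟨w, hwP, hw, hwS, hwy⟩ := exists_detect hQ hn hu₀.2.2 hyP hyS
      exact hwy (by rw [b_symm hQ]; exact hperp w hwP hw hwS y hy)
    obtain ⟨w, hwP, hw, -, hwS⟩ := exists_singular_avoid hQ
      (T := perp hQ (spanA hQ u₀ x)) (P := spanA hQ u₀ x) (by
        have := finrank_perp_add hQ (spanA hQ u₀ x)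
        have := hu₀.2.2
        omega)
    obtain ⟨q, hqS, -, hq⟩ := exists_axis hQ hD hn hf hpfl
    exact (hq w (hperp w hwP hw hwS) hw fun h => hwS (hle h)).1 (hp w hwP hw hwS).2
  -- every singular vector perpendicular to `p` has `p` in its space
  have hall : ∀ y, Q y = 0 → y ≠ 0 → bform hQ y p = 0 → p ∈ spanA hQ y x ∧ IsFlat hQ y x := by
    intro y hy hy0 hyp
    by_cases huy : bform hQ u₀ y = 0
    · have hyP : y ∈ perp hQ (spanA hQ u₀ x) := by
        rw [← hSeq, mem_perp_pair hQ]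
        exact ⟨huy, by rw [b_symm hQ]; exact hyp⟩
      by_cases hyS : y ∈ spanA hQ u₀ x
      · rw [← hSeq] at hyS
        obtain ⟨_, ha, _, hb, e⟩ := Submodule.mem_sup.1 hyS
        obtain ⟨r, rfl⟩ := Submodule.mem_span_singleton.1 ha
        obtain ⟨d, rfl⟩ := Submodule.mem_span_singleton.1 hb
        have hd : d = 0 := by
          rw [← e, q_add hQ, q_smul hQ, q_smul hQ, hu₀.1, map_smul, map_smul, LinearMap.smul_apply, hu₀u] at hy
          simpa [hQp] using hy
        rw [hd, zero_smul, add_zero] at e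
        have hr : r ≠ 0 := by rintro rfl; exact hy0 (by rw [← e, zero_smul])
        subst e
        refine ⟨?_, hy, hy0, (Submodule.finrank_mono (spanA_smul hQ hu₀.1 hr x)).trans hu₀.2.2⟩
        have := spanA_smul hQ (u := r • u₀) hy (inv_ne_zero hr) x
        rw [inv_smul_smul₀ hr] at this
        exact this hpS
      exact ⟨(hp y hyP hy hyS).2, (rule hQ hD hu₀ hy hyP hyS).1⟩
    · obtain ⟨w, hwT, hw, -, hwp⟩ := exists_singular_avoid hQ
        (T := perp hQ (Submodule.span F {u₀} ⊔ Submodule.span F {y} ⊔ Submodule.span F {p}))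
        (P := Submodule.span F {p}) (by
          have := finrank_perp_add hQ (Submodule.span F {u₀} ⊔ Submodule.span F {y} ⊔ Submodule.span F {p})
          have := Submodule.finrank_add_le_finrank_add_finrank
            (Submodule.span F {u₀} ⊔ Submodule.span F {y}) (Submodule.span F {p})
          have := finrank_span_pair_le hQ u₀ y
          have : finrank F (Submodule.span F ({p} : Set (ι → F))) ≤ 1 := (finrank_span_le_card _).trans (by simp)
          omega)
      rw [perp_sup hQ, Submodule.mem_inf, mem_perp_pair hQ, mem_perp_span_singleton hQ] at hwT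
      obtain ⟨⟨huw, hyw⟩, hpw⟩ := hwT
      have hwP : w ∈ perp hQ (spanA hQ u₀ x) := by
        rw [← hSeq, mem_perp_pair hQ]; exact ⟨huw, hpw⟩
      have hwS : w ∉ spanA hQ u₀ x := by
        rw [← hSeq]
        intro h
        obtain ⟨_, ha, _, hb, e⟩ := Submodule.mem_sup.1 h
        obtain ⟨r, rfl⟩ := Submodule.mem_span_singleton.1 ha
        obtain ⟨d, rfl⟩ := Submodule.mem_span_singleton.1 hb
        rw [← e, map_add, map_smul, map_smul, hyp, smul_zero, add_zero, b_symm hQ y u₀, smul_eq_mul,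
          mul_eq_zero] at hyw
        refine hwp (Submodule.mem_span_singleton.2 ⟨d, ?_⟩)
        rw [← e, hyw.resolve_right huy, zero_smul, zero_add]
      obtain ⟨hnu, hpw'⟩ := hp w hwP hw hwS
      obtain ⟨hwfl, huPw, -⟩ := rule hQ hD hu₀ hw hwP hwS
      have hpnw : p ∉ Submodule.span F {w} := fun h => by
        obtain ⟨c, hc⟩ := Submodule.mem_span_singleton.1 h
        exact hQp (by rw [← hc, q_smul hQ, hw, mul_zero])
      have hSw : Submodule.span F {w} ⊔ Submodule.span F {p} = spanA hQ w x :=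
        pair_eq_of_le hwfl.2.2 (self_mem_spanA hQ w x) hpw' hwfl.2.1 hpnw
      obtain ⟨q, hqS, hqw, hq⟩ := exists_axis hQ hD hn hf hwfl
      have hyP : y ∈ perp hQ (spanA hQ w x) := by
        rw [← hSw, mem_perp_pair hQ]
        exact ⟨by rw [b_symm hQ]; exact hyw, by rw [b_symm hQ]; exact hyp⟩
      have hyS : y ∉ spanA hQ w x := fun h => huy (by rw [b_symm hQ]; exact huPw y h)
      refine ⟨?_, (rule hQ hD hwfl hy hyP hyS).1⟩
      -- the axis at `w` is `p`
      have hqu := (hq u₀ huPw hu₀.1 hnu).2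
      rw [← hSw] at hqS
      obtain ⟨_, ha, _, hb, e⟩ := Submodule.mem_sup.1 hqS
      obtain ⟨r, rfl⟩ := Submodule.mem_span_singleton.1 ha
      obtain ⟨d, rfl⟩ := Submodule.mem_span_singleton.1 hb
      have hr : r = 0 := by
        by_contra hr
        refine hwS ((Submodule.smul_mem_iff _ hr).1 ?_)
        have := Submodule.sub_mem _ hqu (Submodule.smul_mem _ d hpS)
        rw [← e] at this
        simpa using this
      have hd : d ≠ 0 := by
        rintro rfl
        exact hqw (Submodule.mem_span_singleton.2 ⟨r, by rw [← e, zero_smul, add_zero]⟩)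
      have h := (hq y hyP hy hyS).2
      rw [← e, hr, zero_smul, zero_add] at h
      exact (Submodule.smul_mem_iff _ hd).1 h
  refine ⟨p, hp0, fun g hg => ?_⟩
  by_contra hne'
  have hgI := stabGL_le_isometry x hg
  set p' := (g : Matrix ι ι F) *ᵥ p with hp'def
  obtain ⟨y, hyT, hy, hy0, hyP⟩ := exists_singular_avoid hQ
    (T := perp hQ (Submodule.span F {p} ⊔ Submodule.span F {p'}))
    (P := Submodule.span F {p} ⊔ Submodule.span F {p'}) (by
      have := finrank_perp_add hQ (Submodule.span F {p} ⊔ Submodule.span F {p'})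
      have := finrank_span_pair_le hQ p p'
      omega)
  obtain ⟨hpy, hp'y⟩ := (mem_perp_pair hQ).1 hyT
  obtain ⟨hpSy, hyfl⟩ := hall y hy hy0 (by rw [b_symm hQ]; exact hpy)
  set y₀ := ((g⁻¹ : GL ι F) : Matrix ι ι F) *ᵥ y with hy₀def
  have hgy₀ : (g : Matrix ι ι F) *ᵥ y₀ = y := mulVec_inv_cancel g y
  have hy₀ : p ∈ spanA hQ y₀ x := by
    refine (hall y₀ (by rw [hy₀def, mem_isometryGroup.1 (inv_mem hgI), hy]) (fun h => hy0 ?_) ?_).1
    · rw [← hgy₀, h, Matrix.mulVec_zero]
    · rw [← isometry_b hQ hgI y₀ p, hgy₀, ← hp'def, b_symm hQ]; exact hp'y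
  have hp'Sy := spanA_stab hQ hg hy₀
  rw [hgy₀, ← hp'def] at hp'Sy
  have hypy : p ∉ Submodule.span F {y} := fun h => by
    obtain ⟨c, hc⟩ := Submodule.mem_span_singleton.1 h
    exact hQp (by rw [← hc, q_smul hQ, hy, mul_zero])
  rw [← pair_eq_of_le hyfl.2.2 (self_mem_spanA hQ y x) hpSy hy0 hypy] at hp'Sy
  obtain ⟨_, ha, _, hb, e⟩ := Submodule.mem_sup.1 hp'Sy
  obtain ⟨r, rfl⟩ := Submodule.mem_span_singleton.1 ha
  obtain ⟨d, rfl⟩ := Submodule.mem_span_singleton.1 hb
  have hr : r ≠ 0 := by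
    rintro rfl
    exact hne' (Submodule.mem_span_singleton.2 ⟨d, by rw [← e, zero_smul, zero_add]⟩)
  refine hyP ((Submodule.smul_mem_iff _ hr).1 ?_)
  rw [eq_sub_of_add_eq e]
  exact Submodule.sub_mem _ (Submodule.mem_sup_right (Submodule.mem_span_singleton_self _))
    (Submodule.mem_sup_left (Submodule.smul_mem _ _ (Submodule.mem_span_singleton_self _)))

end CfsgLib.MinIndexOrth
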