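import Cfsg.Agent.MinIndexOrth.Classify

/-! Annihilators all of whose vectors are singular: pairs of orthogonal singular vectors bound the number
of points from below. -/

set_option autoImplicit false
set_option linter.unusedSectionVars false

namespace CfsgLib.MinIndexOrth

open Cfsg.Geo CfsgLib.OrthGeo Module
open scoped Matrix MatrixGroups

variable {ι : Type} [Fintype ι] [DecidableEq ι] {F : Type*} [Field F] [Finite F]
variable {Q : (ι → F) → F}
variable {X : Type*} [MulAction (omegaGL Q) X] [Finite X]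
variable (hQ : IsNondegenerateQuadraticForm Q)
include hQ

/-- The singular vectors perpendicular to `u` outside its line. -/
def singPerp (u z : ι → F) : Prop := Q z = 0 ∧ bform hQ u z = 0 ∧ z ∉ Submodule.span F {u}

omit [Finite F] [Finite X] in
lemma b_eq_zero_of_all_singular {u : ι → F} {x : X} [Finite F]
    (hsing : ∀ a ∈ annW hQ u x, Q a = 0) {a b : ι → F} (ha : a ∈ annW hQ u x) (hb : b ∈ annW hQ u x) :
    bform hQ a b = 0 := by
  have h := q_add hQ a b
  rw [hsing _ (add_mem ha hb), hsing a ha, hsing b hb] at h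
  linear_combination -h

lemma spanA_totallySingular {u : ι → F} {x : X} (hsing : ∀ a ∈ annW hQ u x, Q a = 0) :
    IsTotallySingularQuad Q (spanA hQ u x) := by
  have hperp : spanA hQ u x ≤ perp hQ (spanA hQ u x) := by
    refine Submodule.span_le.2 fun a ha b hb => ?_
    have hb' : b ∈ (Submodule.span F (annW hQ u x : Set (ι → F))) := hb
    refine Submodule.span_induction (p := fun z _ => bform hQ z a = 0) (fun z hz => ?_) ?_ ?_ ?_ hb'
    · exact b_eq_zero_of_all_singular hQ hsing hz ha
    · rw [map_zero, LinearMap.zero_apply]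
    · intro y z _ _ h1 h2; rw [map_add, LinearMap.add_apply, h1, h2, add_zero]
    · intro c z _ h1; rw [map_smul, LinearMap.smul_apply, h1, smul_zero]
  intro z hz
  refine Submodule.span_induction (p := fun z _ => Q z = 0) (fun z hz => hsing z hz) (q_zero hQ)
    (fun y z hy hz h1 h2 => ?_) (fun c z _ h1 => ?_) hz
  · rw [q_add hQ, h1, h2, hperp hz y hy]; ring
  · rw [q_smul hQ, h1, mul_zero]

/-- Pairs of orthogonal singular vectors covered by the translates. -/
theorem pair_count (hn : 7 ≤ Fintype.card ι) {u : ι → F} (hu : Q u = 0) (hu0 : u ≠ 0) {x : X}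
    (hsing : ∀ a ∈ annW hQ u x, Q a = 0) (h3 : 3 ≤ finrank F (spanA hQ u x)) (β : ℕ)
    (hβ : ∀ B ∈ family hQ u x, ∀ z ∈ B, singPerp hQ u z → β ≤
      Nat.card (B ⊓ (Submodule.span F {u} ⊔ Submodule.span F {z}).toAddSubgroup : AddSubgroup (ι → F))) :
    Nat.card {z // singPerp hQ u z} *
        ((Nat.card F - 1) * Nat.card F ^ (Fintype.card ι - 4) + (Nat.card F - 1) * Nat.card F ^ 2) ≤
      (family hQ u x).card * ((Nat.card (annW hQ u x) - Nat.card F) * (Nat.card (annW hQ u x) - β)) := by
  classical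
  have := Fintype.ofFinite F
  have hn5 : 5 ≤ Fintype.card ι := by omega
  obtain ⟨a₀, ha₀, ha₀u⟩ : ∃ a ∈ annW hQ u x, a ∉ Submodule.span F {u} := by
    by_contra h
    push Not at h
    have := Submodule.finrank_mono (show spanA hQ u x ≤ Submodule.span F {u} from Submodule.span_le.2 h)
    rw [finrank_span_singleton hu0] at this
    omega
  obtain ⟨y₀, hy₀, hy₀S⟩ : ∃ y ∈ annW hQ u x, y ∉ Submodule.span F {u} ⊔ Submodule.span F {a₀} := by
    by_contra h
    push Not at h
    have := Submodule.finrank_mono (show spanA hQ u x ≤ Submodule.span F {u} ⊔ Submodule.span F {a₀} from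
      Submodule.span_le.2 h)
    have := finrank_span_pair_le hQ u a₀
    omega
  have hbb := fun {a b : ι → F} => b_eq_zero_of_all_singular hQ hsing (a := a) (b := b)
  let q := Nat.card F
  let C : Finset (ι → F) := Finset.univ.filter (singPerp hQ u)
  -- for each vector of the class many vectors share a translate with it
  have hkey : ∀ z ∈ C, (q - 1) * q ^ (Fintype.card ι - 4) + (q - 1) * q ^ 2 ≤
      (((family hQ u x).filter fun B => z ∈ B).biUnion fun B => (B : Set (ι → F)).toFinset.filter
        fun w => w ∉ Submodule.span F {u} ⊔ Submodule.span F {z}).card := by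
    intro z hz
    obtain ⟨hQz, huz, hzu⟩ := (Finset.mem_filter.1 hz).2
    obtain ⟨g, hgu, hgz⟩ := move_perp hQ hn hu hu0 (b_eq_zero_of_mem_annW hQ hu ha₀) huz ha₀u hzu
      ((hsing a₀ ha₀).trans hQz.symm)
    have hgu' := hgu u (Submodule.mem_span_singleton_self u)
    set B₁ := annW hQ u (g • x) with hB₁
    have hB₁f : B₁ ∈ family hQ u x := (mem_family hQ).2 ⟨g, ⟨1, one_ne_zero, by rw [hgu', one_smul]⟩, rfl⟩
    have hzB₁ : z ∈ B₁ := by rw [hB₁, annW_omMap hQ g hgu']; exact ⟨a₀, ha₀, hgz⟩
    set y₁ := ((g : GL ι F) : Matrix ι ι F) *ᵥ y₀ with hy₁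
    have hy₁B : y₁ ∈ B₁ := by rw [hB₁, annW_omMap hQ g hgu']; exact ⟨y₀, hy₀, rfl⟩
    have hgI := omegaGL_le g.2
    have hQy₁ : Q y₁ = 0 := by rw [hy₁, mem_isometryGroup.1 hgI, hsing y₀ hy₀]
    have huy₁ : bform hQ u y₁ = 0 := by
      rw [hy₁, ← hgu', isometry_b hQ hgI]; exact b_eq_zero_of_mem_annW hQ hu hy₀
    have hzy₁ : bform hQ z y₁ = 0 := by rw [← hgz, hy₁, isometry_b hQ hgI]; exact hbb ha₀ hy₀
    set S := Submodule.span F {u} ⊔ Submodule.span F {z} with hS
    have hy₁S : y₁ ∉ S := by
      intro h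
      obtain ⟨_, hb₁, _, hb₂, e⟩ := Submodule.mem_sup.1 h
      obtain ⟨r, rfl⟩ := Submodule.mem_span_singleton.1 hb₁
      obtain ⟨t, rfl⟩ := Submodule.mem_span_singleton.1 hb₂
      refine hy₀S ?_
      have : y₀ = r • u + t • a₀ := by
        have h' := congrArg (((g : GL ι F)⁻¹ : GL ι F) : Matrix ι ι F).mulVec e
        rw [hy₁] at h'
        conv at h' => rhs; rw [inv_mulVec_cancel]
        rw [← h', Matrix.mulVec_add, Matrix.mulVec_smul, Matrix.mulVec_smul]
        conv_lhs => rw [← hgu', ← hgz]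
        rw [inv_mulVec_cancel, inv_mulVec_cancel]
      rw [this]
      exact Submodule.add_mem _ (Submodule.mem_sup_left (Submodule.smul_mem _ _ (Submodule.mem_span_singleton_self _)))
        (Submodule.mem_sup_right (Submodule.smul_mem _ _ (Submodule.mem_span_singleton_self _)))
    -- the hyperbolic frame
    have huu := b_self_eq_zero hQ hu
    have hzz := b_self_eq_zero hQ hQz
    have hzu' : bform hQ z u = 0 := by rw [b_symm hQ]; exact huz
    obtain ⟨v, hv, huv, hzv⟩ : ∃ v, Q v = 0 ∧ bform hQ u v = 1 ∧ bform hQ z v = 0 := by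
      obtain ⟨v, -, hvz, huv⟩ := exists_b_one_mem hQ (S := ⊤) (T := Submodule.span F {z}) (v := u) (by
        intro h
        obtain ⟨_, hb, w, hw, e⟩ := Submodule.mem_sup.1 h
        obtain ⟨r, rfl⟩ := Submodule.mem_span_singleton.1 hb
        have hw0 : w = 0 := (b_nondeg hQ).1 w fun t => by
          rw [b_symm hQ]; exact hw t Submodule.mem_top
        rw [hw0, add_zero] at e
        by_cases hr : r = 0
        · exact hu0 (by rw [← e, hr, zero_smul])
        · exact hzu (Submodule.mem_span_singleton.2 ⟨r⁻¹, by rw [← e, inv_smul_smul₀ hr]⟩))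
      rw [mem_perp_span_singleton hQ] at hvz
      refine ⟨v - Q v • u, ?_, ?_, ?_⟩
      · rw [q_sub hQ, q_smul hQ, hu, map_smul, smul_eq_mul, b_symm hQ v u, huv]; ring
      · rw [map_sub, map_smul, huu, huv, smul_zero, sub_zero]
      · rw [map_sub, map_smul, hvz, hzu', smul_zero, sub_zero]
    have hvu : bform hQ v u = 1 := by rw [b_symm hQ]; exact huv
    have hvz : bform hQ v z = 0 := by rw [b_symm hQ]; exact hzv
    have hvv := b_self_eq_zero hQ hv
    obtain ⟨z', hz'Q, hzz', huz', hvz'⟩ : ∃ z', Q z' = 0 ∧ bform hQ z z' = 1 ∧ bform hQ u z' = 0 ∧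
        bform hQ v z' = 0 := by
      obtain ⟨p, hp, -, hzp⟩ := exists_b_one_mem hQ
        (S := perp hQ (Submodule.span F {u} ⊔ Submodule.span F {v})) (T := (⊥ : Submodule F (ι → F))) (v := z) (by
          rw [bot_sup_eq, perp_perp hQ]
          intro h
          obtain ⟨_, hb₁, _, hb₂, e⟩ := Submodule.mem_sup.1 h
          obtain ⟨r, rfl⟩ := Submodule.mem_span_singleton.1 hb₁
          obtain ⟨t, rfl⟩ := Submodule.mem_span_singleton.1 hb₂
          have h' := congrArg (bform hQ u) e
          rw [map_add, map_smul, map_smul, huu, huv, huz, smul_zero, zero_add, smul_eq_mul, mul_one] at h'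
          exact hzu (Submodule.mem_span_singleton.2 ⟨r, by rw [← e, h', zero_smul, add_zero]⟩))
      obtain ⟨hup, hvp⟩ := (mem_perp_pair hQ).1 hp
      refine ⟨p - Q p • z, ?_, ?_, ?_, ?_⟩
      · rw [q_sub hQ, q_smul hQ, hQz, map_smul, smul_eq_mul, b_symm hQ p z, hzp]; ring
      · rw [map_sub, map_smul, hzz, hzp, smul_zero, sub_zero]
      · rw [map_sub, map_smul, hup, huz, smul_zero, sub_zero]
      · rw [map_sub, map_smul, hvp, hvz, smul_zero, sub_zero]
    have hz'z : bform hQ z' z = 1 := by rw [b_symm hQ]; exact hzz'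
    have hz'u : bform hQ z' u = 0 := by rw [b_symm hQ]; exact huz'
    have hz'v : bform hQ z' v = 0 := by rw [b_symm hQ]; exact hvz'
    have hz'z' := b_self_eq_zero hQ hz'Q
    set P := Submodule.span F {u} ⊔ Submodule.span F {v} ⊔ (Submodule.span F {z} ⊔ Submodule.span F {z'}) with hP
    have hmemP : ∀ w, w ∈ perp hQ P ↔
        (bform hQ u w = 0 ∧ bform hQ v w = 0) ∧ bform hQ z w = 0 ∧ bform hQ z' w = 0 := fun w => by
      rw [hP, perp_sup hQ, Submodule.mem_inf, mem_perp_pair hQ, mem_perp_pair hQ]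
    set f := y₁ - bform hQ v y₁ • u - bform hQ z' y₁ • z with hf
    have hfP : f ∈ perp hQ P := (hmemP f).2 ⟨⟨by
        simp only [hf, map_sub, map_smul, huy₁, huu, huz, smul_zero, sub_zero], by
        simp only [hf, map_sub, map_smul, hvu, hvz, smul_eq_mul, mul_one, mul_zero, sub_self, sub_zero]⟩, by
        simp only [hf, map_sub, map_smul, hzy₁, hzu', hzz, smul_zero, sub_zero], by
        simp only [hf, map_sub, map_smul, hz'u, hz'z, smul_eq_mul, mul_one, mul_zero, sub_zero, sub_self]⟩
    have hfQ : Q f = 0 := by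
      simp only [hf, q_sub hQ, q_smul hQ, hQy₁, hu, hQz, map_sub, map_smul, LinearMap.sub_apply,
        LinearMap.smul_apply, b_symm hQ y₁ u, b_symm hQ y₁ z, huy₁, hzy₁, huz, smul_eq_mul]
      ring
    have hf0 : f ≠ 0 := fun h => hy₁S (by
      have : y₁ = bform hQ v y₁ • u + bform hQ z' y₁ • z := by
        rw [← sub_eq_zero, ← h, hf]; abel
      rw [this]
      exact Submodule.add_mem _ (Submodule.mem_sup_left (Submodule.smul_mem _ _ (Submodule.mem_span_singleton_self _)))
        (Submodule.mem_sup_right (Submodule.smul_mem _ _ (Submodule.mem_span_singleton_self _))))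
    obtain ⟨e, heP, heQ, hef⟩ : ∃ e ∈ perp hQ P, Q e = 0 ∧ bform hQ e f = 1 := by
      obtain ⟨p, hp, -, hfp⟩ := exists_b_one_mem hQ (S := perp hQ P) (T := (⊥ : Submodule F (ι → F))) (v := f) (by
        rw [bot_sup_eq, perp_perp hQ]
        intro h
        obtain ⟨_, h₁, _, h₂, e1⟩ := Submodule.mem_sup.1 h
        obtain ⟨_, hb₁, _, hb₂, rfl⟩ := Submodule.mem_sup.1 h₁
        obtain ⟨_, hb₃, _, hb₄, rfl⟩ := Submodule.mem_sup.1 h₂
        obtain ⟨r₁, rfl⟩ := Submodule.mem_span_singleton.1 hb₁
        obtain ⟨r₂, rfl⟩ := Submodule.mem_span_singleton.1 hb₂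
        obtain ⟨r₃, rfl⟩ := Submodule.mem_span_singleton.1 hb₃
        obtain ⟨r₄, rfl⟩ := Submodule.mem_span_singleton.1 hb₄
        obtain ⟨⟨f1, f2⟩, f3, f4⟩ := (hmemP f).1 hfP
        rw [← e1] at f1 f2 f3 f4
        simp [map_add, map_smul, huu, huv, huz, huz', hvu, hvv, hvz, hvz', hzu', hzv, hzz, hzz', hz'u, hz'v,
          hz'z, hz'z', -bform_apply] at f1 f2 f3 f4
        exact hf0 (by rw [← e1, f1, f2, f3, f4]; simp))
      refine ⟨p - Q p • f, Submodule.sub_mem _ hp (Submodule.smul_mem _ _ hfP), ?_, ?_⟩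
      · rw [q_sub hQ, q_smul hQ, hfQ, map_smul, smul_eq_mul, b_symm hQ p f, hfp]; ring
      · rw [b_symm hQ, map_sub (bform hQ f) p, map_smul (bform hQ f) (Q p) f, hfp, b_self_eq_zero hQ hfQ,
          smul_zero, sub_zero]
    have heS : e ∈ perp hQ S := (mem_perp_pair hQ).2 ⟨((hmemP e).1 heP).1.1, ((hmemP e).1 heP).2.1⟩
    have hfS : f ∈ perp hQ S := (mem_perp_pair hQ).2 ⟨((hmemP f).1 hfP).1.1, ((hmemP f).1 hfP).2.1⟩
    have hmove : ∀ w, Q w = 0 → w ∈ perp hQ S → bform hQ e w ≠ 0 ∨ bform hQ f w ≠ 0 → Move Q S f w :=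
      fun w hw hwS hne => move_singular_pair hQ hn hu hv huv hQz hz'Q hzz' huz huz' hvz hvz' heQ hfQ hef heP hfP
        hw hwS hne
    have hey₁ : bform hQ e y₁ = 1 := by
      rw [← hef, hf, map_sub, map_sub, map_smul, map_smul, b_symm hQ e u, b_symm hQ e z,
        ((hmemP e).1 heP).1.1, ((hmemP e).1 heP).2.1, smul_zero, smul_zero, sub_zero, sub_zero]
    have hcov : ∀ w, Q w = 0 → w ∈ perp hQ S → bform hQ e w ≠ 0 ∨ bform hQ f w ≠ 0 →
        ∃ B ∈ family hQ u x, z ∈ B ∧ w ∈ B ∧ w ∉ S := by
      intro w hw hwS hne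
      obtain ⟨c, k, hc, hkS, hky⟩ := (hmove y₁ hQy₁ ((mem_perp_pair hQ).2 ⟨huy₁, hzy₁⟩)
        (Or.inl (by rw [hey₁]; exact one_ne_zero))).symm.trans (hmove w hw hwS hne)
      have hku : ((k : GL ι F) : Matrix ι ι F) *ᵥ u = c • u := by
        have := hkS u (Submodule.mem_sup_left (Submodule.mem_span_singleton_self u))
        conv_rhs => rw [← this, smul_inv_smul₀ hc]
      refine ⟨_, family_map hQ hu hB₁f hc k hku,
        ⟨z, hzB₁, hkS z (Submodule.mem_sup_right (Submodule.mem_span_singleton_self z))⟩,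
        ⟨y₁, hy₁B, hky⟩, fun h => ?_⟩
      rcases hne with h' | h' <;> refine h' ?_ <;> rw [b_symm hQ]
      · exact heS w h
      · exact hfS w h
    -- the two sets of vectors
    let Z : F → Finset (ι → F) := fun t => Finset.univ.filter fun w =>
      w - t • f ∈ perp hQ S ∧ bform hQ e w = bform hQ e (t • f) ∧ Q w = 0
    have het : ∀ t : F, bform hQ e (t • f) = t := fun t => by rw [map_smul, hef, smul_eq_mul, mul_one]
    set O₁ := (Finset.univ.erase (0 : F)).biUnion Z with hO₁
    set O₂ := ((Finset.univ.erase (0 : F)) ×ˢ (Finset.univ.filter fun p : ι → F => p ∈ S)).image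
      (fun p => p.1 • e + p.2) with hO₂
    have hee := b_self_eq_zero hQ heQ
    have hfe : bform hQ f e = 1 := by rw [b_symm hQ]; exact hef
    have hS0 : ∀ p ∈ S, bform hQ e p = 0 ∧ bform hQ f p = 0 := fun p hp =>
      ⟨by rw [b_symm hQ]; exact heS p hp, by rw [b_symm hQ]; exact hfS p hp⟩
    have hc₁ : (q - 1) * q ^ (Fintype.card ι - 4) ≤ O₁.card := by
      rw [hO₁, Finset.card_biUnion]
      · refine le_trans (le_of_eq ?_) (Finset.card_nsmul_le_sum _ _ (q ^ (Fintype.card ι - 4)) fun t ht => ?_)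
        · rw [Finset.card_erase_of_mem (Finset.mem_univ _), Finset.card_univ, smul_eq_mul,
            ← Nat.card_eq_fintype_card (α := F)]
        · have h := card_slice hQ heQ heS (t • f) (by rw [het]; exact (Finset.mem_erase.1 ht).1) 0
          rw [Nat.card_eq_fintype_card, Fintype.card_subtype] at h
          refine Nat.le_of_mul_le_mul_right (c := Nat.card F) ?_ Nat.card_pos
          refine le_trans ?_ (le_of_eq h.symm)
          show q ^ _ * q ≤ q ^ _
          rw [← pow_succ]
          refine Nat.pow_le_pow_right Nat.card_pos ?_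
          have h1 := finrank_perp_add hQ (S ⊔ Submodule.span F {e})
          have h2 := Submodule.finrank_add_le_finrank_add_finrank S (Submodule.span F {e})
          have h3' := finrank_span_le_one hQ e
          have h4 := finrank_span_pair_le hQ u z
          rw [← hS] at h4
          omega
      · intro t _ t' _ hne
        refine Finset.disjoint_left.2 fun w hw hw' => hne ?_
        rw [← het t, ← het t', ← (Finset.mem_filter.1 hw).2.2.1, ← (Finset.mem_filter.1 hw').2.2.1]
    have hc₂ : (q - 1) * q ^ 2 ≤ O₂.card := by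
      rw [hO₂, Finset.card_image_of_injOn, Finset.card_product, Finset.card_erase_of_mem (Finset.mem_univ _),
        Finset.card_univ, ← Nat.card_eq_fintype_card (α := F), ← Fintype.card_subtype,
        ← Nat.card_eq_fintype_card (α := S), Module.natCard_eq_pow_finrank (K := F) (V := S)]
      · refine Nat.mul_le_mul_left _ (Nat.pow_le_pow_right Nat.card_pos ?_)
        have hlt : Submodule.span F {u} < S := lt_of_le_not_ge le_sup_left fun h =>
          hzu (h (Submodule.mem_sup_right (Submodule.mem_span_singleton_self z)))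
        have := Submodule.finrank_lt_finrank_of_lt hlt
        rw [finrank_span_singleton hu0] at this
        omega
      · rintro ⟨c, p⟩ hp ⟨c', p'⟩ hp' h
        rw [Finset.coe_product, Set.mem_prod, Finset.mem_coe, Finset.mem_coe, Finset.mem_filter] at hp hp'
        simp only at h
        have h' := congrArg (bform hQ f) h
        rw [map_add, map_smul, hfe, (hS0 p hp.2.2).2, map_add, map_smul, hfe, (hS0 p' hp'.2.2).2, add_zero,
          add_zero, smul_eq_mul, smul_eq_mul, mul_one, mul_one] at h'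
        subst h'
        rw [add_right_inj] at h
        rw [h]
    have hdis : Disjoint O₁ O₂ := by
      refine Finset.disjoint_left.2 fun w hw₁ hw₂ => ?_
      obtain ⟨t, ht, hw₁⟩ := Finset.mem_biUnion.1 hw₁
      obtain ⟨⟨c, p⟩, hp, rfl⟩ := Finset.mem_image.1 hw₂
      rw [Finset.mem_product, Finset.mem_filter] at hp
      have := (Finset.mem_filter.1 hw₁).2.2.1
      rw [het, map_add, map_smul, hee, (hS0 p hp.2.2).1, smul_zero, zero_add] at this
      exact (Finset.mem_erase.1 ht).1 this.symm
    refine (Nat.add_le_add hc₁ hc₂).trans ?_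
    rw [← Finset.card_union_of_disjoint hdis]
    refine Finset.card_le_card fun w hw => ?_
    have hcase : Q w = 0 ∧ w ∈ perp hQ S ∧ (bform hQ e w ≠ 0 ∨ bform hQ f w ≠ 0) := by
      rcases Finset.mem_union.1 hw with hw | hw
      · obtain ⟨t, ht, hw⟩ := Finset.mem_biUnion.1 hw
        obtain ⟨h1, h2, h3'⟩ := (Finset.mem_filter.1 hw).2
        refine ⟨h3', ?_, Or.inl (by rw [h2, het]; exact (Finset.mem_erase.1 ht).1)⟩
        simpa using Submodule.add_mem _ h1 (Submodule.smul_mem _ t hfS)
      · obtain ⟨⟨c, p⟩, hp, rfl⟩ := Finset.mem_image.1 hw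
        rw [Finset.mem_product, Finset.mem_filter] at hp
        dsimp only at hp ⊢
        have hpp : p ∈ perp hQ S := by
          obtain ⟨_, hb₁, _, hb₂, e1⟩ := Submodule.mem_sup.1 hp.2.2
          obtain ⟨r, rfl⟩ := Submodule.mem_span_singleton.1 hb₁
          obtain ⟨t, rfl⟩ := Submodule.mem_span_singleton.1 hb₂
          rw [← e1]
          exact (mem_perp_pair hQ).2 ⟨by rw [map_add, map_smul, map_smul, huu, huz, smul_zero, smul_zero, add_zero],
            by rw [map_add, map_smul, map_smul, hzu', hzz, smul_zero, smul_zero, add_zero]⟩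
        refine ⟨?_, Submodule.add_mem _ (Submodule.smul_mem _ _ heS) hpp, Or.inr ?_⟩
        · obtain ⟨_, hb₁, _, hb₂, e1⟩ := Submodule.mem_sup.1 hp.2.2
          obtain ⟨r, rfl⟩ := Submodule.mem_span_singleton.1 hb₁
          obtain ⟨t, rfl⟩ := Submodule.mem_span_singleton.1 hb₂
          rw [q_add hQ, q_smul hQ, heQ, map_smul, LinearMap.smul_apply, (hS0 p hp.2.2).1, ← e1, q_add hQ,
            q_smul hQ, q_smul hQ, hu, hQz, map_smul, map_smul, LinearMap.smul_apply, huz]
          simp
        · rw [map_add, map_smul, hfe, (hS0 p hp.2.2).2, add_zero, smul_eq_mul, mul_one]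
          exact (Finset.mem_erase.1 hp.1).1
    obtain ⟨B, hB, hzB, hwB, hwS⟩ := hcov w hcase.1 hcase.2.1 hcase.2.2
    exact Finset.mem_biUnion.2 ⟨B, Finset.mem_filter.2 ⟨hB, hzB⟩,
      Finset.mem_filter.2 ⟨Set.mem_toFinset.2 hwB, hwS⟩⟩
  -- summing up
  have hCcard : C.card = Nat.card {z // singPerp hQ u z} := by
    rw [Nat.card_eq_fintype_card, Fintype.card_subtype]
  rw [← hCcard, ← smul_eq_mul C.card]
  refine (Finset.card_nsmul_le_sum _ _ _ hkey).trans ?_
  set α := Nat.card (annW hQ u x) with hα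
  calc ∑ z ∈ C, (((family hQ u x).filter fun B => z ∈ B).biUnion fun B => (B : Set (ι → F)).toFinset.filter
        fun w => w ∉ Submodule.span F {u} ⊔ Submodule.span F {z}).card
      ≤ ∑ z ∈ C, ∑ B ∈ (family hQ u x).filter (fun B => z ∈ B), (α - β) := by
        refine Finset.sum_le_sum fun z hz => Finset.card_biUnion_le.trans (Finset.sum_le_sum fun B hB => ?_)
        obtain ⟨hBf, hzB⟩ := Finset.mem_filter.1 hB
        have hb := hβ B hBf z hzB (Finset.mem_filter.1 hz).2
        have hcb := card_of_mem_family hQ hu hBf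
        rw [show ((B : Set (ι → F)).toFinset.filter fun w => w ∉ Submodule.span F {u} ⊔ Submodule.span F {z}) =
            (B : Set (ι → F)).toFinset \ ((B ⊓ (Submodule.span F {u} ⊔ Submodule.span F {z}).toAddSubgroup :
              AddSubgroup (ι → F)) : Set (ι → F)).toFinset from by
              ext w
              simp [Finset.mem_filter],
          Finset.card_sdiff_of_subset (fun w hw => by rw [Set.mem_toFinset] at hw ⊢; exact hw.1),
          Set.toFinset_card, Set.toFinset_card, ← Nat.card_eq_fintype_card, ← Nat.card_eq_fintype_card, hα, ← hcb]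
        exact Nat.sub_le_sub_left hb _
    _ = ∑ B ∈ family hQ u x, (C.filter fun z => z ∈ B).card * (α - β) := by
        simp only [Finset.sum_const, smul_eq_mul, ← Finset.sum_mul]
        congr 1
        exact Finset.sum_card_bipartiteAbove_eq_sum_card_bipartiteBelow
          (fun z (B : AddSubgroup (ι → F)) => z ∈ B)
    _ ≤ _ := by
        refine (Finset.sum_le_card_nsmul _ _ _ fun B hB => ?_).trans (le_of_eq (smul_eq_mul _ _))
        refine Nat.mul_le_mul_right _ ?_
        refine (Finset.card_le_card (t := (B : Set (ι → F)).toFinset \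
          ((Submodule.span F ({u} : Set (ι → F))).toAddSubgroup : Set (ι → F)).toFinset) fun z hz => ?_).trans ?_
        · obtain ⟨hzC, hzB⟩ := Finset.mem_filter.1 hz
          rw [Finset.mem_sdiff, Set.mem_toFinset, Set.mem_toFinset]
          exact ⟨hzB, (Finset.mem_filter.1 hzC).2.2.2⟩
        · obtain ⟨g, -, hg⟩ := (mem_family hQ).1 hB
          rw [Finset.card_sdiff_of_subset (fun w hw => by
              rw [Set.mem_toFinset] at hw ⊢; rw [← hg]; exact span_self_le_annW hQ u (g • x) hw),
            Set.toFinset_card, Set.toFinset_card, ← Nat.card_eq_fintype_card, ← Nat.card_eq_fintype_card,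
            hα, ← card_of_mem_family hQ hu hB]
          refine Nat.sub_le_sub_left (le_of_eq ?_) _
          show Nat.card F = Nat.card (Submodule.span F ({u} : Set (ι → F))).toAddSubgroup
          rw [natCard_submodule, finrank_span_singleton hu0, pow_one]

/-- A translate of an annihilator closed under scalars contains the lines of its members. -/
lemma sq_le_card_inf {u : ι → F} (hu : Q u = 0) (hu0 : u ≠ 0) {x : X}
    (hclosed : annW hQ u x = (spanA hQ u x).toAddSubgroup) :
    ∀ B ∈ family hQ u x, ∀ z ∈ B, singPerp hQ u z → Nat.card F ^ 2 ≤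
      Nat.card (B ⊓ (Submodule.span F {u} ⊔ Submodule.span F {z}).toAddSubgroup : AddSubgroup (ι → F)) := by
  intro B hB z hz hzC
  obtain ⟨g, ⟨c, hc, hg⟩, rfl⟩ := (mem_family hQ).1 hB
  rw [annW_smul hQ hu hc g hg, hclosed] at hz ⊢
  obtain ⟨z₀, hz₀, rfl⟩ := hz
  set T := (spanA hQ u x).map (scaleMove (Q := Q) c⁻¹ g) with hT
  have hTle : Submodule.span F {u} ⊔ Submodule.span F {scaleMove (Q := Q) c⁻¹ g z₀} ≤ T := by
    refine sup_le ((Submodule.span_singleton_le_iff_mem _ _).2 ⟨u, self_mem_spanA hQ u x, ?_⟩)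
      ((Submodule.span_singleton_le_iff_mem _ _).2 ⟨z₀, hz₀, rfl⟩)
    show c⁻¹ • (((g : GL ι F) : Matrix ι ι F) *ᵥ u) = u
    rw [hg, inv_smul_smul₀ hc]
  refine le_trans ?_ (AddSubgroup.card_le_of_le
    (H := (Submodule.span F {u} ⊔ Submodule.span F {scaleMove (Q := Q) c⁻¹ g z₀}).toAddSubgroup)
    (le_inf (fun w hw => hTle hw) le_rfl))
  rw [natCard_submodule]
  refine Nat.pow_le_pow_right Nat.card_pos ?_
  have hlt : Submodule.span F {u} < Submodule.span F {u} ⊔ Submodule.span F {scaleMove (Q := Q) c⁻¹ g z₀} :=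
    lt_of_le_not_ge le_sup_left fun h =>
      hzC.2.2 (h (Submodule.mem_sup_right (Submodule.mem_span_singleton_self _)))
  have := Submodule.finrank_lt_finrank_of_lt hlt
  rw [finrank_span_singleton hu0] at this
  omega

/-- The annihilator spans at most a plane unless it is a totally singular subspace of largest dimension. -/
theorem classify_singular (hn : 7 ≤ Fintype.card ι) {v w N : ℕ} (hXv : Nat.card X < v)
    (hw : ∀ W : Submodule F (ι → F), IsTotallySingularQuad Q W → finrank F W ≤ w)
    {u : ι → F} (hu : Q u = 0) (hu0 : u ≠ 0) {x : X}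
    (hN : N ≤ Nat.card {z // singPerp hQ u z})
    (hnum : Nat.card F * v * Nat.card F ^ w ≤ 2 * (N *
      ((Nat.card F - 1) * Nat.card F ^ (Fintype.card ι - 4) + (Nat.card F - 1) * Nat.card F ^ 2)))
    (hsing : ∀ a ∈ annW hQ u x, Q a = 0) :
    finrank F (spanA hQ u x) ≤ 2 ∨
      (Nat.card (annW hQ u x) = Nat.card F ^ w ∧ annW hQ u x = (spanA hQ u x).toAddSubgroup ∧
        IsTotallySingularQuad Q (spanA hQ u x) ∧ 3 ≤ finrank F (spanA hQ u x)) := by
  set q := Nat.card F with hq
  have hq2 : 2 ≤ q := two_le_natCard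
  by_cases h3 : finrank F (spanA hQ u x) ≤ 2
  · exact Or.inl h3
  push Not at h3
  have hts := spanA_totallySingular hQ hsing
  have hk := hw _ hts
  have hle : annW hQ u x ≤ (spanA hQ u x).toAddSubgroup := fun z hz => Submodule.subset_span hz
  set α := Nat.card (annW hQ u x) with hα
  have hspan : Nat.card (spanA hQ u x).toAddSubgroup = q ^ finrank F (spanA hQ u x) := natCard_submodule _
  have hαle : α ≤ q ^ finrank F (spanA hQ u x) := hspan ▸ AddSubgroup.card_le_of_le hle
  refine Or.inr ?_
  by_contra hnot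
  -- then the annihilator has at most half the largest size
  have hhalf : 2 * α ≤ q ^ w := by
    rcases lt_or_eq_of_le hk with h | h
    · calc 2 * α ≤ q * q ^ finrank F (spanA hQ u x) := Nat.mul_le_mul hq2 hαle
        _ = q ^ (finrank F (spanA hQ u x) + 1) := by ring
        _ ≤ q ^ w := Nat.pow_le_pow_right (by omega) h
    · have hne : annW hQ u x ≠ (spanA hQ u x).toAddSubgroup := fun e =>
        hnot ⟨by rw [hα, e, hspan, h], e, hts, h3⟩
      have hd : α ∣ q ^ w := by
        rw [← h, ← hspan]; exact AddSubgroup.card_dvd_of_le hle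
      obtain ⟨t, ht⟩ := hd
      have ht0 : t ≠ 0 := by
        rintro rfl
        rw [mul_zero] at ht
        exact absurd ht (pow_ne_zero _ (by omega))
      have ht1 : t ≠ 1 := by
        rintro rfl
        rw [mul_one] at ht
        exact hne (AddSubgroup.eq_of_le_of_card_ge hle (le_of_eq (by rw [hspan, h, ht, hα])))
      rw [ht, mul_comm]
      exact Nat.mul_le_mul_left _ (by omega)
  have h1 := pair_count hQ hn hu hu0 hsing h3 0 (fun _ _ _ _ _ => Nat.zero_le _)
  rw [Nat.sub_zero, ← hα, ← hq] at h1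
  have hL := card_family_mul_le hQ (x := x) (by omega) hu hu0
  rw [← hα, ← hq] at hL
  set O := (q - 1) * q ^ (Fintype.card ι - 4) + (q - 1) * q ^ 2 with hO
  have h2 : N * O ≤ q * Nat.card X * α := by
    refine (Nat.mul_le_mul_right O hN).trans (h1.trans ?_)
    calc (family hQ u x).card * ((α - q) * α) ≤ (family hQ u x).card * (α * α) :=
          Nat.mul_le_mul_left _ (Nat.mul_le_mul_right _ (Nat.sub_le _ _))
      _ = (family hQ u x).card * α * α := by ring
      _ ≤ _ := Nat.mul_le_mul_right _ hL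
  have hα0 : 0 < α := Nat.card_pos
  have h4 : q * Nat.card X * (2 * α) < q * v * (2 * α) :=
    (Nat.mul_lt_mul_right (by omega)).2 ((Nat.mul_lt_mul_left (by omega)).2 hXv)
  have h5 : q * v * (2 * α) ≤ 2 * (N * O) := (Nat.mul_le_mul_left _ hhalf).trans hnum
  nlinarith

/-- The largest case is impossible when the numbers allow. -/
theorem not_max (hn : 7 ≤ Fintype.card ι) {v w N : ℕ} (hXv : Nat.card X < v)
    {u : ι → F} (hu : Q u = 0) (hu0 : u ≠ 0) {x : X}
    (hN : N ≤ Nat.card {z // singPerp hQ u z})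
    (hnum : Nat.card F * v * ((Nat.card F ^ w - Nat.card F) * (Nat.card F ^ w - Nat.card F ^ 2)) ≤
      Nat.card F ^ w * (N *
        ((Nat.card F - 1) * Nat.card F ^ (Fintype.card ι - 4) + (Nat.card F - 1) * Nat.card F ^ 2)))
    (hN0 : 0 < N) (hcard : Nat.card (annW hQ u x) = Nat.card F ^ w)
    (hclosed : annW hQ u x = (spanA hQ u x).toAddSubgroup)
    (hts : IsTotallySingularQuad Q (spanA hQ u x)) (h3 : 3 ≤ finrank F (spanA hQ u x)) : False := by
  have h1 := pair_count hQ hn hu hu0 (fun a ha => hts a (Submodule.subset_span ha)) h3 _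
    (sq_le_card_inf hQ hu hu0 hclosed)
  have hL := card_family_mul_le hQ (x := x) (by omega) hu hu0
  rw [hcard] at h1 hL
  set q := Nat.card F
  have hq2 : 2 ≤ q := two_le_natCard
  set M := q ^ w
  set D := (M - q) * (M - q ^ 2) with hD
  set O := (q - 1) * q ^ (Fintype.card ι - 4) + (q - 1) * q ^ 2 with hO
  have hO0 : 0 < O := Nat.lt_of_lt_of_le (Nat.mul_pos (by omega) (Nat.pow_pos (by omega))) (Nat.le_add_right _ _)
  have h2 : N * O ≤ (family hQ u x).card * D := (Nat.mul_le_mul_right O hN).trans h1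
  have hD0 : 0 < D := by
    by_contra h
    rw [Nat.eq_zero_of_not_pos h, mul_zero] at h2
    have := Nat.mul_pos hN0 hO0
    omega
  have h4 : q * Nat.card X * D < q * v * D :=
    (Nat.mul_lt_mul_right hD0).2 ((Nat.mul_lt_mul_left (by omega)).2 hXv)
  have h5 : M * (N * O) ≤ (family hQ u x).card * M * D := by
    calc M * (N * O) ≤ M * ((family hQ u x).card * D) := Nat.mul_le_mul_left _ h2
      _ = _ := by ring
  have h6 := Nat.mul_le_mul_right D hL
  omega

end CfsgLib.MinIndexOrth
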