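import Cfsg.Agent.MinIndexOrth.Regular

/-! Elements of Omega fixing a singular line and one further vector: lower bounds for their orbits. -/

set_option autoImplicit false
set_option linter.unusedSectionVars false

namespace CfsgLib.MinIndexOrth

open Cfsg.Geo CfsgLib.OrthGeo Module
open scoped Matrix MatrixGroups

variable {ι : Type} [Fintype ι] [DecidableEq ι] {F : Type*} [Field F] [Finite F]
variable {Q : (ι → F) → F}

/-- Some scalar multiple of an element of Omega fixes `P` pointwise and maps `y` to `y'`. -/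
def Move (Q : (ι → F) → F) (P : Submodule F (ι → F)) (y y' : ι → F) : Prop :=
  ∃ (c : F) (g : omegaGL Q), c ≠ 0 ∧ (∀ z ∈ P, c⁻¹ • (((g : GL ι F) : Matrix ι ι F) *ᵥ z) = z) ∧
    c⁻¹ • (((g : GL ι F) : Matrix ι ι F) *ᵥ y) = y'

lemma Move.refl (P : Submodule F (ι → F)) (y : ι → F) : Move Q P y y :=
  ⟨1, 1, one_ne_zero, fun z _ => by simp, by simp⟩

lemma Move.symm {P : Submodule F (ι → F)} {y y' : ι → F} (h : Move Q P y y') : Move Q P y' y := by
  obtain ⟨c, g, hc, hP, hy⟩ := h
  have key : ∀ z z' : ι → F, c⁻¹ • (((g : GL ι F) : Matrix ι ι F) *ᵥ z) = z' →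
      (c⁻¹)⁻¹ • ((((g⁻¹ : omegaGL Q) : GL ι F) : Matrix ι ι F) *ᵥ z') = z := by
    rintro z z' rfl
    rw [Matrix.mulVec_smul, smul_smul, InvMemClass.coe_inv, inv_mulVec_cancel, inv_inv, mul_inv_cancel₀ hc,
      one_smul]
  exact ⟨c⁻¹, g⁻¹, inv_ne_zero hc, fun z hz => key z z (hP z hz), key y y' hy⟩

lemma Move.trans {P : Submodule F (ι → F)} {y y' y'' : ι → F} (h : Move Q P y y') (h' : Move Q P y' y'') :
    Move Q P y y'' := by
  obtain ⟨c, g, hc, hP, hy⟩ := h
  obtain ⟨d, k, hd, hP', hy'⟩ := h'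
  have key : ∀ z z' z'' : ι → F, c⁻¹ • (((g : GL ι F) : Matrix ι ι F) *ᵥ z) = z' →
      d⁻¹ • (((k : GL ι F) : Matrix ι ι F) *ᵥ z') = z'' →
      (d * c)⁻¹ • ((((k * g : omegaGL Q) : GL ι F) : Matrix ι ι F) *ᵥ z) = z'' := by
    rintro z z' z'' rfl rfl
    rw [Subgroup.coe_mul, Units.val_mul, ← Matrix.mulVec_mulVec, Matrix.mulVec_smul, smul_smul, mul_inv]
  exact ⟨d * c, k * g, mul_ne_zero hd hc, fun z hz => key z z z (hP z hz) (hP' z hz),
    key y y' y'' hy hy'⟩

/-- An element of Omega fixes `P` pointwise and maps `y` to `y'`. -/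
def Shift (Q : (ι → F) → F) (P : Submodule F (ι → F)) (y y' : ι → F) : Prop :=
  ∃ g : omegaGL Q, (∀ z ∈ P, ((g : GL ι F) : Matrix ι ι F) *ᵥ z = z) ∧
    ((g : GL ι F) : Matrix ι ι F) *ᵥ y = y'

lemma Shift.symm {P : Submodule F (ι → F)} {y y' : ι → F} (h : Shift Q P y y') : Shift Q P y' y := by
  obtain ⟨g, hP, hy⟩ := h
  refine ⟨g⁻¹, fun z hz => ?_, ?_⟩
  · conv_lhs => rw [← hP z hz]
    rw [InvMemClass.coe_inv, inv_mulVec_cancel]
  · rw [← hy, InvMemClass.coe_inv, inv_mulVec_cancel]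

lemma Shift.trans {P : Submodule F (ι → F)} {y y' y'' : ι → F} (h : Shift Q P y y') (h' : Shift Q P y' y'') :
    Shift Q P y y'' := by
  obtain ⟨g, hP, hy⟩ := h
  obtain ⟨k, hP', hy'⟩ := h'
  refine ⟨k * g, fun z hz => ?_, ?_⟩
  · rw [Subgroup.coe_mul, Units.val_mul, ← Matrix.mulVec_mulVec, hP z hz, hP' z hz]
  · rw [Subgroup.coe_mul, Units.val_mul, ← Matrix.mulVec_mulVec, hy, hy']

lemma Shift.toMove {P : Submodule F (ι → F)} {y y' : ι → F} (h : Shift Q P y y') : Move Q P y y' := by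
  obtain ⟨g, hP, hy⟩ := h
  exact ⟨1, g, one_ne_zero, fun z hz => by rw [inv_one, one_smul, hP z hz], by rw [inv_one, one_smul, hy]⟩

variable (hQ : IsNondegenerateQuadraticForm Q)
include hQ

/-- The basic move along a root group. -/
lemma move_of_root (hn : 5 ≤ Fintype.card ι) {P : Submodule F (ι → F)} {e y y' : ι → F} (he : Q e = 0)
    (heP : e ∈ perp hQ P) (hd : y - y' ∈ perp hQ P) (hey : bform hQ e y ≠ 0)
    (h1 : bform hQ e y = bform hQ e y') (h2 : Q y = Q y') : Shift Q P y y' := by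
  set β := bform hQ e y with hβ
  have he' : Q (β⁻¹ • e) = 0 := by rw [q_smul hQ, he, mul_zero]
  have hw : bform hQ (β⁻¹ • e) (y - y') = 0 := by
    rw [map_smul, LinearMap.smul_apply, map_sub, ← h1, sub_self, smul_zero]
  refine ⟨⟨eichler hQ he' hw, eichler_mem_omega hQ hn he' hw⟩, fun z hz => ?_, ?_⟩
  · refine eichler_fix hQ he' hw ?_ ?_
    · rw [map_smul, LinearMap.smul_apply, b_symm hQ e z, heP z hz, smul_zero]
    · rw [b_symm hQ]; exact hd z hz
  · rw [eichler_mulVec hQ, show bform hQ (β⁻¹ • e) y = 1 by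
      rw [map_smul, LinearMap.smul_apply, ← hβ, smul_eq_mul, inv_mul_cancel₀ hey], q_sub hQ,
      map_sub, LinearMap.sub_apply, b_self hQ, b_symm hQ y' y, ← h2]
    module

/-- Shifting by a space with a singular vector outside its radical gives every value. -/
lemma exists_value_of_singular {D : Submodule F (ι → F)} {e f : ι → F} (heD : e ∈ D) (hfD : f ∈ D)
    (he : Q e = 0) (hef : bform hQ e f ≠ 0) (y : ι → F) (s : F) : ∃ z ∈ D, Q (y + z) = s := by
  obtain ⟨f', hf', h⟩ : ∃ f' ∈ D, bform hQ e (y + f') ≠ 0 := by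
    by_cases h : bform hQ e y = 0
    · exact ⟨f, hfD, by rwa [map_add, h, zero_add]⟩
    · exact ⟨0, D.zero_mem, by rwa [add_zero]⟩
  refine ⟨f' + ((s - Q (y + f')) / bform hQ e (y + f')) • e, D.add_mem hf' (D.smul_mem _ heD), ?_⟩
  rw [← add_assoc, q_add hQ, q_smul hQ, he, map_smul, smul_eq_mul, b_symm hQ (y + f') e,
    div_mul_cancel₀ _ h]
  ring

/-- Shifting by a space with two orthogonal non-singular vectors gives every value in odd characteristic. -/
lemma exists_value_of_plane (h2 : (2 : F) ≠ 0) {D : Submodule F (ι → F)} {a b : ι → F} (haD : a ∈ D)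
    (hbD : b ∈ D) (ha : Q a ≠ 0) (hb : Q b ≠ 0) (hab : bform hQ a b = 0) (y : ι → F) (s : F) :
    ∃ z ∈ D, Q (y + z) = s := by
  have := Fintype.ofFinite F
  have hodd : Fintype.card F % 2 = 1 := FiniteField.odd_card_of_char_ne_two fun h => h2 (by
    have := ringChar.Nat.cast_ringChar (R := F)
    rw [h] at this
    exact_mod_cast this)
  set z₀ := -(bform hQ a y / (2 * Q a)) • a + -(bform hQ b y / (2 * Q b)) • b with hz₀
  have hz₀D : z₀ ∈ D := D.add_mem (D.smul_mem _ haD) (D.smul_mem _ hbD)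
  have haz : bform hQ a (y + z₀) = 0 := by
    simp only [hz₀, map_add, map_smul, hab, b_self hQ, smul_eq_mul]
    field_simp
    ring
  have hbz : bform hQ b (y + z₀) = 0 := by
    simp only [hz₀, map_add, map_smul, b_symm hQ b a, hab, b_self hQ, smul_eq_mul]
    field_simp
    ring
  obtain ⟨α, β, hαβ⟩ := FiniteField.exists_root_sum_quadratic
    (f := Polynomial.C (Q a) * Polynomial.X ^ 2)
    (g := Polynomial.C (Q b) * Polynomial.X ^ 2 + Polynomial.C (Q (y + z₀) - s))
    (Polynomial.degree_C_mul_X_pow 2 ha)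
    (by
      rw [Polynomial.degree_add_eq_left_of_degree_lt, Polynomial.degree_C_mul_X_pow 2 hb]
      · rfl
      · rw [Polynomial.degree_C_mul_X_pow 2 hb]
        exact lt_of_le_of_lt Polynomial.degree_C_le (by norm_num)) hodd
  simp only [Polynomial.eval_add, Polynomial.eval_mul, Polynomial.eval_C, Polynomial.eval_pow,
    Polynomial.eval_X] at hαβ
  refine ⟨z₀ + (α • a + β • b), D.add_mem hz₀D (D.add_mem (D.smul_mem _ haD) (D.smul_mem _ hbD)), ?_⟩
  rw [← add_assoc]
  generalize y + z₀ = Y at haz hbz hαβ ⊢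
  simp only [q_add hQ, q_smul hQ, map_add, map_smul, LinearMap.smul_apply, b_symm hQ Y a, b_symm hQ Y b, haz,
    hbz, hab, smul_eq_mul]
  linear_combination hαβ

/-- A subspace none of whose vectors lie outside a totally singular one in its own perp. -/
lemma exists_nonsingular_pair (h2 : (2 : F) ≠ 0) {D R : Submodule F (ι → F)} (hR : D ⊓ perp hQ D ≤ R)
    (hdim : finrank F R + 2 ≤ finrank F D) :
    ∃ a ∈ D, ∃ b ∈ D, Q a ≠ 0 ∧ Q b ≠ 0 ∧ bform hQ a b = 0 := by
  have hsub : ∀ T : Submodule F (ι → F), T ≤ D → (∀ z ∈ T, Q z = 0) → ∀ z ∈ T, ∀ z' ∈ T, bform hQ z z' = 0 :=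
    fun T _ hT z hz z' hz' => le_perp_self hQ hT hz' z hz
  obtain ⟨a, haD, ha⟩ : ∃ a ∈ D, Q a ≠ 0 := by
    by_contra h
    push Not at h
    have : D ≤ R := fun z hz => hR ⟨hz, fun w hw => hsub D le_rfl h w hw z hz⟩
    have := Submodule.finrank_mono this
    omega
  set D' := D ⊓ perp hQ (Submodule.span F {a}) with hD'
  obtain ⟨b, hb, hbQ⟩ : ∃ b ∈ D', Q b ≠ 0 := by
    by_contra h
    push Not at h
    have hle : D' ≤ R := by
      intro z hz
      refine hR ⟨hz.1, fun w hw => ?_⟩
      set t := bform hQ a w / (2 * Q a) with ht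
      have hwa : w - t • a ∈ D' := by
        refine ⟨D.sub_mem hw (D.smul_mem _ haD), (mem_perp_span_singleton hQ).2 ?_⟩
        rw [map_sub, map_smul, b_self hQ, smul_eq_mul, ht,
          div_mul_cancel₀ _ (mul_ne_zero h2 ha), sub_self]
      have h' := hsub D' inf_le_left h _ hwa z hz
      rw [map_sub, LinearMap.sub_apply, map_smul, LinearMap.smul_apply,
        (mem_perp_span_singleton hQ).1 hz.2, smul_zero, sub_zero] at h'
      exact h'
    have h1 := finrank_le_inf_perp hQ D (Submodule.span F {a})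
    have h3 : finrank F (Submodule.span F ({a} : Set (ι → F))) ≤ 1 := (finrank_span_le_card _).trans (by simp)
    have h4 := Submodule.finrank_mono hle
    rw [← hD'] at h1
    omega
  exact ⟨a, haD, b, hb.1, ha, hbQ, (mem_perp_span_singleton hQ).1 hb.2⟩

lemma finrank_span_le_one (y : ι → F) : finrank F (Submodule.span F ({y} : Set (ι → F))) ≤ 1 :=
  (finrank_span_le_card _).trans (by simp)

/-- Linking two root groups with non-orthogonal vectors inside the perp of `u`. -/
lemma move_link (hn : 7 ≤ Fintype.card ι) {u e f y y' : ι → F} (hu : Q u = 0) (he : Q e = 0) (hf : Q f = 0)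
    (hue : bform hQ u e = 0) (huf : bform hQ u f = 0) (hef : bform hQ e f ≠ 0)
    (huy : bform hQ u y = 0) (huy' : bform hQ u y' = 0) (hQy : Q y = Q y')
    (hey : bform hQ e y ≠ 0) (hfy : bform hQ f y' ≠ 0) : Shift Q (Submodule.span F {u}) y y' := by
  have huu := b_self_eq_zero hQ hu
  set z₀ := (bform hQ f y' / bform hQ e f) • e + (bform hQ e y / bform hQ e f) • f with hz₀
  have h1 : bform hQ e z₀ = bform hQ e y := by
    simp only [hz₀, map_add, map_smul, b_self_eq_zero hQ he, smul_eq_mul, mul_zero, zero_add]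
    rw [div_mul_cancel₀ _ hef]
  have h2 : bform hQ f z₀ = bform hQ f y' := by
    simp only [hz₀, map_add, map_smul, b_self_eq_zero hQ hf, b_symm hQ f e, smul_eq_mul, mul_zero, add_zero]
    rw [div_mul_cancel₀ _ hef]
  set P := Submodule.span F {u} ⊔ (Submodule.span F {e} ⊔ Submodule.span F {f}) with hP
  obtain ⟨c, hc, hcQ, -, hcu⟩ := exists_singular_avoid hQ (T := perp hQ P) (P := Submodule.span F {u}) (by
    have h := finrank_perp_add hQ P
    have h' := Submodule.finrank_add_le_finrank_add_finrank (Submodule.span F {u})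
      (Submodule.span F {e} ⊔ Submodule.span F {f})
    have := finrank_span_pair_le hQ e f
    have := finrank_span_le_one hQ u
    rw [← hP] at h'
    omega)
  have hmem : ∀ z, z ∈ perp hQ P ↔ bform hQ u z = 0 ∧ bform hQ e z = 0 ∧ bform hQ f z = 0 := fun z => by
    rw [hP, perp_sup hQ, Submodule.mem_inf, mem_perp_pair hQ, mem_perp_span_singleton hQ]
  obtain ⟨hcu', hce, hcf⟩ := (hmem c).1 hc
  obtain ⟨d, hd, hdc⟩ := exists_mem_b_ne_zero hQ (S := perp hQ P) (v := c) (by
    rw [perp_perp hQ]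
    intro h
    obtain ⟨_, ha, _, hb, e1⟩ := Submodule.mem_sup.1 h
    obtain ⟨_, ha', _, hb', e2⟩ := Submodule.mem_sup.1 hb
    obtain ⟨r, rfl⟩ := Submodule.mem_span_singleton.1 ha
    obtain ⟨r', rfl⟩ := Submodule.mem_span_singleton.1 ha'
    obtain ⟨d', rfl⟩ := Submodule.mem_span_singleton.1 hb'
    rw [← e2] at e1
    have k1 := congrArg (bform hQ e) e1
    have k2 := congrArg (bform hQ f) e1
    simp [map_add, map_smul, hce, hcf, b_self_eq_zero hQ he, b_self_eq_zero hQ hf, b_symm hQ e u, hue,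
      b_symm hQ f u, huf, b_symm hQ f e, hef, -bform_apply] at k1 k2
    rw [k1, k2, zero_smul, zero_smul, add_zero, add_zero] at e1
    exact hcu (Submodule.mem_span_singleton.2 ⟨r, e1⟩))
  obtain ⟨z, hz, hzQ⟩ := exists_value_of_singular hQ hc hd hcQ (by rw [b_symm hQ]; exact hdc) z₀ (Q y)
  obtain ⟨hzu, hze, hzf⟩ := (hmem z).1 hz
  have hu0' : bform hQ u (z₀ + z) = 0 := by
    simp only [hz₀, map_add, map_smul, hue, huf, hzu, smul_zero, add_zero]
  have hu_e : e ∈ perp hQ (Submodule.span F {u}) := (mem_perp_span_singleton hQ).2 hue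
  have hu_f : f ∈ perp hQ (Submodule.span F {u}) := (mem_perp_span_singleton hQ).2 huf
  refine (move_of_root hQ (by omega) he hu_e (y' := z₀ + z) ?_ hey ?_ hzQ.symm).trans
    (move_of_root hQ (by omega) hf hu_f (y := z₀ + z) ?_ ?_ ?_ (hzQ.trans hQy))
  · rw [mem_perp_span_singleton hQ, map_sub, huy, hu0', sub_zero]
  · rw [map_add, h1, hze, add_zero]
  · rw [mem_perp_span_singleton hQ, map_sub, huy', hu0', sub_zero]
  · rw [map_add, h2, hzf, add_zero]; exact hfy
  · rw [map_add, h2, hzf, add_zero]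

/-- The stabiliser of a singular vector is transitive on the other vectors of its perp with a given value. -/
theorem move_perp (hn : 7 ≤ Fintype.card ι) {u y y' : ι → F} (hu : Q u = 0) (hu0 : u ≠ 0)
    (huy : bform hQ u y = 0) (huy' : bform hQ u y' = 0) (hy : y ∉ Submodule.span F {u})
    (hy' : y' ∉ Submodule.span F {u}) (hQy : Q y = Q y') : Shift Q (Submodule.span F {u}) y y' := by
  have hS : finrank F (Submodule.span F ({u} : Set (ι → F))) ≤ 2 := (finrank_span_le_one hQ u).trans (by norm_num)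
  obtain ⟨e, he', he, heu, hey⟩ := exists_detect hQ hn hS ((mem_perp_span_singleton hQ).2 huy) hy
  obtain ⟨e', he'', hee, he'u, he'y⟩ := exists_detect hQ hn hS ((mem_perp_span_singleton hQ).2 huy') hy'
  obtain ⟨f, hfP, hf, -, hfe, hfe'⟩ := exists_common_nonperp hQ hn hS he hee he' he'' heu he'u
  rw [mem_perp_span_singleton hQ] at he' he'' hfP
  -- a vector of the value of `y` not perpendicular to `f`
  obtain ⟨z, hzu, hzQ, hzf⟩ : ∃ z, bform hQ u z = 0 ∧ Q z = Q y ∧ bform hQ f z ≠ 0 := by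
    refine ⟨(bform hQ f e)⁻¹ • e + Q y • f, ?_, ?_, ?_⟩
    · rw [map_add, map_smul, map_smul, he', hfP, smul_zero, smul_zero, add_zero]
    · rw [q_add hQ, q_smul hQ, q_smul hQ, he, hf, map_smul, map_smul, LinearMap.smul_apply, b_symm hQ e f,
        smul_eq_mul, smul_eq_mul, inv_mul_cancel₀ hfe]
      ring
    · rw [map_add, map_smul, map_smul, b_self_eq_zero hQ hf, smul_zero, add_zero, smul_eq_mul,
        inv_mul_cancel₀ hfe]
      exact one_ne_zero
  refine (move_link hQ hn hu he hf he' hfP (by rw [b_symm hQ]; exact hfe) huy hzu hzQ.symm hey hzf).trans ?_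
  exact (move_link hQ hn hu hee hf he'' hfP (by rw [b_symm hQ]; exact hfe') huy' hzu
    (hQy.symm.trans hzQ.symm) he'y hzf).symm

/-- The orbit over a non-singular vector contains every vector outside the perp of a hyperbolic plane. -/
theorem move_pair (hn : 7 ≤ Fintype.card ι) (hsmall : (2 : F) ≠ 0 ∨ 8 ≤ Fintype.card ι) {u a e f y y' : ι → F}
    (hu : Q u = 0) (hua : bform hQ u a = 0) (ha : Q a ≠ 0)
    (he : Q e = 0) (hf : Q f = 0) (heS : e ∈ perp hQ (Submodule.span F {u} ⊔ Submodule.span F {a}))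
    (hfS : f ∈ perp hQ (Submodule.span F {u} ⊔ Submodule.span F {a})) (hef : bform hQ e f = 1)
    (hey : bform hQ e y ≠ 0) (hd : y - y' ∈ perp hQ (Submodule.span F {u} ⊔ Submodule.span F {a}))
    (hQy : Q y = Q y') (hne : bform hQ e y' ≠ 0 ∨ bform hQ f y' ≠ 0) :
    Shift Q (Submodule.span F {u} ⊔ Submodule.span F {a}) y y' := by
  set S := Submodule.span F {u} ⊔ Submodule.span F {a} with hS
  set P := S ⊔ (Submodule.span F {e} ⊔ Submodule.span F {f}) with hP
  set D := perp hQ P with hD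
  have hmem : ∀ z, z ∈ D ↔ z ∈ perp hQ S ∧ bform hQ e z = 0 ∧ bform hQ f z = 0 := fun z => by
    rw [hD, hP, perp_sup hQ, Submodule.mem_inf, mem_perp_pair hQ (u := e) (v := f)]
  have hee := b_self_eq_zero hQ he
  have hff := b_self_eq_zero hQ hf
  have hfe : bform hQ f e = 1 := by rw [b_symm hQ]; exact hef
  -- the radical of `D` is in the span of `u` and `a`
  have hrad : D ⊓ perp hQ D ≤ perp hQ S ⊓ S := by
    rintro z ⟨hz, hz'⟩
    refine ⟨((hmem z).1 hz).1, ?_⟩
    rw [hD, perp_perp hQ] at hz'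
    obtain ⟨s, hs, _, hb, rfl⟩ := Submodule.mem_sup.1 hz'
    obtain ⟨_, ha', _, hb', rfl⟩ := Submodule.mem_sup.1 hb
    obtain ⟨r, rfl⟩ := Submodule.mem_span_singleton.1 ha'
    obtain ⟨t, rfl⟩ := Submodule.mem_span_singleton.1 hb'
    obtain ⟨-, h1, h2⟩ := (hmem _).1 hz
    rw [map_add, map_add, map_smul, map_smul, b_symm hQ e s, heS s hs] at h1
    rw [map_add, map_add, map_smul, map_smul, b_symm hQ f s, hfS s hs] at h2
    simp [hee, hef, hff, hfe, -bform_apply] at h1 h2
    rw [h1, h2, zero_smul, zero_smul, add_zero, add_zero]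
    exact hs
  have hDdim : Fintype.card ι ≤ finrank F D + 4 := by
    have h := finrank_perp_add hQ P
    have h' := Submodule.finrank_add_le_finrank_add_finrank S (Submodule.span F {e} ⊔ Submodule.span F {f})
    have := finrank_span_pair_le hQ e f
    have h'' := finrank_span_pair_le hQ u a
    rw [← hP] at h'; rw [← hD] at h; rw [← hS] at h''
    omega
  have hval : ∀ z₀ : ι → F, ∃ z ∈ D, Q (z₀ + z) = Q y := by
    intro z₀
    by_cases h2 : (2 : F) = 0
    · have h8 := hsmall.resolve_left (fun h => h h2)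
      obtain ⟨c, hcD, hcS⟩ : ∃ c ∈ D, c ∉ S := by
        by_contra hc
        push Not at hc
        have hle : D ≤ S := hc
        have := Submodule.finrank_mono hle
        have h'' := finrank_span_pair_le hQ u a
        rw [← hS] at h''
        omega
      have haD : a ∈ D := by
        refine (hmem a).2 ⟨?_, by rw [b_symm hQ]; exact heS a (Submodule.mem_sup_right (Submodule.mem_span_singleton_self a)),
          by rw [b_symm hQ]; exact hfS a (Submodule.mem_sup_right (Submodule.mem_span_singleton_self a))⟩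
        rw [hS, mem_perp_pair hQ]
        exact ⟨hua, by rw [b_self hQ, h2, zero_mul]⟩
      obtain ⟨r, hr⟩ := Classical.Orth.isSquare_of_two_eq_zero h2 (Q c / Q a)
      have hac : bform hQ a c = 0 :=
        ((hmem c).1 hcD).1 a (Submodule.mem_sup_right (Submodule.mem_span_singleton_self a))
      have hsing : Q (c + r • a) = 0 := by
        rw [q_add hQ, q_smul hQ, map_smul, b_symm hQ c a, hac, smul_zero, add_zero, sq, ← hr,
          div_mul_cancel₀ _ ha]
        linear_combination Q c * h2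
      obtain ⟨d, hd', hdc⟩ := exists_mem_b_ne_zero hQ (S := D) (v := c + r • a) (fun h => hcS (by
        have := (hrad ⟨D.add_mem hcD (D.smul_mem _ haD), h⟩).2
        simpa using S.sub_mem this (S.smul_mem r (Submodule.mem_sup_right (Submodule.mem_span_singleton_self a)))))
      exact exists_value_of_singular hQ (D.add_mem hcD (D.smul_mem _ haD)) hd' hsing
        (by rw [b_symm hQ]; exact hdc) z₀ (Q y)
    · obtain ⟨a', ha', b', hb', hQa, hQb, hab⟩ := exists_nonsingular_pair hQ h2 (R := Submodule.span F {u})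
        (hrad.trans (by
          rintro z ⟨hz, hzS⟩
          obtain ⟨_, hb₁, _, hb₂, rfl⟩ := Submodule.mem_sup.1 hzS
          obtain ⟨r, rfl⟩ := Submodule.mem_span_singleton.1 hb₁
          obtain ⟨t, rfl⟩ := Submodule.mem_span_singleton.1 hb₂
          have := ((mem_perp_pair hQ).1 hz).2
          rw [map_add, map_smul, map_smul, b_symm hQ a u, hua, b_self hQ] at this
          simp [ha, h2, -bform_apply] at this
          rw [this, zero_smul, add_zero]
          exact Submodule.smul_mem _ _ (Submodule.mem_span_singleton_self u)))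
        (by have := finrank_span_le_one hQ u; omega)
      exact exists_value_of_plane hQ h2 ha' hb' hQa hQb hab z₀ (Q y)
  have hlink : ∀ y'', y - y'' ∈ perp hQ S → Q y = Q y'' → bform hQ f y'' ≠ 0 → Shift Q S y y'' := by
    intro y'' hd'' hQy'' hfy
    obtain ⟨z, hzD, hzQ⟩ := hval (y + (bform hQ f y'' - bform hQ f y) • e)
    obtain ⟨hzS, hze, hzf⟩ := (hmem z).1 hzD
    set y₁ := y + (bform hQ f y'' - bform hQ f y) • e + z with hy₁
    have hdiff : y - y₁ ∈ perp hQ S := by
      rw [hy₁, show y - (y + (bform hQ f y'' - bform hQ f y) • e + z) =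
        -((bform hQ f y'' - bform hQ f y) • e + z) by abel]
      exact neg_mem (Submodule.add_mem _ (Submodule.smul_mem _ _ heS) hzS)
    have hf1 : bform hQ f y₁ = bform hQ f y'' := by
      simp only [hy₁, map_add, map_smul, hfe, hzf, smul_eq_mul]; ring
    refine (move_of_root hQ (by omega) he heS hdiff hey ?_ hzQ.symm).trans
      (move_of_root hQ (by omega) hf hfS ?_ (hf1 ▸ hfy) hf1 (hzQ.trans hQy''))
    · simp only [hy₁, map_add, map_smul, hee, hze, smul_zero, add_zero]
    · have := Submodule.sub_mem _ hd'' hdiff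
      rwa [sub_sub_sub_cancel_left] at this
  by_cases hfy : bform hQ f y' = 0
  swap
  · exact hlink y' hd hQy hfy
  have hey' : bform hQ e y' ≠ 0 := hne.resolve_right (fun h => h hfy)
  -- an intermediate vector seen by both
  obtain ⟨z, hzD, hzQ⟩ := hval (y' + e)
  obtain ⟨hzS, hze, hzf⟩ := (hmem z).1 hzD
  have hd1 : y' - (y' + e + z) ∈ perp hQ S := by
    rw [show y' - (y' + e + z) = -(e + z) by abel]; exact neg_mem (Submodule.add_mem _ heS hzS)
  refine (hlink (y' + e + z) ?_ hzQ.symm ?_).trans (move_of_root hQ (by omega) he heS hd1 hey' ?_ ?_).symm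
  · have := Submodule.add_mem _ hd hd1
    rwa [sub_add_sub_cancel] at this
  · simp [map_add, hfy, hfe, hzf, -bform_apply]
  · simp [map_add, hee, hze, -bform_apply]
  · rw [hzQ, hQy]

/-- Transitivity over an orthogonal pair of singular vectors. -/
theorem move_singular_pair (hn : 7 ≤ Fintype.card ι) {u v a a' e f y : ι → F} (hu : Q u = 0) (hv : Q v = 0)
    (huv : bform hQ u v = 1) (ha : Q a = 0) (ha' : Q a' = 0) (haa' : bform hQ a a' = 1)
    (hua : bform hQ u a = 0) (hua' : bform hQ u a' = 0) (hva : bform hQ v a = 0) (hva' : bform hQ v a' = 0)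
    (he : Q e = 0) (hf : Q f = 0) (hef : bform hQ e f = 1)
    (heP : e ∈ perp hQ (Submodule.span F {u} ⊔ Submodule.span F {v} ⊔ (Submodule.span F {a} ⊔ Submodule.span F {a'})))
    (hfP : f ∈ perp hQ (Submodule.span F {u} ⊔ Submodule.span F {v} ⊔ (Submodule.span F {a} ⊔ Submodule.span F {a'})))
    (hy : Q y = 0) (hyS : y ∈ perp hQ (Submodule.span F {u} ⊔ Submodule.span F {a}))
    (hne : bform hQ e y ≠ 0 ∨ bform hQ f y ≠ 0) :
    Move Q (Submodule.span F {u} ⊔ Submodule.span F {a}) f y := by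
  set S := Submodule.span F {u} ⊔ Submodule.span F {a} with hS
  have hn5 : 5 ≤ Fintype.card ι := by omega
  rw [perp_sup hQ, Submodule.mem_inf, mem_perp_pair hQ, mem_perp_pair hQ] at heP hfP
  obtain ⟨⟨hue, hve⟩, hae, ha'e⟩ := heP
  obtain ⟨⟨huf, hvf⟩, haf, ha'f⟩ := hfP
  have heS : e ∈ perp hQ S := (mem_perp_pair hQ).2 ⟨hue, hae⟩
  have hfS : f ∈ perp hQ S := (mem_perp_pair hQ).2 ⟨huf, haf⟩
  have hee := b_self_eq_zero hQ he
  have hff := b_self_eq_zero hQ hf
  have hfe : bform hQ f e = 1 := by rw [b_symm hQ]; exact hef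
  -- scaling by an element of Omega
  have hscale : ∀ (c : F), c ≠ 0 → ∀ w : ι → F, bform hQ u w = 0 → bform hQ v w = 0 → bform hQ a w = 0 →
      bform hQ a' w = 0 → Move Q S w (c⁻¹ • w) := by
    intro c hc w huw hvw haw ha'w
    have hQ1 : ∀ (p p' : ι → F) (t : F), Q p = 0 → Q p' = 0 → bform hQ p p' = 1 → Q (p - t • p') = -t :=
      fun p p' t hp hp' hpp => by rw [q_sub hQ, q_smul hQ, hp, hp', map_smul, hpp, smul_eq_mul]; ring
    have hu1 : Q (u - (1 : F) • v) ≠ 0 := by rw [hQ1 u v 1 hu hv huv]; exact neg_ne_zero.2 one_ne_zero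
    have ha1 : Q (a - (1 : F) • a') ≠ 0 := by rw [hQ1 a a' 1 ha ha' haa']; exact neg_ne_zero.2 one_ne_zero
    have huc : Q (u - c⁻¹ • v) ≠ 0 := by rw [hQ1 u v _ hu hv huv]; exact neg_ne_zero.2 (inv_ne_zero hc)
    have hac : Q (a - c⁻¹ • a') ≠ 0 := by rw [hQ1 a a' _ ha ha' haa']; exact neg_ne_zero.2 (inv_ne_zero hc)
    set h := (reflection hQ hu1 * reflection hQ ha1) * (reflection hQ huc * reflection hQ hac) with hh
    have hhΩ : h ∈ omegaGL Q := mul_mem
      (refl_pair_mem_omega hQ hn5 hu1 ha1 (by rw [hQ1 u v 1 hu hv huv, hQ1 a a' 1 ha ha' haa']))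
      (refl_pair_mem_omega hQ hn5 huc hac (by rw [hQ1 u v _ hu hv huv, hQ1 a a' _ ha ha' haa']))
    have hact : ∀ z, (h : Matrix ι ι F) *ᵥ z = (reflection hQ hu1 : Matrix ι ι F) *ᵥ
        ((reflection hQ ha1 : Matrix ι ι F) *ᵥ ((reflection hQ huc : Matrix ι ι F) *ᵥ
          ((reflection hQ hac : Matrix ι ι F) *ᵥ z))) := fun z => by
      simp only [hh, Units.val_mul, ← Matrix.mulVec_mulVec]
    have hrefl : ∀ (p p' : ι → F) (t : F) (ht : Q (p - t • p') ≠ 0), Q p = 0 → Q p' = 0 → bform hQ p p' = 1 →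
        ((reflection hQ ht : Matrix ι ι F) *ᵥ p = t • p' ∧
          (reflection hQ ht : Matrix ι ι F) *ᵥ p' = t⁻¹ • p) := by
      intro p p' t ht hp hp' hpp
      have ht0 : t ≠ 0 := fun h0 => ht (by rw [hQ1 p p' t hp hp' hpp, h0, neg_zero])
      have hpp' : bform hQ p' p = 1 := by rw [b_symm hQ]; exact hpp
      constructor <;> rw [reflection_mulVec hQ, hQ1 p p' t hp hp' hpp] <;>
        simp only [map_sub, map_smul, LinearMap.sub_apply, LinearMap.smul_apply, b_self_eq_zero hQ hp,
          b_self_eq_zero hQ hp', hpp, hpp', smul_eq_mul]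
      · match_scalars <;> field_simp <;> ring
      · match_scalars <;> field_simp <;> ring
    have hfixrefl : ∀ (p p' z : ι → F) (t : F) (ht : Q (p - t • p') ≠ 0), bform hQ p z = 0 →
        bform hQ p' z = 0 → (reflection hQ ht : Matrix ι ι F) *ᵥ z = z := fun p p' z t ht h1 h2 =>
      reflection_fix hQ ht (by rw [map_sub, LinearMap.sub_apply, map_smul, LinearMap.smul_apply, h1, h2,
        smul_zero, sub_zero])
    have hau : bform hQ a u = 0 := by rw [b_symm hQ]; exact hua
    have ha'u : bform hQ a' u = 0 := by rw [b_symm hQ]; exact hua'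
    have hav : bform hQ a v = 0 := by rw [b_symm hQ]; exact hva
    have ha'v : bform hQ a' v = 0 := by rw [b_symm hQ]; exact hva'
    have hhu : (h : Matrix ι ι F) *ᵥ u = c⁻¹ • u := by
      rw [hact, hfixrefl a a' u _ hac hau ha'u, (hrefl u v _ huc hu hv huv).1, Matrix.mulVec_smul,
        hfixrefl a a' v _ ha1 hav ha'v, Matrix.mulVec_smul, (hrefl u v _ hu1 hu hv huv).2, inv_one, one_smul F u]
    have hha : (h : Matrix ι ι F) *ᵥ a = c⁻¹ • a := by
      rw [hact, (hrefl a a' _ hac ha ha' haa').1, Matrix.mulVec_smul, hfixrefl u v a' _ huc hua' hva',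
        Matrix.mulVec_smul, (hrefl a a' _ ha1 ha ha' haa').2, inv_one, one_smul F a, Matrix.mulVec_smul,
        hfixrefl u v a _ hu1 hua hva]
    have hhw : (h : Matrix ι ι F) *ᵥ w = w := by
      rw [hact, hfixrefl a a' w _ hac haw ha'w, hfixrefl u v w _ huc huw hvw, hfixrefl a a' w _ ha1 haw ha'w,
        hfixrefl u v w _ hu1 huw hvw]
    refine Move.symm ⟨c⁻¹, ⟨h, hhΩ⟩, inv_ne_zero hc, fun z hz => ?_, ?_⟩
    · obtain ⟨_, hb₁, _, hb₂, rfl⟩ := Submodule.mem_sup.1 hz
      obtain ⟨r, rfl⟩ := Submodule.mem_span_singleton.1 hb₁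
      obtain ⟨t, rfl⟩ := Submodule.mem_span_singleton.1 hb₂
      rw [inv_inv, Matrix.mulVec_add, Matrix.mulVec_smul, Matrix.mulVec_smul, hhu, hha]
      match_scalars <;> field_simp
    · rw [inv_inv, Matrix.mulVec_smul, hhw, smul_inv_smul₀ hc]
  -- the classes of `e` and of `f`
  have hclass : ∀ (p p' : ι → F), Q p = 0 → Q p' = 0 → p ∈ perp hQ S → p' ∈ perp hQ S →
      bform hQ p p' = 1 → bform hQ u p' = 0 → bform hQ v p' = 0 → bform hQ a p' = 0 → bform hQ a' p' = 0 →
      ∀ z, Q z = 0 → z ∈ perp hQ S → bform hQ p z ≠ 0 → Move Q S p' z := by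
    intro p p' hp hp' hpS hp'S hpp h1 h2 h3 h4 z hz hzS hpz
    have hm := hscale (bform hQ p z)⁻¹ (inv_ne_zero hpz) p' h1 h2 h3 h4
    rw [inv_inv] at hm
    refine hm.trans (move_of_root hQ hn5 hp hpS (Submodule.sub_mem _ (Submodule.smul_mem _ _ hp'S) hzS) ?_ ?_ ?_).toMove
    · rw [map_smul, hpp, smul_eq_mul, mul_one]; exact hpz
    · rw [map_smul, hpp, smul_eq_mul, mul_one]
    · rw [q_smul hQ, hp', mul_zero, hz]
  by_cases hey : bform hQ e y = 0
  swap
  · exact hclass e f he hf heS hfS hef huf hvf haf ha'f y hy hyS hey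
  refine Move.trans ?_ (hclass f e hf he hfS heS hfe hue hve hae ha'e y hy hyS (hne.resolve_left (fun h => h hey)))
  -- one vector seen by both
  set D := perp hQ (S ⊔ (Submodule.span F {e} ⊔ Submodule.span F {f})) with hD
  obtain ⟨c, hcD, hc⟩ : ∃ c ∈ D, Q c ≠ 0 := by
    by_contra h
    push Not at h
    have hts : IsTotallySingularQuad Q (D ⊔ Submodule.span F {e}) := by
      intro z hz
      obtain ⟨d, hd, _, hb, rfl⟩ := Submodule.mem_sup.1 hz
      obtain ⟨r, rfl⟩ := Submodule.mem_span_singleton.1 hb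
      rw [hD, perp_sup hQ, Submodule.mem_inf, mem_perp_pair hQ (u := e) (v := f)] at hd
      rw [q_add hQ, q_smul hQ, h d (by rw [hD, perp_sup hQ, Submodule.mem_inf, mem_perp_pair hQ (u := e) (v := f)]; exact hd), he,
        map_smul, b_symm hQ d e, hd.2.1, smul_zero]
      ring
    have hlt : D < D ⊔ Submodule.span F {e} := lt_of_le_not_ge le_sup_left fun hle => by
      have h' := hle (Submodule.mem_sup_right (Submodule.mem_span_singleton_self e))
      rw [hD, perp_sup hQ, Submodule.mem_inf, mem_perp_pair hQ (u := e) (v := f), hfe] at h'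
      exact one_ne_zero h'.2.2
    have h1 := two_mul_finrank_le hQ hts
    have h2 := Submodule.finrank_lt_finrank_of_lt hlt
    have h3 := finrank_perp_add hQ (S ⊔ (Submodule.span F {e} ⊔ Submodule.span F {f}))
    have h4 := Submodule.finrank_add_le_finrank_add_finrank S (Submodule.span F {e} ⊔ Submodule.span F {f})
    have h5 := finrank_span_pair_le hQ e f
    have h6 := finrank_span_pair_le hQ u a
    rw [← hS] at h6; rw [← hD] at h3
    omega
  rw [hD, perp_sup hQ, Submodule.mem_inf, mem_perp_pair hQ (u := e) (v := f)] at hcD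
  obtain ⟨hcS, hec, hfc⟩ := hcD
  set z := f + (-Q c) • e + c with hz
  have hQz : Q z = 0 := by
    simp only [hz, q_add hQ, q_smul hQ, he, hf, map_add, map_smul, LinearMap.add_apply, LinearMap.smul_apply,
      hfe, hec, hfc, smul_eq_mul]
    ring
  have hzS : z ∈ perp hQ S :=
    Submodule.add_mem _ (Submodule.add_mem _ hfS (Submodule.smul_mem _ _ heS)) hcS
  refine (move_of_root hQ hn5 he heS (Submodule.sub_mem _ hfS hzS) (by rw [hef]; exact one_ne_zero) ?_
    (hf.trans hQz.symm)).toMove.trans (hclass f e hf he hfS heS hfe hue hve hae ha'e z hQz hzS ?_).symm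
  · simp [hz, map_add, map_smul, hef, hee, hec, -bform_apply]
  · simp [hz, map_add, map_smul, hff, hfe, hfc, hc, -bform_apply]

/-- An affine slice with a prescribed value. -/
lemma card_slice {P : Submodule F (ι → F)} {e : ι → F} (he : Q e = 0) (heP : e ∈ perp hQ P) (z₀ : ι → F)
    (hez : bform hQ e z₀ ≠ 0) (s : F) :
    Nat.card {z : ι → F // z - z₀ ∈ perp hQ P ∧ bform hQ e z = bform hQ e z₀ ∧ Q z = s} * Nat.card F =
      Nat.card F ^ finrank F (perp hQ (P ⊔ Submodule.span F {e})) := by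
  rw [← Module.natCard_eq_pow_finrank (K := F), ← Nat.card_prod]
  have hmem : ∀ d, d ∈ perp hQ (P ⊔ Submodule.span F {e}) ↔ d ∈ perp hQ P ∧ bform hQ e d = 0 := fun d => by
    rw [perp_sup hQ, Submodule.mem_inf, mem_perp_span_singleton hQ]
  have hsol : ∀ (z : ι → F) (t : F), bform hQ e z = bform hQ e z₀ →
      Q (z + t • e) = Q z + t * bform hQ e z₀ := fun z t h => by
    rw [q_add hQ, q_smul hQ, he, map_smul, b_symm hQ z e, h, smul_eq_mul]; ring
  have hee := b_self_eq_zero hQ he
  refine Nat.card_congr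
    { toFun := fun p => ⟨p.1.1 + p.2 • e - z₀, (hmem _).2 ⟨by
        rw [show p.1.1 + p.2 • e - z₀ = (p.1.1 - z₀) + p.2 • e by abel]
        exact Submodule.add_mem _ p.1.2.1 (Submodule.smul_mem _ _ heP),
        by rw [map_sub, map_add, map_smul, hee, p.1.2.2.1, smul_zero, add_zero, sub_self]⟩⟩
      invFun := fun d => (⟨(z₀ + (d : ι → F)) + ((s - Q (z₀ + (d : ι → F))) / bform hQ e z₀) • e, by
        obtain ⟨hdP, hde⟩ := (hmem _).1 d.2
        refine ⟨?_, ?_, ?_⟩
        · rw [add_assoc, add_sub_cancel_left]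
          exact Submodule.add_mem _ hdP (Submodule.smul_mem _ _ heP)
        · rw [map_add, map_add, map_smul, hee, hde, smul_zero, add_zero, add_zero]
        · rw [hsol _ _ (by rw [map_add, hde, add_zero]), div_mul_cancel₀ _ hez, add_sub_cancel]⟩,
        -((s - Q (z₀ + (d : ι → F))) / bform hQ e z₀))
      left_inv := ?_
      right_inv := ?_ }
  · rintro ⟨⟨z, hz₁, hz₂, hz₃⟩, t⟩
    have e1 : z₀ + (z + t • e - z₀) = z + t • e := by abel
    refine Prod.ext (Subtype.ext ?_) ?_
    · show z₀ + (z + t • e - z₀) + _ • e = z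
      rw [e1, hsol z t hz₂, hz₃, show s - (s + t * bform hQ e z₀) = -t * bform hQ e z₀ by ring,
        mul_div_cancel_right₀ _ hez]
      module
    · show -((s - Q (z₀ + (z + t • e - z₀))) / bform hQ e z₀) = t
      rw [e1, hsol z t hz₂, hz₃, show s - (s + t * bform hQ e z₀) = -t * bform hQ e z₀ by ring,
        mul_div_cancel_right₀ _ hez, neg_neg]
  · rintro ⟨d, hd⟩
    refine Subtype.ext ?_
    show z₀ + d + _ • e + -_ • e - z₀ = d
    module

end CfsgLib.MinIndexOrth
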